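/-
S1143 (Tits): the conclusion and the model groups.
-/
import Cfsg.Agent.CHEV.TB.Def
import Cfsg.Prelude.Def_Classification2

set_option autoImplicit false

namespace CL.TB

open CL.Chev

universe u

/-- the conclusion of S1143 -/
def IsL (G : Type*) [Group G] : Prop :=
  Cfsg.IsPSL G ∨ Cfsg.IsPSp G ∨ Cfsg.IsPSU G ∨ Cfsg.IsPOmegaOdd G ∨ Cfsg.IsPOmegaPlus G ∨ Cfsg.IsPOmegaMinus G ∨
    Cfsg.IsExceptionalLieType G

/-- `M` is a finite simple group of Lie type -/
def Md (M : Type) [Group M] : Prop :=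
  Finite M ∧ IsSimpleGroup M ∧ ∀ (G : Type u) [Group G], Nonempty (G ≃* M) → IsL G

/-- `M` acts on a building of type `R` with parameters `q` in which `Bit a b` fails -/
def NB (M : Type) [Group M] {ι κ : Type*} [Fintype κ] [DecidableEq κ] (R : RootSys ι κ) (q : ℕ) (a b : κ) : Prop :=
  ∃ (Ω : Type) (_ : MulAction M Ω) (_ : Finite Ω) (B : Bld R M Ω), (∀ i, B.q i = q) ∧ ¬ B.Bit a b

end CL.TB
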