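/-
S1143 (Tits), QDi1: first properties of the data QD and its five cases.
-/
import Cfsg.Agent.CHEV.TB.Def
import Cfsg.Agent.CLAS.FieldAut
import Cfsg.Agent.KSG.OrthClassify

set_option autoImplicit false
set_option linter.unusedSectionVars false

namespace CL.TB

namespace QDi

variable {K K' : Type*} [Field K] [Finite K] [Field K'] [Finite K']

theorem tern (a b c d e f : K) : ∃ x y z : K, ¬ (x = 0 ∧ y = 0 ∧ z = 0) ∧
    a * (x * x) + b * (y * y) + c * (z * z) + d * (x * y) + e * (x * z) + f * (y * z) = 0 := by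
  let Q : QuadraticForm K (Fin 3 → K) := a • QuadraticMap.proj 0 0 + b • QuadraticMap.proj 1 1 +
    c • QuadraticMap.proj 2 2 + d • QuadraticMap.proj 0 1 + e • QuadraticMap.proj 0 2 + f • QuadraticMap.proj 1 2
  obtain ⟨v, hv, hQ⟩ := CL.Orth.exists_singular Q (by simp)
  refine ⟨v 0, v 1, v 2, fun h => hv ?_, by simpa [Q] using hQ⟩
  funext i
  fin_cases i
  exacts [h.1, h.2.1, h.2.2]

theorem solve {N B M B' M' : K} (h : ∀ x y : K, x * x * N + y * y * M + x * y * B = 0 → x = 0 ∧ y = 0)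
    (h' : ∀ x y : K, x * x * N + y * y * M' + x * y * B' = 0 → x = 0 ∧ y = 0) :
    ∃ t u : K, t * (2 * N) + u * B' = B ∧ t * t * N + u * u * M' + t * u * B' = M := by
  have hN : N ≠ 0 := fun h0 => one_ne_zero (h 1 0 (by simp [h0])).1
  obtain ⟨ζ, hζ⟩ := CL.Orth.exists_irred_quadratic K
  obtain ⟨s, t, h1, h2⟩ := CL.Orth.exists_solve_aniso (a := B / N) (b := M / N) hζ fun x y hxy =>
    h x y (by field_simp at hxy; linear_combination hxy)
  obtain ⟨s', t', h1', h2'⟩ := CL.Orth.exists_solve_aniso (a := B' / N) (b := M' / N) hζ fun x y hxy =>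
    h' x y (by field_simp at hxy; linear_combination hxy)
  rw [eq_div_iff hN] at h1 h2 h1' h2'
  have ht : t' ≠ 0 := by
    rintro rfl
    exact one_ne_zero (h' (-s') 1 (by rw [← h1', ← h2']; ring)).2
  refine ⟨s - t * s' / t', t / t', ?_, ?_⟩
  · rw [← h1, ← h1']; field_simp; ring
  · rw [← h2, ← h1', ← h2']; field_simp; ring

/-- an involutive ring endomorphism as an automorphism -/
def aut (σ : K →+* K) (h : ∀ t, σ (σ t) = t) : K ≃+* K := { σ with invFun := σ, left_inv := h, right_inv := h }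

theorem ord_aut {σ : K →+* K} (h : ∀ t, σ (σ t) = t) (h1 : ¬ ∀ t, σ t = t) : orderOf (aut σ h) = 2 :=
  orderOf_eq_prime (by rw [pow_two]; exact RingEquiv.ext h) fun h0 => h1 fun t => congr($h0 t)

theorem norm_onto {σ : K →+* K} (h : ∀ t, σ (σ t) = t) (h1 : ¬ ∀ t, σ t = t) {r : K} (hr : σ r = r) :
    ∃ t, t * σ t = r := by
  obtain ⟨d, hd⟩ := CL.FieldAut.exists_nrm_eq (σ := aut σ h) (c := r) hr
  rw [ord_aut h h1, CL.FieldAut.nrm_succ', CL.FieldAut.nrm_succ'] at hd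
  refine ⟨d, ?_⟩
  have : d * (aut σ h) d = r := by simpa [CL.FieldAut.nrm] using hd
  exact this

theorem card_fix {σ : K →+* K} (h : ∀ t, σ (σ t) = t) (h1 : ¬ ∀ t, σ t = t) :
    Nat.card {t // σ t = t} ^ 2 = Nat.card K := by
  rw [← CL.FieldAut.card_fixF_pow (aut σ h), ord_aut h h1]
  congr 1
  exact Nat.card_congr (Equiv.subtypeEquivRight fun t => (CL.FieldAut.mem_fixF (σ := aut σ h)).symm)

theorem inv_unique {σ : K →+* K} (h : ∀ t, σ (σ t) = t) (h1 : ¬ ∀ t, σ t = t) {σ' : K' →+* K'}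
    (h' : ∀ t, σ' (σ' t) = t) (h1' : ¬ ∀ t, σ' t = t) (ρ : K ≃+* K') (t : K) : ρ (σ t) = σ' (ρ t) := by
  classical
  let τ : K ≃+* K := (ρ.trans (aut σ' h')).trans ρ.symm
  have hτ : ∀ t, τ t = ρ.symm (σ' (ρ t)) := fun _ => rfl
  have h2 : τ ^ 2 = 1 := by
    rw [pow_two]; refine RingEquiv.ext fun t => ?_
    change τ (τ t) = t
    rw [hτ, hτ, ρ.apply_symm_apply, h', ρ.symm_apply_apply]
  have h3 : τ ≠ 1 := fun h0 => h1' fun t => by
    have : τ (ρ.symm t) = ρ.symm t := congr($h0 (ρ.symm t))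
    rw [hτ, ρ.apply_symm_apply] at this
    exact ρ.symm.injective this
  have h4 : orderOf τ = 2 := orderOf_eq_prime h2 h3
  have := Fintype.ofFinite (K ≃+* K)
  have h5 := IsCyclic.card_orderOf_eq_totient (α := K ≃+* K) (d := 2) (h4 ▸ orderOf_dvd_card)
  rw [Nat.totient_two, Finset.card_eq_one] at h5
  obtain ⟨a, ha⟩ := h5
  have m1 : τ ∈ ({a} : Finset _) := ha ▸ by simpa using h4
  have m2 : aut σ h ∈ ({a} : Finset _) := ha ▸ by simpa using ord_aut h h1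
  rw [Finset.mem_singleton] at m1 m2
  have : τ t = σ t := congr($(m1.trans m2.symm) t)
  rw [← this, hτ, ρ.apply_symm_apply]

end QDi

namespace QD

variable {K V : Type*} [Field K] [Finite K] [Group V] [Finite V] (D : QD K V)

theorem b_one_left (w : V) : D.b 1 w = 0 := by
  have := D.b_mul_left 1 1 w
  rw [mul_one] at this
  linear_combination -this

theorem b_one_right (w : V) : D.b w 1 = 0 := by
  have := D.b_mul_right w 1 1
  rw [mul_one] at this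
  linear_combination -this

theorem N_one : D.N 1 = 0 := by
  have := D.N_mul 1 1
  rw [mul_one, b_one_left] at this
  linear_combination -this

theorem b_inv_left (v w : V) : D.b v⁻¹ w = -D.b v w := by
  have := D.b_mul_left v⁻¹ v w
  rw [inv_mul_cancel, b_one_left] at this
  linear_combination -this

theorem b_swap (v w : V) : D.b w v = -(D.c₀ * D.σ (D.b v w)) := by
  have h1 := D.N_sub (v * w)
  rw [D.N_mul, D.b_mul_left, D.b_mul_right, D.b_mul_right, map_add, map_add] at h1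
  linear_combination D.N_sub v + D.N_sub w - h1

theorem eq_of (v w : V) (h1 : D.N v = D.N w) (h2 : D.b v w = D.b w w) : v = w := by
  have := D.N_mul (v * w⁻¹) w
  rw [inv_mul_cancel_right, D.b_mul_left, b_inv_left, h1, h2] at this
  exact mul_inv_eq_one.1 (D.N_eq_zero _ (by linear_combination -this))

theorem Δ_Δ (d : K) : D.c₀ * D.σ (D.c₀ * D.σ d) = d := by
  rw [map_mul, D.σ_σ, ← mul_assoc, D.c₀_σ, one_mul]

theorem c₀_ne : D.c₀ ≠ 0 := left_ne_zero_of_mul_eq_one D.c₀_σ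

/-- the orthogonal case -/
def O : Prop := D.c₀ = -1 ∧ ∀ t, D.σ t = t

theorem O_iff : D.O ↔ ∀ d, d + D.c₀ * D.σ d = 0 := by
  refine ⟨fun h d => by rw [h.1, h.2]; ring, fun h => ?_⟩
  have h1 : D.c₀ = -1 := by
    have := h 1
    rw [map_one] at this
    linear_combination this
  exact ⟨h1, fun t => by have := h t; rw [h1] at this; linear_combination -this⟩

theorem O_iff_ζ : D.O ↔ ∀ t d, D.ζ t d = 1 := by
  rw [O_iff]
  refine ⟨fun h t d => D.N_eq_zero _ (by rw [D.N_ζ, h]), fun h d => ?_⟩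
  have := D.N_ζ 1 d
  rwa [h, N_one, map_one, one_mul, eq_comm] at this

variable {D}

theorem O.b_self (h : D.O) (v : V) : D.b v v = 2 * D.N v := by
  rw [← D.N_sub, h.1, h.2]; ring

theorem O.b_comm (h : D.O) (v w : V) : D.b w v = D.b v w := by
  rw [D.b_swap, h.1, h.2]; ring

theorem O.comm (h : D.O) (v w : V) : v * w = w * v := by
  refine D.eq_of _ _ ?_ ?_
  · rw [D.N_mul, D.N_mul, h.b_comm v w]; ring
  · rw [D.b_mul_left, D.b_mul_left]; ring

theorem O.sm_neg (h : D.O) (t : K) (v : V) : D.sm (-t) v = (D.sm t v)⁻¹ := by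
  have := D.sm_add (-t) t v
  rw [D.O_iff_ζ.1 h, mul_one, neg_add_cancel, D.sm_zero] at this
  exact eq_inv_of_mul_eq_one_left this.symm

theorem O.N2 (h : D.O) (v w : V) (t u : K) :
    D.N (D.sm t v * D.sm u w) = t * t * D.N v + u * u * D.N w + t * u * D.b v w := by
  rw [D.N_mul, D.N_sm, D.N_sm, D.b_sm_left, D.b_sm_right, h.2, h.2]; ring

theorem O.b2 (h : D.O) (v w : V) (t u t' u' : K) :
    D.b (D.sm t v * D.sm u w) (D.sm t' v * D.sm u' w) =
      t * t' * (2 * D.N v) + u * u' * (2 * D.N w) + (t * u' + u * t') * D.b v w := by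
  simp only [D.b_mul_left, D.b_mul_right, D.b_sm_left, D.b_sm_right, h.2, h.b_self, h.b_comm v w]
  ring

theorem sm_cancel {t : K} (ht : t ≠ 0) (v : V) : D.sm t⁻¹ (D.sm t v) = v := by
  rw [← D.sm_mul, inv_mul_cancel₀ ht, D.sm_one]

theorem sm_one' (t : K) : D.sm t 1 = 1 := by
  have := D.sm_hom t 1 1
  rw [mul_one] at this
  exact left_eq_mul.1 this

theorem O.cases (h : D.O) :
    (Nat.card V = Nat.card K ∧ ∃ v₀, v₀ ≠ 1 ∧ ∀ v, ∃ t, v = D.sm t v₀) ∨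
    (Nat.card V = Nat.card K ^ 2 ∧ ∃ v₀ v₁,
      (∀ x y : K, x * x * D.N v₀ + y * y * D.N v₁ + x * y * D.b v₀ v₁ = 0 → x = 0 ∧ y = 0) ∧
      ∀ v, ∃ t u, v = D.sm t v₀ * D.sm u v₁) := by
  obtain ⟨v₀, h0⟩ := D.nontriv
  have hN : D.N v₀ ≠ 0 := fun h1 => h0 (D.N_eq_zero _ h1)
  by_cases h1 : ∀ v, ∃ t, v = D.sm t v₀
  · refine Or.inl ⟨?_, v₀, h0, h1⟩
    refine (Nat.card_congr (Equiv.ofBijective (fun t => D.sm t v₀) ⟨fun t u htu => ?_, fun v => ?_⟩)).symm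
    · have e1 := congrArg D.N htu
      have e2 := congrArg (fun z => D.b z (D.sm u v₀)) htu
      simp only [D.N_sm, D.b_sm_left, D.b_sm_right, h.2, h.b_self] at e1 e2
      have : (t - u) ^ 2 * D.N v₀ = 0 := by linear_combination e1 - e2
      exact sub_eq_zero.1 (pow_eq_zero_iff two_ne_zero |>.1 ((mul_eq_zero.1 this).resolve_right hN))
    · obtain ⟨t, ht⟩ := h1 v
      exact ⟨t, ht.symm⟩
  right
  push Not at h1
  obtain ⟨v₁, h1⟩ := h1
  have han : ∀ x y : K, x * x * D.N v₀ + y * y * D.N v₁ + x * y * D.b v₀ v₁ = 0 → x = 0 ∧ y = 0 := by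
    intro x y hxy
    have hy : y = 0 := by
      by_contra hy
      rw [← h.N2] at hxy
      have e1 := congrArg (D.sm y⁻¹) (D.N_eq_zero _ hxy)
      rw [D.sm_hom, sm_cancel hy, sm_one', ← D.sm_mul] at e1
      exact h1 _ ((eq_inv_of_mul_eq_one_right e1).trans (h.sm_neg _ _).symm)
    subst hy
    exact ⟨by simpa [hN] using hxy, rfl⟩
  have hs : ∀ v, ∃ t u, v = D.sm t v₀ * D.sm u v₁ := by
    intro v
    obtain ⟨x, y, z, hne, hq⟩ := QDi.tern (D.N v₀) (D.N v₁) (D.N v) (D.b v₀ v₁) (D.b v₀ v) (D.b v₁ v)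
    have hz : z ≠ 0 := by
      rintro rfl
      obtain ⟨rfl, rfl⟩ := han x y (by linear_combination hq)
      exact hne ⟨rfl, rfl, rfl⟩
    have e0 : D.N (D.sm x v₀ * D.sm y v₁ * D.sm z v) = 0 := by
      rw [D.N_mul, h.N2, D.N_sm, D.b_mul_left]
      simp only [D.b_sm_left, D.b_sm_right, h.2]
      linear_combination hq
    have e1 := congrArg (D.sm z⁻¹) (D.N_eq_zero _ e0)
    rw [D.sm_hom, D.sm_hom, sm_cancel hz, sm_one', ← D.sm_mul, ← D.sm_mul] at e1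
    refine ⟨-(z⁻¹ * x), -(z⁻¹ * y), ?_⟩
    rw [eq_inv_of_mul_eq_one_right e1, h.sm_neg, h.sm_neg, mul_inv_rev, h.comm]
  refine ⟨?_, v₀, v₁, han, hs⟩
  rw [pow_two, ← Nat.card_prod]
  refine (Nat.card_congr (Equiv.ofBijective (fun p : K × K => D.sm p.1 v₀ * D.sm p.2 v₁)
    ⟨fun p p' hp => ?_, fun v => ?_⟩)).symm
  · have e1 := congrArg D.N hp
    have e2 := congrArg (fun z => D.b z (D.sm p'.1 v₀ * D.sm p'.2 v₁)) hp
    simp only [h.N2, h.b2] at e1 e2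
    obtain ⟨a1, a2⟩ := han (p.1 - p'.1) (p.2 - p'.2) (by linear_combination e1 - e2)
    exact Prod.ext (sub_eq_zero.1 a1) (sub_eq_zero.1 a2)
  · obtain ⟨t, u, ht⟩ := hs v
    exact ⟨(t, u), ht.symm⟩

theorem exists_tr (h : ¬ D.O) : ∃ t, t + D.σ t = 1 := by
  have : ∃ t, t + D.σ t ≠ 0 := by
    by_contra! h1
    have h2 : (2 : K) = 0 := by have := h1 1; rw [map_one] at this; linear_combination this
    have h3 : ∀ t, D.σ t = t := fun t => by linear_combination h1 t - t * h2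
    refine h ⟨?_, h3⟩
    have h4 := D.c₀_σ
    rw [h3] at h4
    have : (D.c₀ + 1) ^ 2 = 0 := by linear_combination h4 + (D.c₀ + 1) * h2
    linear_combination pow_eq_zero_iff two_ne_zero |>.1 this
  obtain ⟨t, ht⟩ := this
  refine ⟨t / (t + D.σ t), ?_⟩
  rw [map_div₀, map_add, D.σ_σ, add_comm (D.σ t) t, ← add_div, div_self ht]

theorem exists_fix (h : ¬ D.O) : ∃ f, f ≠ 0 ∧ D.c₀ * D.σ f = f := by
  rw [O_iff] at h
  push Not at h
  obtain ⟨d, hd⟩ := h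
  exact ⟨_, hd, by rw [map_add, mul_add, Δ_Δ, add_comm]⟩

theorem exists_rad (h : ¬ D.O) {f : K} (hf : D.c₀ * D.σ f = f) : ∃ z, (∀ w, D.b z w = 0) ∧ D.N z = f := by
  obtain ⟨t, ht⟩ := exists_tr h
  refine ⟨D.ζ 1 (t * f), D.b_ζ _ _, ?_⟩
  rw [D.N_ζ, map_one, one_mul, map_mul]
  linear_combination D.σ t * hf + f * ht

theorem rad_right {z : V} (hz : ∀ w, D.b z w = 0) (w : V) : D.b w z = 0 := by
  rw [D.b_swap, hz, map_zero, mul_zero, neg_zero]

theorem fix_of_b {v : V} (hv : D.b v v = 0) : D.c₀ * D.σ (D.N v) = D.N v := by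
  linear_combination -hv - D.N_sub v

theorem rad_of_b (h : ¬ D.O) {v : V} (hv : D.b v v = 0) (w : V) : D.b v w = 0 := by
  obtain ⟨z, hz, hN⟩ := exists_rad h (fix_of_b hv)
  rw [D.eq_of v z hN.symm (by rw [rad_right hz, hz]), hz]

theorem card_rad (h : ¬ D.O) : Nat.card {z // ∀ w, D.b z w = 0} = Nat.card {f // D.c₀ * D.σ f = f} := by
  refine Nat.card_congr (Equiv.ofBijective (fun z => ⟨D.N z.1, fix_of_b (z.2 _)⟩) ⟨fun z z' hz => ?_, fun f => ?_⟩)
  · exact Subtype.ext (D.eq_of _ _ (congrArg Subtype.val hz) (by rw [z.2, z'.2]))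
  · obtain ⟨z, hz, hN⟩ := exists_rad h f.2
    exact ⟨⟨z, hz⟩, Subtype.ext hN⟩

theorem card_F (h : ¬ D.O) : Nat.card {f // D.c₀ * D.σ f = f} = Nat.card {t // D.σ t = t} := by
  obtain ⟨f, hf0, hf⟩ := exists_fix h
  refine (Nat.card_congr (Equiv.ofBijective (fun t => ⟨t.1 * f, by rw [map_mul, t.2]; linear_combination t.1 * hf⟩)
    ⟨fun t u htu => ?_, fun g => ?_⟩)).symm
  · exact Subtype.ext (mul_right_cancel₀ hf0 (congrArg Subtype.val htu))
  · refine ⟨⟨g.1 / f, ?_⟩, Subtype.ext (div_mul_cancel₀ _ hf0)⟩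
    rw [map_div₀, div_eq_div_iff ((map_ne_zero _).2 hf0) hf0]
    linear_combination -D.σ g.1 * hf + D.σ f * g.2

theorem anti_div {x y : K} (hx : D.c₀ * D.σ x = -x) (hy : D.c₀ * D.σ y = -y) (h0 : y ≠ 0) : D.σ (x / y) = x / y := by
  rw [map_div₀, div_eq_div_iff ((map_ne_zero _).2 h0) h0]
  linear_combination D.σ x * hy - D.σ y * hx

theorem anti_b (v : V) : D.c₀ * D.σ (D.b v v) = -D.b v v := by
  linear_combination D.b_swap v v

theorem b_of_id (h : ¬ D.O) (h1 : ∀ t, D.σ t = t) (v w : V) : D.b v w = 0 := by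
  have h4 := D.c₀_σ
  rw [h1] at h4
  have h5 : D.c₀ = 1 := (mul_self_eq_one_iff.1 h4).resolve_right fun h0 => h ⟨h0, h1⟩
  exact rad_of_b h (by rw [← D.N_sub, h5, h1]; ring) w

theorem span_U (h : ¬ D.O) (h1 : ¬ ∀ t, D.σ t = t) {v₀ : V} (h0 : D.b v₀ v₀ ≠ 0) (v : V) :
    ∃ a z, (∀ w, D.b z w = 0) ∧ v = D.sm a v₀ * z := by
  refine ⟨D.b v v₀ / D.b v₀ v₀, (D.sm (D.b v v₀ / D.b v₀ v₀) v₀)⁻¹ * v, ?_, by group⟩
  generalize hz : (D.sm (D.b v v₀ / D.b v₀ v₀) v₀)⁻¹ * v = z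
  have e1 : D.b z v₀ = 0 := by
    rw [← hz, D.b_mul_left, b_inv_left, D.b_sm_left, div_mul_cancel₀ _ h0, neg_add_cancel]
  have e2 : D.b v₀ z = 0 := by rw [D.b_swap, e1, map_zero, mul_zero, neg_zero]
  obtain ⟨t, ht⟩ := QDi.norm_onto D.σ_σ h1 (r := -D.b z z / D.b v₀ v₀)
    (anti_div (by rw [map_neg, mul_neg, anti_b]) (anti_b v₀) h0)
  rw [eq_div_iff h0] at ht
  have e3 := rad_of_b h (v := D.sm t v₀ * z) (by
    simp only [D.b_mul_left, D.b_mul_right, D.b_sm_left, D.b_sm_right, e1, e2]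
    linear_combination ht) z
  rw [D.b_mul_left, D.b_sm_left, e2, mul_zero, zero_add] at e3
  exact rad_of_b h e3

variable (D) in
/-- the five cases -/
theorem cls : ∃ k, Nat.card V ^ 2 = Nat.card K ^ k ∧
    ((k = 2 ∧ D.O ∧ ∃ v₀, v₀ ≠ 1 ∧ ∀ v, ∃ t, v = D.sm t v₀) ∨
    (k = 4 ∧ D.O ∧ ∃ v₀ v₁,
      (∀ x y : K, x * x * D.N v₀ + y * y * D.N v₁ + x * y * D.b v₀ v₁ = 0 → x = 0 ∧ y = 0) ∧
      ∀ v, ∃ t u, v = D.sm t v₀ * D.sm u v₁) ∨
    (k = 2 ∧ ¬ D.O ∧ (∀ t, D.σ t = t) ∧ ∀ v w, D.b v w = 0) ∨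
    (k = 1 ∧ ¬ D.O ∧ (¬ ∀ t, D.σ t = t) ∧ ∀ v w, D.b v w = 0) ∨
    (k = 3 ∧ ¬ D.O ∧ (¬ ∀ t, D.σ t = t) ∧ ∃ v₀, D.b v₀ v₀ ≠ 0)) := by
  by_cases h : D.O
  · rcases h.cases with ⟨h1, h2⟩ | ⟨h1, h2⟩
    · exact ⟨2, by rw [h1], Or.inl ⟨rfl, h, h2⟩⟩
    · exact ⟨4, by rw [h1, ← pow_mul], Or.inr (Or.inl ⟨rfl, h, h2⟩)⟩
  have hc := (card_rad h).trans (card_F h)
  have hA : (∀ v w, D.b v w = 0) → Nat.card V = Nat.card {t // D.σ t = t} := fun hb => by
    rw [← hc]; exact (Nat.card_congr (Equiv.subtypeUnivEquiv hb)).symm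
  by_cases h1 : ∀ t, D.σ t = t
  · refine ⟨2, ?_, Or.inr (Or.inr (Or.inl ⟨rfl, h, h1, b_of_id h h1⟩))⟩
    rw [hA (b_of_id h h1), Nat.card_congr (Equiv.subtypeUnivEquiv h1)]
  have hq := QDi.card_fix D.σ_σ h1
  by_cases h2 : ∀ v, D.b v v = 0
  · have hb := fun v => rad_of_b h (h2 v)
    exact ⟨1, by rw [hA hb, hq, pow_one], Or.inr (Or.inr (Or.inr (Or.inl ⟨rfl, h, h1, hb⟩)))⟩
  push Not at h2
  obtain ⟨v₀, h0⟩ := h2
  refine ⟨3, ?_, Or.inr (Or.inr (Or.inr (Or.inr ⟨rfl, h, h1, v₀, h0⟩)))⟩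
  have : Nat.card V = Nat.card K * Nat.card {z // ∀ w, D.b z w = 0} := by
    rw [← Nat.card_prod]
    refine (Nat.card_congr (Equiv.ofBijective (fun p : K × {z // ∀ w, D.b z w = 0} => D.sm p.1 v₀ * p.2.1)
      ⟨fun p p' hp => ?_, fun v => ?_⟩)).symm
    · have e2 := congrArg (fun z => D.b z v₀) hp
      simp only [D.b_mul_left, D.b_sm_left, p.2.2, p'.2.2, add_zero] at e2
      have e3 := mul_right_cancel₀ h0 e2
      simp only [e3] at hp
      exact Prod.ext e3 (Subtype.ext (mul_left_cancel hp))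
    · obtain ⟨a, z, hz, hv⟩ := span_U h h1 h0 v
      exact ⟨(a, ⟨z, hz⟩), hv.symm⟩
  rw [this, hc, mul_pow, hq]
  ring

end QD

end CL.TB
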