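/-
S1143 (Tits), QDi: classification of the data QD over finite fields.
Notation: q = |K|, n = |V|, Delta d = c0 * sigma d (additive, involutive).  Polarising N_sub: b w v = -Delta (b v w).  Rad = {v | b v . = 0}; N is an injective
homomorphism on Rad with image in F = {d | Delta d = d}, containing all d + Delta d (N_zeta).
Case O (Delta = -1, i.e. c0 = -1, sigma = id): zeta = 1, V is abelian, a K-vector space (sm_add), N an anisotropic quadratic form, so dim = 1 or 2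
(Chevalley-Warning, or: a X^2 + b X Y + c Y^2 anisotropic represents every value): n = q or q^2.
Otherwise N(Rad) = F, and b v v = 0 -> v in Rad (N v in F; multiply by z in Rad with N z = -N v).
Case S (sigma = id, c0 = 1, char not 2): F = K, b v v = 0, V = Rad, n = q.  Case U (sigma not id): q = q0^2, |F| = q0 (F is a line over the fixed field K0; the norm K -> K0 is onto);
either V = Rad, n = q0, or there is v0 with b0 = b v0 v0 not 0, Delta b0 = -b0, and v |-> (b v v0 / b0, N v) is a bijection onto {(a, e) | e - Delta e = a sigma(a) b0}, n = q0^3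
(if b v v0 = 0 and b v v not 0 choose t with t sigma(t) b0 = -b v v; then w = sm t v0 * v has b w w = 0, so w in Rad, but b w v = b v v).
-/
import Cfsg.Agent.CHEV.TB.QDi1

set_option autoImplicit false
set_option linter.unusedSectionVars false

namespace CL.TB

open CL.Chev
open scoped MatrixGroups commutatorElement

namespace QD

variable {K V K' V' : Type*} [Field K] [Finite K] [Group V] [Finite V] [Field K'] [Finite K'] [Group V'] [Finite V']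
  (D : QD K V) (D' : QD K' V')

include D in
theorem cases : Nat.card V = Nat.card K ∨ Nat.card V = Nat.card K ^ 2 ∨ Nat.card V ^ 2 = Nat.card K ∨
    Nat.card V ^ 2 = Nat.card K ^ 3 := by
  obtain ⟨k, hk, h⟩ := D.cls
  rcases h with ⟨rfl, -⟩ | ⟨rfl, -⟩ | ⟨rfl, -⟩ | ⟨rfl, -⟩ | ⟨rfl, -⟩
  · exact Or.inl (Nat.pow_left_injective two_ne_zero hk)
  · exact Or.inr (Or.inl (Nat.pow_left_injective two_ne_zero (by simp only; rw [hk, ← pow_mul])))
  · exact Or.inl (Nat.pow_left_injective two_ne_zero hk)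
  · exact Or.inr (Or.inr (Or.inl (by rw [hk, pow_one])))
  · exact Or.inr (Or.inr (Or.inr hk))

theorem two_ne_of_odd (ho : Odd (Nat.card K)) : (2 : K) ≠ 0 := by
  intro h2
  have := Fintype.ofFinite K
  have h3 : ringChar K = 2 := (CharP.ringChar_of_prime_eq_zero Nat.prime_two (by exact_mod_cast h2))
  have := FiniteField.even_card_of_char_two h3
  rw [Nat.card_eq_fintype_card, Nat.odd_iff] at ho
  omega

theorem odd_of_S (h : ¬ D.O) (h1 : ∀ t, D.σ t = t) : Odd (Nat.card K) := by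
  have := Fintype.ofFinite K
  obtain ⟨t, ht⟩ := exists_tr h
  rw [h1] at ht
  rw [Nat.card_eq_fintype_card, Nat.odd_iff]
  refine FiniteField.odd_card_of_char_ne_two fun h2 => ?_
  have h3 : ((2 : ℕ) : K) = 0 := by rw [← h2]; exact ringChar.Nat.cast_ringChar
  exact one_ne_zero (α := K) (by push_cast at h3; linear_combination t * h3 - ht)

theorem xor (h : Nat.card V = Nat.card K) (ho : Odd (Nat.card K)) : (∀ t d, D.ζ t d = 1) ↔ ¬ ∀ v w, D.b v w = 0 := by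
  rw [← D.O_iff_ζ]
  refine ⟨fun hO hb => ?_, fun hb => ?_⟩
  · obtain ⟨v, hv⟩ := D.nontriv
    have := hO.b_self v
    rw [hb] at this
    exact hv (D.N_eq_zero _ ((mul_eq_zero.1 this.symm).resolve_left (two_ne_of_odd ho)))
  · obtain ⟨k, hk, hc⟩ := D.cls
    rw [h] at hk
    have := Nat.pow_right_injective (Finite.one_lt_card (α := K)) hk
    rcases hc with ⟨-, hO, -⟩ | ⟨-, hO, -⟩ | ⟨-, -, -, h1⟩ | ⟨-, -, -, h1⟩ | ⟨rfl, -⟩
    exacts [hO, hO, absurd h1 hb, absurd h1 hb, by omega]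

theorem fin (hV : Nat.card V = Nat.card V') (ρ : K ≃+* K') {c : K'} (hc : c ≠ 0) (hσ : ∀ t, ρ (D.σ t) = D'.σ (ρ t))
    (hΔ : ∀ d, c * ρ (D.c₀ * D.σ d) = D'.c₀ * D'.σ (c * ρ d)) (f : V → V') (hN : ∀ v, D'.N (f v) = c * ρ (D.N v))
    (hb : ∀ v w, D'.b (f v) (f w) = c * ρ (D.b v w)) :
    ∃ (ρ : K ≃+* K') (c : K') (φ : V ≃* V'), c ≠ 0 ∧ (∀ t v, φ (D.sm t v) = D'.sm (ρ t) (φ v)) ∧
      (∀ v, D'.N (φ v) = c * ρ (D.N v)) ∧ (∀ v w, D'.b (φ v) (φ w) = c * ρ (D.b v w)) ∧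
      ∀ t d, φ (D.ζ t d) = D'.ζ (ρ t) (c * ρ d) := by
  have hm : ∀ v w, f (v * w) = f v * f w := fun v w => by
    refine (D'.eq_of _ _ ?_ ?_).symm
    · rw [D'.N_mul, hN, hN, hN, hb, D.N_mul, map_add, map_add]; ring
    · rw [D'.b_mul_left, hb, hb, hb, D.b_mul_left v w, map_add]; ring
  let g : V →* V' := MonoidHom.mk' f hm
  have hi : Function.Injective g := (injective_iff_map_eq_one g).2 fun v hv => D.N_eq_zero _ (by
    have := hN v
    rw [show f v = 1 from hv, D'.N_one, eq_comm, mul_eq_zero, map_eq_zero] at this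
    exact this.resolve_left hc)
  have hbij : Function.Bijective g := hi.bijective_of_nat_card_le hV.ge
  refine ⟨ρ, c, MulEquiv.ofBijective g hbij, hc, fun t v => ?_, hN, hb, fun t d => ?_⟩
  · change f _ = D'.sm _ (f v)
    refine (D'.eq_of _ _ ?_ ?_).symm
    · rw [D'.N_sm, hN, hN, D.N_sm, map_mul, map_mul, hσ]; ring
    · rw [D'.b_sm_left, hb, hb, D.b_sm_left, map_mul]; ring
  · change f _ = _
    refine (D'.eq_of _ _ ?_ ?_).symm
    · rw [D'.N_ζ, hN, D.N_ζ, map_add, mul_add, hΔ, map_mul ρ, hσ, mul_left_comm c]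
    · rw [D'.b_ζ, hb, D.b_ζ, map_zero, mul_zero]

theorem hΔ_of {ρ : K ≃+* K'} (hσ : ∀ t, ρ (D.σ t) = D'.σ (ρ t)) (h : ¬ D.O) (h' : ¬ D'.O) :
    ∃ c, c ≠ 0 ∧ ∀ d, c * ρ (D.c₀ * D.σ d) = D'.c₀ * D'.σ (c * ρ d) := by
  obtain ⟨f, hf0, hf⟩ := exists_fix h
  obtain ⟨f', hf0', hf'⟩ := exists_fix h'
  have h1 : ρ f ≠ 0 := (map_ne_zero ρ).2 hf0
  have h2 : D'.σ (ρ f) ≠ 0 := (map_ne_zero _).2 h1
  have h3 := congrArg ρ hf
  rw [map_mul, hσ] at h3
  refine ⟨f' / ρ f, div_ne_zero hf0' h1, fun d => ?_⟩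
  rw [map_mul, map_mul, map_div₀, hσ]
  field_simp
  linear_combination f' * D'.σ (ρ d) * h3 - D'.σ (ρ d) * ρ f * hf'

/-- `ρ` from `FiniteField.ringEquivOfCardEq`; `ρ σ = σ' ρ` as a finite field has at most one involution (`σ t = t ^ q₀`).  The cases of `D`, `D'` agree
(`n = q`, `q` even forces case O; `ζ = 1` iff case O).  O, `dim = 1`: `φ (sm t v₀) = sm (ρ t) v₀'`, `c = N v₀' / ρ (N v₀)`.  O, `dim = 2`: with `c` as before find `v₁'` with
`b v₀' v₁' = c ρ (b v₀ v₁)`, `N v₁' = c ρ (N v₁)` (the map `V' \ K' v₀' → ` irreducible monic quadratics is at most two-to-one, or use the quadratic extension).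
S, U: `c = f' / ρ f` for `0 ≠ f ∈ F`, `0 ≠ f' ∈ F'` gives `c ρ (Δ d) = Δ' (c ρ d)`; rescale `v₀'` so that `b₀' = c ρ b₀`; `φ` through the coordinates.
Finally `b' (φ v) (φ w) = c ρ (b v w)` by `N_mul`, and `φ ζ = ζ'` because `N'` is injective on `Rad'`. -/
theorem iso (hK : Nat.card K = Nat.card K') (hV : Nat.card V = Nat.card V')
    (hb : Nat.card V = Nat.card K → Odd (Nat.card K) → ((∀ t d, D.ζ t d = 1) ↔ ∀ t d, D'.ζ t d = 1)) :
    ∃ (ρ : K ≃+* K') (c : K') (φ : V ≃* V'), c ≠ 0 ∧ (∀ t v, φ (D.sm t v) = D'.sm (ρ t) (φ v)) ∧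
      (∀ v, D'.N (φ v) = c * ρ (D.N v)) ∧ (∀ v w, D'.b (φ v) (φ w) = c * ρ (D.b v w)) ∧
      ∀ t d, φ (D.ζ t d) = D'.ζ (ρ t) (c * ρ d) := by
  have := Fintype.ofFinite K
  have := Fintype.ofFinite K'
  let ρ : K ≃+* K' := FiniteField.ringEquivOfCardEq (by rwa [← Nat.card_eq_fintype_card, ← Nat.card_eq_fintype_card])
  obtain ⟨k, hk, h⟩ := D.cls
  obtain ⟨k', hk', h'⟩ := D'.cls
  have hkk : k = k' := Nat.pow_right_injective (Finite.one_lt_card (α := K)) (by simp only; rw [← hk, hV, hk', hK])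
  subst hkk
  have hOσ : D.O → D'.O → ∀ t, ρ (D.σ t) = D'.σ (ρ t) := fun h h' t => by rw [h.2, h'.2]
  have hOΔ : D.O → D'.O → ∀ c d, c * ρ (D.c₀ * D.σ d) = D'.c₀ * D'.σ (c * ρ d) := fun h h' c d => by
    rw [h.1, h.2, h'.1, h'.2]; simp
  have hA : ¬ D.O → ¬ D'.O → (∀ t, ρ (D.σ t) = D'.σ (ρ t)) → (∀ v w, D.b v w = 0) →
      ∃ (ρ : K ≃+* K') (c : K') (φ : V ≃* V'), c ≠ 0 ∧ (∀ t v, φ (D.sm t v) = D'.sm (ρ t) (φ v)) ∧
      (∀ v, D'.N (φ v) = c * ρ (D.N v)) ∧ (∀ v w, D'.b (φ v) (φ w) = c * ρ (D.b v w)) ∧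
      ∀ t d, φ (D.ζ t d) = D'.ζ (ρ t) (c * ρ d) := fun h h' hσ h0 => by
    obtain ⟨c, hc, hΔ⟩ := hΔ_of D D' hσ h h'
    choose f hf hN using fun v => exists_rad h' (f := c * ρ (D.N v)) (by rw [← hΔ, fix_of_b (h0 v v)])
    exact fin D D' hV ρ hc hσ hΔ f hN fun v w => by rw [hf, h0, map_zero, mul_zero]
  have h2 : Nat.card V ^ 2 = Nat.card K ^ 2 → Odd (Nat.card K) → (D.O ↔ D'.O) := fun e ho => by
    rw [O_iff_ζ, O_iff_ζ]; exact hb (Nat.pow_left_injective two_ne_zero e) ho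
  rcases h with ⟨rfl, hO, v₀, h0, hs⟩ | ⟨rfl, hO, v₀, v₁, han, hs⟩ | ⟨rfl, hO, h1, h0⟩ | ⟨rfl, hO, h1, h0⟩ |
    ⟨rfl, hO, h1, v₀, h0⟩
  · have hO' : D'.O := by
      rcases h' with ⟨-, hO', -⟩ | ⟨-, hO', -⟩ | ⟨-, hO', h1', -⟩ | ⟨e, -⟩ | ⟨e, -⟩
      exacts [hO', hO', (h2 hk (hK ▸ D'.odd_of_S hO' h1')).1 hO, by omega, by omega]
    obtain ⟨w₀, hw⟩ := D'.nontriv
    have hN : ρ (D.N v₀) ≠ 0 := (map_ne_zero ρ).2 fun e => h0 (D.N_eq_zero _ e)
    choose τ hτ using hs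
    have e0 : D'.N w₀ = D'.N w₀ / ρ (D.N v₀) * ρ (D.N v₀) := (div_mul_cancel₀ _ hN).symm
    refine fin D D' hV ρ (c := D'.N w₀ / ρ (D.N v₀)) (div_ne_zero (fun e => hw (D'.N_eq_zero _ e)) hN) (hOσ hO hO')
      (hOΔ hO hO' _) (fun v => D'.sm (ρ (τ v)) w₀) (fun v => ?_) fun v w => ?_
    · conv_rhs => rw [hτ v]
      rw [D'.N_sm, D.N_sm, hO.2, hO'.2, map_mul, map_mul]
      linear_combination ρ (τ v) * ρ (τ v) * e0
    · conv_rhs => rw [hτ v, hτ w]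
      rw [D'.b_sm_left, D'.b_sm_right, D.b_sm_left, D.b_sm_right, hO.2, hO'.2, hO.b_self, hO'.b_self]
      simp only [map_mul, map_ofNat]
      linear_combination ρ (τ v) * ρ (τ w) * 2 * e0
  · obtain ⟨hO', w₀, w₁, han'⟩ : D'.O ∧ ∃ w₀ w₁,
        ∀ x y : K', x * x * D'.N w₀ + y * y * D'.N w₁ + x * y * D'.b w₀ w₁ = 0 → x = 0 ∧ y = 0 := by
      rcases h' with ⟨e, -⟩ | ⟨-, hO', w₀, w₁, h, -⟩ | ⟨e, -⟩ | ⟨e, -⟩ | ⟨e, -⟩
      exacts [by omega, ⟨hO', w₀, w₁, h⟩, by omega, by omega, by omega]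
    have hN : ρ (D.N v₀) ≠ 0 := (map_ne_zero ρ).2 fun e => one_ne_zero (han 1 0 (by simp [e])).1
    have hN' : D'.N w₀ ≠ 0 := fun e => one_ne_zero (han' 1 0 (by simp [e])).1
    obtain ⟨c, hc, e0⟩ : ∃ c, c ≠ 0 ∧ D'.N w₀ = c * ρ (D.N v₀) :=
      ⟨_, div_ne_zero hN' hN, (div_mul_cancel₀ _ hN).symm⟩
    obtain ⟨t, u, e1, e2⟩ := QDi.solve (N := D'.N w₀) (B := c * ρ (D.b v₀ v₁)) (M := c * ρ (D.N v₁)) (fun x y hxy => by
      obtain ⟨x, rfl⟩ := ρ.surjective x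
      obtain ⟨y, rfl⟩ := ρ.surjective y
      have := han x y (ρ.injective (mul_left_cancel₀ hc (by
        simp only [map_add, map_mul, map_zero]; rw [e0] at hxy; linear_combination hxy)))
      simp [this.1, this.2]) han'
    rw [← hO'.N2] at e2
    rw [← hO'.b_self, ← hO'.2 t, ← hO'.2 u, ← D'.b_sm_right, ← D'.b_sm_right, ← D'.b_mul_right] at e1
    generalize D'.sm t w₀ * D'.sm u w₁ = w₂ at e1 e2
    choose τ υ hτ using hs
    refine fin D D' hV ρ hc (hOσ hO hO') (hOΔ hO hO' _) (fun v => D'.sm (ρ (τ v)) w₀ * D'.sm (ρ (υ v)) w₂)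
      (fun v => ?_) fun v w => ?_
    · conv_rhs => rw [hτ v]
      simp only [hO.N2, hO'.N2, e0, e1, e2, map_add, map_mul]
      ring
    · conv_rhs => rw [hτ v, hτ w]
      simp only [hO.b2, hO'.b2, e0, e1, e2, map_add, map_mul, map_ofNat]
      ring
  · obtain ⟨hO', h1'⟩ : ¬ D'.O ∧ ∀ t, D'.σ t = t := by
      rcases h' with ⟨-, hO', -⟩ | ⟨e, -⟩ | ⟨-, hO', h1', -⟩ | ⟨e, -⟩ | ⟨e, -⟩
      exacts [absurd ((h2 hk (D.odd_of_S hO h1)).2 hO') hO, by omega, ⟨hO', h1'⟩, by omega, by omega]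
    exact hA hO hO' (fun t => by rw [h1, h1']) h0
  · obtain ⟨hO', h1'⟩ : ¬ D'.O ∧ ¬ ∀ t, D'.σ t = t := by
      rcases h' with ⟨e, -⟩ | ⟨e, -⟩ | ⟨e, -⟩ | ⟨-, hO', h1', -⟩ | ⟨e, -⟩
      exacts [by omega, by omega, by omega, ⟨hO', h1'⟩, by omega]
    exact hA hO hO' (QDi.inv_unique D.σ_σ h1 D'.σ_σ h1' ρ) h0
  · obtain ⟨hO', h1', w, hw⟩ : ¬ D'.O ∧ (¬ ∀ t, D'.σ t = t) ∧ ∃ w, D'.b w w ≠ 0 := by
      rcases h' with ⟨e, -⟩ | ⟨e, -⟩ | ⟨e, -⟩ | ⟨e, -⟩ | ⟨-, h⟩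
      exacts [by omega, by omega, by omega, by omega, h]
    have hσ := QDi.inv_unique D.σ_σ h1 D'.σ_σ h1' ρ
    obtain ⟨c, hc, hΔ⟩ := hΔ_of D D' hσ hO hO'
    obtain ⟨s, hs⟩ := QDi.norm_onto D'.σ_σ h1' (r := c * ρ (D.b v₀ v₀) / D'.b w w)
      (anti_div (by rw [← hΔ, anti_b, map_neg, mul_neg]) (anti_b w) hw)
    have e0 : D'.b (D'.sm s w) (D'.sm s w) = c * ρ (D.b v₀ v₀) := by
      rw [D'.b_sm_left, D'.b_sm_right, ← mul_assoc, hs, div_mul_cancel₀ _ hw]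
    generalize D'.sm s w = w₀ at e0
    choose a z hz hv using span_U hO h1 h0
    have e1 : ∀ v v', D.b v v' = a v * D.σ (a v') * D.b v₀ v₀ := fun v v' => by
      conv_lhs => rw [hv v, hv v']
      simp only [D.b_mul_left, D.b_mul_right, D.b_sm_left, D.b_sm_right, hz, rad_right (hz _)]
      ring
    choose z' hz' hN using fun v => exists_rad hO' (f := c * ρ (D.N v) - D'.N (D'.sm (ρ (a v)) w₀)) (by
      have e2 := D'.N_sub (D'.sm (ρ (a v)) w₀)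
      have e3 := congrArg ρ (D.N_sub v)
      rw [D'.b_sm_left, D'.b_sm_right, e0] at e2
      rw [e1, map_sub, map_mul ρ (a v * _), map_mul ρ (a v), hσ] at e3
      rw [map_sub, mul_sub, ← hΔ]
      linear_combination e2 - c * e3)
    refine fin D D' hV ρ hc hσ hΔ (fun v => D'.sm (ρ (a v)) w₀ * z' v) (fun v => ?_) fun v v' => ?_
    · rw [D'.N_mul, hN, rad_right (hz' v)]; ring
    · simp only [D'.b_mul_left, D'.b_mul_right, D'.b_sm_left, D'.b_sm_right, hz', rad_right (hz' _), e0]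
      rw [e1 v v', map_mul, map_mul, hσ]
      ring

end QD

end CL.TB
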