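/-
S1143 (Tits), Rt: root combinatorics (no buildings).  Tools: CHEV/Weyl (invs, ell, w0, WJ_isPos_iff, W_neg), CHEV/CTRoots, CHEV/BNChev (rank_two_A2/B2).
-/
import Cfsg.Agent.CHEV.TB.Def
import Cfsg.Agent.CHEV.BNChev

set_option autoImplicit false
set_option linter.unusedSectionVars false

namespace CL.TB

open CL.Chev CL.Chev.RootSys
open scoped MatrixGroups commutatorElement

variable {ι κ : Type*} [Fintype κ] [DecidableEq κ] [Finite ι] {R : RootSys ι κ}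

theorem ps_mul' {u w : R.W} {r : ι} : Ps R (u * w) r ↔ Ps R w (u.1⁻¹ r) := Iff.rfl

theorem ps_one {r : ι} : Ps R 1 r ↔ R.IsPos r := Iff.rfl

theorem ps_mul (u w : R.W) (r : ι) : Ps R (u * w) (u.1 r) ↔ Ps R w r := by rw [ps_mul', perm_inv_apply]

theorem ps_apply (w : R.W) (r : ι) : Ps R w (w.1 r) ↔ R.IsPos r := by rw [Ps, perm_inv_apply]

theorem ps_neg {w : R.W} {r : ι} : Ps R w (R.neg r) ↔ ¬ Ps R w r := by rw [Ps, W_neg (inv_mem w.2), R.isPos_neg, Ps]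

theorem ps_mul_sW {w : R.W} {r : ι} {i : κ} (h : Ps R w r) (hi : w.1 (R.simple i) ≠ r) : Ps R (w * R.sW i) r :=
  R.isPos_σ h fun e => hi ((congrArg w.1 e.symm).trans (perm_apply_inv ..))

theorem not_ps_mul_sW (w : R.W) (i : κ) : ¬ Ps R (w * R.sW i) (w.1 (R.simple i)) := by
  rw [ps_mul', perm_inv_apply]
  exact fun h : R.IsPos (R.σ i _) => (R.isPos_neg _).1 (R.σ_simple i ▸ h) (R.isPos_simple i)

theorem mul_sW_simple (w : R.W) (i : κ) : (w * R.sW i).1 (R.simple i) = R.neg (w.1 (R.simple i)) :=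
  (congrArg w.1 (R.σ_simple i)).trans (W_neg w.2 _)

theorem sW_mul_self (i : κ) : R.sW i * R.sW i = 1 := Subtype.ext (R.sp_mul_self i)

theorem sW_ne_one (i : κ) : R.sW i ≠ 1 := fun e => R.sp_ne_one i (congrArg Subtype.val e)

theorem wl_mul_self (J : Set κ) : wl R J * wl R J = 1 := Subtype.ext (R.w0_mul_self J)

theorem wl_mem (J : Set κ) : (wl R J).1 ∈ R.WJ J := R.w0_mem J

theorem wl_mul_d0 (J : Set κ) : wl R J * d0 R J = wl R Set.univ := by rw [d0, ← mul_assoc, wl_mul_self, one_mul]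

theorem wl_singleton (i : κ) : wl R {i} = R.sW i := by
  have := R.eq_w0 (J := {i}) (R.sp_mem_WJ rfl) (by
    rintro _ rfl
    rw [sp_apply, σ_simple, not_isPos_neg]
    exact R.isPos_simple _)
  exact Subtype.ext this.symm

theorem mem_WJ_singleton {i : κ} {w : R.W} : w.1 ∈ R.WJ {i} ↔ w = 1 ∨ w = R.sW i := by
  refine ⟨fun h => ?_, by rintro (rfl | rfl); exacts [one_mem _, R.sp_mem_WJ rfl]⟩
  by_cases p : R.IsPos (w.1 (R.simple i))
  · exact .inl (Subtype.ext (eq_one_of_isPos_WJ h (by rintro _ rfl; exact p)))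
  · exact .inr (wl_singleton (R := R) i ▸ Subtype.ext (R.eq_w0 h (by rintro _ rfl; exact p)))

theorem rf_simple (i : κ) : rf R (R.simple i) = R.sW i := Subtype.ext (R.refl_simple i)

theorem rf_W (w : R.W) (r : ι) : rf R (w.1 r) = w * rf R r * w⁻¹ := Subtype.ext (R.refl_W w.2 r)

theorem rf_neg (r : ι) : rf R (R.neg r) = rf R r := Subtype.ext (R.refl_neg r)

theorem ps_mul_wl {J : Set κ} {w : R.W} {r : ι} (h : w.1⁻¹ r ∈ R.sub J) : Ps R (w * wl R J) r ↔ ¬ Ps R w r := by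
  rw [ps_mul', Ps, wl, R.w0_inv, R.isPos_w0_iff h, Ps]

theorem ps_mul_wl_univ {w : R.W} {r : ι} : Ps R (w * wl R Set.univ) r ↔ ¬ Ps R w r := ps_mul_wl (R.sub_univ.ge trivial)

theorem ps_of_not_sub {J : Set κ} {v : R.W} (hv : v.1 ∈ R.WJ J) {r : ι} (hr : r ∉ R.sub J) :
    Ps R v r ↔ R.IsPos r := WJ_isPos_iff (inv_mem hv) hr

theorem ps_d0_of_sub {J : Set κ} {v : R.W} (hv : v.1 ∈ R.WJ J) {r : ι} (hr : r ∈ R.sub J) :
    Ps R (v * d0 R J) r ↔ Ps R v r := by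
  rw [d0, ← mul_assoc, ps_mul_wl_univ, ps_mul_wl ((WJ_mem_sub (inv_mem hv)).2 hr), not_not]

theorem ps_d0_of_not_sub {J : Set κ} {v : R.W} (hv : v.1 ∈ R.WJ J) {r : ι} (hr : r ∉ R.sub J) :
    Ps R (v * d0 R J) r ↔ ¬ R.IsPos r := by
  rw [d0, ← mul_assoc, ps_mul_wl_univ, ps_of_not_sub (mul_mem hv (wl_mem J)) hr]

/-- `w₀ α_i = -α_{i'}` (`-w₀` permutes the positive roots of `Φ_J` and preserves sums; or: `ell (w_J s_i w_J) = 1`) -/
theorem exists_opp {J : Set κ} {i : κ} (hi : i ∈ J) : ∃ j ∈ J, (wl R J).1 (R.simple j) = R.neg (R.simple i) := by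
  have w := R.w0_mem_W J
  obtain ⟨β, e⟩ := (R.w0 J).surjective (R.neg (R.simple i))
  have s : β ∈ R.sub J := (WJ_mem_sub (R.w0_mem J)).1 (e ▸ R.neg_mem_sub.2 (R.simple_mem_sub.2 hi))
  have p : R.IsPos β := by_contra fun n => (R.isPos_neg _).1 (e ▸ (R.isPos_w0_iff s).2 n) (R.isPos_simple i)
  obtain ⟨j, h1, h2⟩ := R.exists_wt_pos p
  have hj : j ∈ J := by_contra fun n => h2.ne' (s j n)
  refine ⟨j, hj, by_contra fun n => ?_⟩
  have k : ∀ r ∈ R.sub J, R.IsPos r → R.IsPos (R.neg (R.w0 J r)) := fun r hr q => by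
    rwa [isPos_neg, R.isPos_w0_iff hr, not_not]
  have c : R.IsComb (R.σ j β) (R.simple j) β := ⟨1, (R.wt β j).toNat, one_pos, by omega, by
    rw [rt_σ', Int.toNat_of_nonneg h1.le]; simp⟩
  exact (c.W w).neg.ne_simple (k _ ((R.σ_mem_sub hj).2 s) (R.isPos_σ p fun c => n (c ▸ e)))
    (k _ (R.simple_mem_sub.2 hj) (R.isPos_simple j)) i (by rw [e, R.neg_neg])

/-- `d0⁻¹ W_J d0 = W_{J'}` with `J' = {k | d0 α_k ∈ {α_j, j ∈ J}}` -/
theorem exists_d0_conj (J : Set κ) : ∃ J' : Set κ, (∀ k ∈ J', ∃ j ∈ J, (d0 R J).1 (R.simple k) = R.simple j) ∧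
    (∀ j ∈ J, ∃ k ∈ J', (d0 R J).1 (R.simple k) = R.simple j) ∧
    ∀ w : R.W, (d0 R J * w * (d0 R J)⁻¹).1 ∈ R.WJ J ↔ w.1 ∈ R.WJ J' := by
  have k : ∀ j ∈ J, ∃ k, (d0 R J).1 (R.simple k) = R.simple j := fun j hj => by
    obtain ⟨l, -, e⟩ := exists_opp (R := R) hj
    obtain ⟨k, -, e'⟩ := exists_opp (R := R) (Set.mem_univ l)
    exact ⟨k, (congrArg (wl R J).1 e').trans (by rw [W_neg (wl R J).2, e, R.neg_neg])⟩
  refine ⟨{k | ∃ j ∈ J, (d0 R J).1 (R.simple k) = R.simple j}, fun _ h => h,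
    fun j hj => (k j hj).imp fun _ e => ⟨⟨j, hj, e⟩, e⟩, fun w => ?_⟩
  refine Iff.trans ?_ (Subgroup.mem_map_iff_mem (f := (MulAut.conj (d0 R J).1).toMonoidHom) (MulAut.conj _).injective)
  rw [WJ, WJ, MonoidHom.map_closure]
  refine iff_of_eq (congrArg (_ ∈ Subgroup.closure ·) (Set.ext fun x => ?_))
  constructor
  · rintro ⟨j, hj, rfl⟩
    obtain ⟨l, e⟩ := k j hj
    exact ⟨_, ⟨l, ⟨j, hj, e⟩, rfl⟩, R.conj_sp_eq (d0 R J).2 e⟩
  · rintro ⟨_, ⟨l, ⟨j, hj, e⟩, rfl⟩, rfl⟩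
    exact ⟨j, hj, (R.conj_sp_eq (d0 R J).2 e).symm⟩

theorem ell_mul_of {u v : Equiv.Perm ι} (hu : u ∈ R.W) (hv : v ∈ R.W)
    (h : ∀ δ, R.IsPos δ → ¬ R.IsPos (u δ) → R.IsPos (v⁻¹ δ)) : R.ell (u * v) = R.ell u + R.ell v := by
  have e : R.invs (u * v) = v ⁻¹' R.invs u ∪ R.invs v := Set.ext fun r => ⟨fun k => (em _).imp (⟨·, k.2⟩) (⟨k.1, ·⟩), by
    rintro (k | k)
    · exact ⟨by simpa using h _ k.1 k.2, k.2⟩
    · refine ⟨k.1, fun p => ?_⟩
      have := h _ ((R.isPos_neg _).2 k.2) (by rwa [W_neg hu, not_isPos_neg])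
      rw [W_neg (inv_mem hv), perm_inv_apply, isPos_neg] at this
      exact this k.1⟩
  rw [ell, e, Set.ncard_union_eq (Set.disjoint_left.2 fun r k k' => k'.2 k.1),
    Set.ncard_preimage_of_injective_subset_range v.injective (by simp), ell, ell]

/-- the lengths add iff `x` lies in every half-apartment containing `a` and `b`
(count walls: `ell (a⁻¹ b)` = number of `γ` with `Ps a γ ∧ ¬ Ps b γ`) -/
theorem ell_add_of_hull {a b x : R.W} (h : ∀ γ, Ps R a γ → Ps R b γ → Ps R x γ) :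
    R.ell (a⁻¹ * x * (x⁻¹ * b) : R.W) = R.ell (a⁻¹ * x : R.W) + R.ell (x⁻¹ * b : R.W) :=
  ell_mul_of (a⁻¹ * x).2 (x⁻¹ * b).2 fun δ p n => by_contra fun c => ps_neg.1
    (h (R.neg (x.1 δ)) (ps_neg.2 n) (ps_neg.2 c)) ((ps_apply x δ).2 p)

/-- `ell (u v) = ell u + ell v` for `u ∈ W_J` and `v` minimal in `W_J v` -/
theorem ell_mul_of_min {J : Set κ} {u v : R.W} (hu : u.1 ∈ R.WJ J) (hv : ∀ j ∈ J, Ps R v (R.simple j)) :
    R.ell (u * v : R.W) = R.ell u + R.ell v :=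
  ell_mul_of u.2 v.2 fun _ p n => isPos_W_of_simple (inv_mem v.2) hv p (invs_sub hu ⟨p, n⟩)

theorem ell_add_wl {J : Set κ} {u : R.W} (hu : u.1 ∈ R.WJ J) :
    R.ell (u * (u⁻¹ * wl R J) : R.W) = R.ell u + R.ell (u⁻¹ * wl R J : R.W) :=
  ell_mul_of u.2 (u⁻¹ * wl R J).2 fun δ p n => (ps_mul_wl (w := u⁻¹) ((WJ_mem_sub hu).2 (invs_sub hu ⟨p, n⟩))).2 n

/-- coset representative: take `v ∈ W_J` with `ell (v⁻¹ w)` minimal -/
theorem exists_coset (J : Set κ) (w : R.W) : ∃ v : R.W, v.1 ∈ R.WJ J ∧ (∀ j ∈ J, Ps R (v⁻¹ * w) (R.simple j)) ∧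
    ∀ γ ∈ R.sub J, (Ps R v γ ↔ Ps R w γ) := by
  obtain ⟨v, hv, hm⟩ := Set.exists_min_image (R.WJ J : Set (Equiv.Perm ι)) (fun v => R.ell (w.1⁻¹ * v))
    (Set.toFinite _) ⟨1, one_mem _⟩
  have hw : w.1⁻¹ * v ∈ R.W := mul_mem (inv_mem w.2) (R.WJ_le_W _ hv)
  have p : ∀ m ∈ J, R.IsPos ((w.1⁻¹ * v) (R.simple m)) := fun m hm' => by_contra fun c => by
    have h2 := ell_mul_sp_of_not_isPos hw c
    have h3 := hm _ (mul_mem hv (R.sp_mem_WJ hm'))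
    simp only [← mul_assoc] at h3
    omega
  refine ⟨⟨v, R.WJ_le_W _ hv⟩, hv, p, fun γ hγ => ?_⟩
  obtain ⟨δ, rfl⟩ := v.surjective γ
  rw [WJ_mem_sub hv] at hγ
  refine (ps_apply ⟨v, _⟩ δ).trans ⟨fun q => isPos_W_of_simple hw p q hγ, fun q => by_contra fun n => ?_⟩
  have := isPos_W_of_simple hw p ((R.isPos_neg _).2 n) (R.neg_mem_sub.2 hγ)
  rw [W_neg hw, isPos_neg] at this
  exact this q

theorem right_ind {J : Set κ} {P : R.W → Prop} (h1 : P 1)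
    (hs : ∀ w : R.W, w.1 ∈ R.WJ J → ∀ j ∈ J, R.IsPos (w.1 (R.simple j)) → P w → P (w * R.sW j)) {w : R.W}
    (hw : w.1 ∈ R.WJ J) : P w :=
  WJ_induction_pos (P := fun w hw => P ⟨w, R.WJ_le_W J hw⟩) h1 (fun w hw => hs ⟨w, _⟩ hw) hw

/-- the same inside `a W_J` -/
theorem cross_sub {J : Set κ} {a b : R.W} (hab : (a⁻¹ * b).1 ∈ R.WJ J) {β : ι} (ha : Ps R a β) (hb : ¬ Ps R b β) :
    ∃ (w : R.W) (i : κ), i ∈ J ∧ (a⁻¹ * w).1 ∈ R.WJ J ∧ w.1 (R.simple i) = β ∧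
    ∀ γ, Ps R a γ → Ps R b γ → Ps R w γ ∧ Ps R (w * R.sW i) γ := by
  obtain ⟨v, rfl⟩ : ∃ v, b = a * v := ⟨a⁻¹ * b, by group⟩
  rw [inv_mul_cancel_left] at hab
  revert hb
  refine right_ind (P := fun v => ¬ Ps R (a * v) β → ∃ (w : R.W) (i : κ), i ∈ J ∧ (a⁻¹ * w).1 ∈ R.WJ J ∧
    w.1 (R.simple i) = β ∧ ∀ γ, Ps R a γ → Ps R (a * v) γ → Ps R w γ ∧ Ps R (w * R.sW i) γ)
    (fun hb => absurd (by rwa [mul_one]) hb) (fun v hJ j hj p ih hb => ?_) hab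
  rw [← mul_assoc] at hb ⊢
  have k : ∀ γ, Ps R a γ → Ps R (a * v * R.sW j) γ → Ps R (a * v) γ := fun γ h1 h2 => by_contra fun n =>
    ps_neg.1 (ps_mul_sW (i := j) (ps_neg.2 n) fun e => ps_neg.1 (e ▸ (ps_apply a _).2 p) h1) h2
  by_cases c : Ps R (a * v) β
  · exact ⟨_, j, hj, by rwa [inv_mul_cancel_left], by_contra fun n => hb (ps_mul_sW c n), fun γ h1 h2 => ⟨k γ h1 h2, h2⟩⟩
  · obtain ⟨w, i, h1, h2, h3, h4⟩ := ih c
    exact ⟨w, i, h1, h2, h3, fun γ l1 l2 => h4 γ l1 (k γ l1 l2)⟩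

/-- a minimal gallery from `a` to `b` crosses the wall of `β`; induction on `ell (a⁻¹ b)` -/
theorem cross {a b : R.W} {β : ι} (ha : Ps R a β) (hb : ¬ Ps R b β) : ∃ (w : R.W) (i : κ), w.1 (R.simple i) = β ∧
    ∀ γ, Ps R a γ → Ps R b γ → Ps R w γ ∧ Ps R (w * R.sW i) γ :=
  let ⟨w, i, _, _, h⟩ := cross_sub (R.WJ_univ.ge (a⁻¹ * b).2) ha hb; ⟨w, i, h⟩

theorem exists_simple (r : ι) : ∃ (w : R.W) (i : κ), w.1 (R.simple i) = r := let ⟨w, h, i, e⟩ := R.exists_W_simple r; ⟨⟨w, h⟩, i, e.symm⟩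

theorem exists_simple_sub {J : Set κ} {r : ι} (hr : r ∈ R.sub J) :
    ∃ (w : R.W) (i : κ), w.1 ∈ R.WJ J ∧ i ∈ J ∧ w.1 (R.simple i) = r :=
  let ⟨w, h, i, hi, e⟩ := R.exists_WJ_simple hr; ⟨⟨w, R.WJ_le_W J h⟩, i, h, hi, e.symm⟩

/-- take `w α_i = β`; if `w⁻¹ r < 0` replace `w` by `w w₀` (`exists_opp`) -/
theorem exists_panel {r β : ι} (h1 : β ≠ r) (h2 : β ≠ R.neg r) : ∃ (w : R.W) (i : κ),
    (w.1 (R.simple i) = β ∨ w.1 (R.simple i) = R.neg β) ∧ Ps R w r ∧ Ps R (w * R.sW i) r := by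
  obtain ⟨w, i, rfl⟩ := exists_simple (R := R) β
  by_cases p : Ps R w r
  · exact ⟨w, i, .inl rfl, p, ps_mul_sW p h1⟩
  obtain ⟨j, -, e⟩ := exists_opp (R := R) (Set.mem_univ i)
  have e' : (w * wl R Set.univ).1 (R.simple j) = _ := (congrArg w.1 e).trans (W_neg w.2 _)
  exact ⟨_, j, .inr e', ps_mul_wl_univ.2 p, ps_mul_sW (ps_mul_wl_univ.2 p) fun c => h2 (R.neg_eq_iff.1 (e' ▸ c))⟩

/-- `r = u α_i`, `A i j ≠ 0`: `w = u s_j`, then `w⁻¹ r = σ_j α_i` is positive and not simple -/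
theorem exists_nonsimple {J : Set κ} (h : ∀ i ∈ J, ∃ j ∈ J, j ≠ i ∧ R.A i j ≠ 0) {r : ι} (hr : r ∈ R.sub J) :
    ∃ w : R.W, w.1 ∈ R.WJ J ∧ Ps R w r ∧ ∀ i, w.1 (R.simple i) ≠ r := by
  obtain ⟨u, i, hu, hi, rfl⟩ := exists_simple_sub hr
  obtain ⟨j, hj, n, a⟩ := h i hi
  refine ⟨u * R.sW j, mul_mem hu (R.sp_mem_WJ hj), ps_mul_sW ((ps_apply ..).2 (R.isPos_simple i))
    (u.1.injective.ne (R.simple_injective.ne n)), fun k e => a ?_⟩
  have := congrArg (fun r => R.ht (R.σ j r)) (u.1.injective e)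
  simp only [sW_val, sp_apply, σ_σ, ht_σ, ht_simple, wt_simple] at this
  exact (R.A_eq_zero_comm ..).1 (by omega)

/-- the coordinates -/
theorem QC.coord {r s k : ι} (h : QC R r s k) :
    ∃ a b c : ℤ, 0 < a ∧ 0 < b ∧ 0 < c ∧ ∀ i, c * R.rt k i = a * R.rt r i + b * R.rt s i :=
  let ⟨a, b, c, ha, hb, hc, e⟩ := h; ⟨a, b, c, by omega, by omega, by omega, congrFun e⟩

theorem QC.symm {r s k : ι} (h : QC R r s k) : QC R s r k :=
  let ⟨a, b, c, ha, hb, hc, e⟩ := h; ⟨b, a, c, hb, ha, hc, e.trans (add_comm ..)⟩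

theorem QC.W {r s k : ι} (h : QC R r s k) (w : R.W) : QC R (w.1 r) (w.1 s) (w.1 k) :=
  let ⟨a, b, c, ha, hb, hc, e⟩ := h; let ⟨_, k⟩ := W_exists_linear w.2
  ⟨a, b, c, ha, hb, hc, by rw [k, k, k, ← map_smul, e, map_add, map_smul, map_smul]⟩

theorem QC.sub {J : Set κ} {r s k : ι} (h : QC R r s k) (hr : r ∈ R.sub J) (hs : s ∈ R.sub J) : k ∈ R.sub J := fun i hi => by
  obtain ⟨a, b, c, -, -, hc, e⟩ := h.coord
  simpa [hr i hi, hs i hi, hc.ne'] using e i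

theorem QC.ps {r s k : ι} (h : QC R r s k) {w : R.W} (hr : Ps R w r) (hs : Ps R w s) : Ps R w k := by
  obtain ⟨a, b, c, ha, hb, hc, e⟩ := h.W w⁻¹
  have := congrArg htL e
  simp only [map_add, map_smul, htL_rt, smul_eq_mul] at this
  exact pos_of_mul_pos_right (this ▸ add_pos (mul_pos (by omega) hr) (mul_pos (by omega) hs)) (by omega)

theorem QC.ne_simple {r s k : ι} (h : QC R r s k) (hrs : r ≠ s) {w : R.W} (hr : Ps R w r) (hs : Ps R w s) (i : κ) :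
    w.1 (R.simple i) ≠ k := by
  rintro rfl
  obtain ⟨a, b, c, ha, hb, -, e⟩ := (h.W w⁻¹).coord
  have k : ∀ j, j ≠ i → R.rt (w.1⁻¹ r) j = 0 ∧ R.rt (w.1⁻¹ s) j = 0 := fun j n => by
    have h1 := (R.isPos_iff _).1 hr j
    have h2 := (R.isPos_iff _).1 hs j
    have := e j
    rw [Subgroup.coe_inv, perm_inv_apply, R.rt_simple, Pi.single_eq_of_ne n] at this
    constructor <;> nlinarith
  have l : ∀ {t}, R.IsPos t → (∀ j, j ≠ i → R.rt t j = 0) → t = R.simple i := fun p z =>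
    (R.eq_simple_or_neg z).resolve_right fun e => (R.isPos_neg _).1 (e ▸ p) (R.isPos_simple i)
  exact hrs (w.1⁻¹.injective ((l hr fun j n => (k j n).1).trans (l hs fun j n => (k j n).2).symm))

theorem QC.ne_left {r s k : ι} (h : QC R r s k) (h1 : s ≠ r) (h2 : s ≠ R.neg r) : k ≠ r := by
  rintro rfl
  obtain ⟨a, b, c, -, hb, -, e⟩ := h
  exact (R.eq_or_eq_neg_of_smul (a := b) (b := c - a) (by omega) (by rw [sub_smul, e, add_sub_cancel_left])).elim h1 h2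

theorem cases_A (le2 : ∀ i j, i ≠ j → R.A i j * R.A j i ≤ 2) {i j : κ} (h : i ≠ j) :
    (R.A i j = 0 ∧ R.A j i = 0) ∨ (R.A i j = -1 ∧ R.A j i = -1) ∨ (R.A i j = -1 ∧ R.A j i = -2) ∨
      (R.A i j = -2 ∧ R.A j i = -1) := by
  have h1 := R.A_nonpos h
  have h2 := R.A_nonpos h.symm
  have h3 := R.A_eq_zero_comm i j
  have h4 := le2 i j h
  by_cases c : R.A i j = 0
  · exact .inl ⟨c, h3.1 c⟩
  have h5 : R.A i j < 0 := by omega
  have h6 : R.A j i < 0 := by omega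
  have h7 : -2 ≤ R.A i j := by nlinarith
  have h8 : -2 ≤ R.A j i := by nlinarith
  have h9 : ¬ (R.A i j = -2 ∧ R.A j i = -2) := fun ⟨a, b⟩ => by rw [a, b] at h4; omega
  omega

/-- `exists_W_sub_pair`, then `exists_simple_sub` for `r`; if `s` is then negative multiply by `w_J` and `s_{i'}` -/
theorem pair_std {r s : ι} (h1 : s ≠ r) (h2 : s ≠ R.neg r) : ∃ (w : R.W) (i j : κ), i ≠ j ∧ w.1 (R.simple i) = r ∧
    Ps R w s ∧ w.1⁻¹ s ∈ R.sub {i, j} := by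
  obtain ⟨w, hw, i, j, a, b⟩ := exists_W_sub_pair r s (R := R)
  have n : i ≠ j := by
    rintro rfl
    rw [Set.pair_eq_singleton, mem_sub_singleton] at a b
    rcases a with a | a <;> rcases b with b | b
    exacts [h1 (w.injective (b.trans a.symm)), h2 (w.injective (by rw [W_neg hw, a, b])),
      h2 (w.injective (by rw [W_neg hw, a, b, R.neg_neg])), h1 (w.injective (b.trans a.symm))]
  obtain ⟨u, k, hk, e, p, m⟩ : ∃ (u : R.W) (k : κ), k ∈ ({i, j} : Set κ) ∧ u.1 (R.simple k) = r ∧ Ps R u s ∧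
      u.1⁻¹ s ∈ R.sub {i, j} := by
    obtain ⟨v, k, hv, hk, e⟩ := exists_simple_sub a
    have e1 : ((⟨w, hw⟩ : R.W)⁻¹ * v).1 (R.simple k) = r := (congrArg _ e).trans (perm_inv_apply ..)
    have e2 : ((⟨w, hw⟩ : R.W)⁻¹ * v).1⁻¹ s ∈ R.sub {i, j} := (WJ_mem_sub (inv_mem hv)).2 b
    generalize (⟨w, hw⟩ : R.W)⁻¹ * v = u at e1 e2
    by_cases p : Ps R u s
    · exact ⟨u, k, hk, e1, p, e2⟩
    obtain ⟨l, hl, o⟩ := exists_opp (R := R) hk
    have e3 : (u * wl R {i, j}).1 (R.simple l) = R.neg r := (congrArg u.1 o).trans (e1 ▸ W_neg u.2 _)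
    exact ⟨u * wl R {i, j} * R.sW l, l, hl, by rw [mul_sW_simple, e3, R.neg_neg],
      ps_mul_sW ((ps_mul_wl e2).2 p) (e3 ▸ Ne.symm h2),
      (WJ_mem_sub (inv_mem (mul_mem (wl_mem _) (R.sp_mem_WJ hl)))).2 e2⟩
  rcases hk with rfl | rfl
  exacts [⟨u, _, _, n, e, p, m⟩, ⟨u, _, _, n.symm, e, p, Set.pair_comm i k ▸ m⟩]

/-- Put `β, γ` into `u Φ_{ij}` with `u α_i = β` (`pair_std`).  In types `A₂`, `B₂` (`rank_two_A2/B2`; `A i j * A j i ∈ {1, 2}`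
as the pairing is non-zero) a positive root not orthogonal to `α_i` is `α_j` or `σ_i α_j`; in the second case replace `u` by
`u s_i`.  `u⁻¹ r ∉ Φ_{ij}` as `r` is not in the span; if it is negative replace `u` by `u w₀` and `i, j` by their opposites
(`exists_opp univ`; `w₀ W_{ij} w₀ = W_{i'j'}`), conclude with `ps_of_not_sub`. -/
theorem adj_std (le2 : ∀ i j, i ≠ j → R.A i j * R.A j i ≤ 2) {β γ r : ι} (h0 : R.pair γ β ≠ 0) (h1 : β ≠ γ)
    (h2 : β ≠ R.neg γ) (h3 : ¬ Spn R β γ r) : ∃ (u : R.W) (i j : κ), i ≠ j ∧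
    (u.1 (R.simple i) = β ∨ u.1 (R.simple i) = R.neg β) ∧ (u.1 (R.simple j) = γ ∨ u.1 (R.simple j) = R.neg γ) ∧
    ∀ v : R.W, v.1 ∈ R.WJ {i, j} → Ps R (u * v) r := by
  obtain ⟨u, i, j, n, hi, hj⟩ : ∃ (u : R.W) (i j : κ), i ≠ j ∧ (u.1 (R.simple i) = β ∨ u.1 (R.simple i) = R.neg β) ∧
      u.1 (R.simple j) = γ := by
    obtain ⟨u, i, j, n, rfl, p, m⟩ := pair_std (r := β) (s := γ) h1.symm fun e => h2 (R.neg_eq_iff.1 e.symm)
    obtain ⟨δ, rfl⟩ := u.1.surjective γ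
    rw [perm_inv_apply] at m
    rw [ps_apply, isPos_iff] at p
    rw [W_pair u.2, Ne, pair_eq_zero_comm, pair_simple, wt_of_mem_sub_pair n m, A_self] at h0
    have s1 : R.simple i ∈ R.sub {i, j} := R.simple_mem_sub.2 (.inl rfl)
    have s2 : R.simple j ∈ R.sub {i, j} := R.simple_mem_sub.2 (.inr rfl)
    have h1 : ¬ (R.rt δ i = 1 ∧ R.rt δ j = 0) := fun c => h1 (congrArg _ (eq_of_mem_sub_pair s1 m
      (by simp [c, R.rt_simple]) (by simp [c, R.rt_simple, n.symm])))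
    have p1 := p i
    have p2 := p j
    have : R.rt δ j = 1 ∧ (R.rt δ i = 0 ∨ R.rt δ i = -R.A i j) := by
      rcases cases_A le2 n with ⟨a, b⟩ | ⟨a, b⟩ | ⟨a, b⟩ | ⟨a, b⟩
      · have := sub_pair_induction n (P := fun x y => (x = 1 ∨ x = -1) ∧ y = 0 ∨ x = 0) (by simp) (by simp)
          (fun x y => by rw [a]; omega) (fun x y => by rw [b]; omega) m
        rw [a] at h0
        omega
      · have := rank_two_A2 n a b m
        simp only [List.mem_cons, Prod.mk.injEq, List.not_mem_nil, or_false, a] at this h0 ⊢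
        omega
      · have := rank_two_B2 n.symm b a (Set.pair_comm i j ▸ m)
        simp only [List.mem_cons, Prod.mk.injEq, List.not_mem_nil, or_false, a] at this h0 ⊢
        omega
      · have := rank_two_B2 n a b m
        simp only [List.mem_cons, Prod.mk.injEq, List.not_mem_nil, or_false, a] at this h0 ⊢
        omega
    obtain ⟨c, d | d⟩ := this
    · exact ⟨u, i, j, n, .inl rfl, congrArg _ (eq_of_mem_sub_pair s2 m (by simp [d, R.rt_simple, n])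
        (by simp [c, R.rt_simple]))⟩
    · exact ⟨u * R.sW i, i, j, n, .inr (mul_sW_simple u i), congrArg u.1 (eq_of_mem_sub_pair (r := R.σ i _)
        ((R.σ_mem_sub (.inl rfl)).2 s2) m (by simp [d, rt_σ', wt_simple, R.rt_simple, n])
        (by simp [c, rt_σ', R.rt_simple, n.symm]))⟩
  have k : ∀ (u : R.W) i j, i ≠ j → (u.1 (R.simple i) = β ∨ u.1 (R.simple i) = R.neg β) →
      (u.1 (R.simple j) = γ ∨ u.1 (R.simple j) = R.neg γ) → Ps R u r → ∀ v : R.W, v.1 ∈ R.WJ {i, j} → Ps R (u * v) r :=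
    fun u i j n hi hj p v hv => (ps_of_not_sub hv fun m => h3 (by
      have := W_lin u.2 (k := u.1⁻¹ r) (r := R.simple i) (s := R.simple j) (a := R.rt (u.1⁻¹ r) i) (b := R.rt (u.1⁻¹ r) j)
        (funext fun l => by
          by_cases a : l = i
          · simp [a, R.rt_simple, n]
          by_cases b : l = j
          · simp [b, R.rt_simple, n.symm]
          simp [R.rt_simple, a, b, m l (by simp [a, b])])
      rw [perm_apply_inv] at this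
      rcases hi with e | e <;> rcases hj with e' | e' <;> simp only [e, e', R.rt_neg, smul_neg, ← neg_smul] at this <;>
        exact ⟨_, _, 1, one_ne_zero, by rw [one_smul]; exact this⟩)).2 p
  by_cases p : Ps R u r
  · exact ⟨u, i, j, n, hi, .inl hj, k u i j n hi (.inl hj) p⟩
  obtain ⟨i', -, e⟩ := exists_opp (R := R) (Set.mem_univ i)
  obtain ⟨j', -, e'⟩ := exists_opp (R := R) (Set.mem_univ j)
  have n' : i' ≠ j' := fun c => n (R.simple_injective (R.neg_injective (by rw [← e, c, e'])))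
  have f : (u * wl R Set.univ).1 (R.simple i') = _ := (congrArg u.1 e).trans (W_neg u.2 _)
  have f' : (u * wl R Set.univ).1 (R.simple j') = R.neg γ := (congrArg u.1 e').trans (hj ▸ W_neg u.2 _)
  have g := hi.symm.imp (fun c => by rw [f, c, R.neg_neg] : _ → (u * wl R Set.univ).1 (R.simple i') = β)
    (fun c => by rw [f, c] : _ → (u * wl R Set.univ).1 (R.simple i') = R.neg β)
  exact ⟨_, i', j', n', g, .inr f', k _ _ _ n' g (.inr f') (ps_mul_wl_univ.2 p)⟩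

theorem E3.symm {i j : κ} (h : E3 R i j) : E3 R j i := ⟨h.2, h.1⟩

theorem E3.ne {i j : κ} (h : E3 R i j) : i ≠ j := by rintro rfl; have := h.1; rw [A_self] at this; omega

theorem E3.σ_eq {i j : κ} (h : E3 R i j) : R.σ j (R.simple i) = R.σ i (R.simple j) := R.rt_inj (by
  rw [rt_σ', rt_σ', wt_simple, wt_simple, h.1, h.2]; simp [add_comm])

theorem E3.conj {i j : κ} (h : E3 R i j) : (R.sW j * R.sW i).1 (R.simple j) = R.simple i :=
  (congrArg (R.σ j) h.σ_eq.symm).trans (R.σ_σ ..)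

theorem E3.braid {i j : κ} (h : E3 R i j) : R.sW i * R.sW j * R.sW i = R.sW j * R.sW i * R.sW j :=
  (mul_assoc ..).trans (Subtype.ext (mul_inv_eq_iff_eq_mul.1 (R.conj_sp_eq (R.sW j * R.sW i).2 h.conj)).symm)

theorem E3.wl_eq {i j : κ} (h : E3 R i j) : wl R {i, j} = R.sW i * R.sW j * R.sW i := Subtype.ext (R.eq_w0
  (mul_mem (mul_mem (R.sp_mem_WJ (.inl rfl)) (R.sp_mem_WJ (.inr rfl))) (R.sp_mem_WJ (.inl rfl))) (by
    rintro _ (rfl | rfl)
    · exact fun p => (R.isPos_neg _).1 (h.symm.conj ▸ mul_sW_simple (R := R) _ _ ▸ p) (R.isPos_simple j)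
    · exact fun p => (R.isPos_neg _).1 (h.conj ▸ mul_sW_simple (R := R) _ _ ▸ h.braid ▸ p) (R.isPos_simple i))).symm

theorem mul_sW_mul (w : R.W) (i : κ) : w * R.sW i * R.sW i = w := by rw [mul_assoc, sW_mul_self, mul_one]

theorem left_ind {J : Set κ} {P : R.W → Prop} (h1 : P 1) (hs : ∀ j ∈ J, ∀ w, P w → P (R.sW j * w)) {w : R.W}
    (hw : w.1 ∈ R.WJ J) : P w :=
  R.WJ_induction_left (P := fun w hw => P ⟨w, R.WJ_le_W J hw⟩) h1 (fun j hj w _ => hs j hj ⟨w, _⟩) hw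

theorem E3.mem_WJ {i j : κ} (h : E3 R i j) {w : R.W} : w.1 ∈ R.WJ {i, j} ↔ w = 1 ∨ w = R.sW i ∨ w = R.sW j ∨
    w = R.sW i * R.sW j ∨ w = R.sW j * R.sW i ∨ w = R.sW i * R.sW j * R.sW i := by
  have a := R.sp_mem_WJ (J := {i, j}) (.inl rfl)
  have b := R.sp_mem_WJ (J := {i, j}) (.inr rfl)
  refine ⟨fun k => left_ind (P := fun w => w = 1 ∨ w = R.sW i ∨ w = R.sW j ∨ w = R.sW i * R.sW j ∨ w = R.sW j * R.sW i ∨
    w = R.sW i * R.sW j * R.sW i) (.inl rfl) ?_ k, ?_⟩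
  · rintro _ (rfl | rfl) _ (rfl | rfl | rfl | rfl | rfl | rfl) <;>
      simp only [← mul_assoc, sW_mul_self, mul_sW_mul, one_mul, mul_one, ← h.braid, true_or, or_true]
  · rintro (rfl | rfl | rfl | rfl | rfl | rfl)
    exacts [one_mem _, a, b, mul_mem a b, mul_mem b a, mul_mem (mul_mem a b) a]

theorem E3.rt_rt3 {i j : κ} (h : E3 R i j) {a b : Fin 3} (hab : a ≠ b) : R.rt (rt3 R i j a b) =
    (![1, 0, 0] a - ![1, 0, 0] b : ℤ) • R.rt (R.simple i) +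
    (![1, 1, 0] a - ![1, 1, 0] b : ℤ) • R.rt (R.simple j) := by
  fin_cases a <;> fin_cases b <;> simp_all [rt3, R.rt_neg, rt_σ', wt_simple, h.1, add_comm]

theorem E3.co {i j : κ} (h : E3 R i j) {a b : Fin 3} (hab : a ≠ b) :
    R.rt (rt3 R i j a b) i = ![1, 0, 0] a - ![1, 0, 0] b ∧ R.rt (rt3 R i j a b) j = ![1, 1, 0] a - ![1, 1, 0] b := by
  simp [h.rt_rt3 hab, R.rt_simple, h.ne, h.ne.symm]

theorem E3.rt3_mem {i j : κ} (h : E3 R i j) {a b : Fin 3} (hab : a ≠ b) : rt3 R i j a b ∈ R.sub {i, j} := fun k n => by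
  simp only [Set.mem_insert_iff, Set.mem_singleton_iff, not_or] at n
  simp [h.rt_rt3 hab, R.rt_simple, n]

theorem E3.mem_sub {i j : κ} (h : E3 R i j) {r : ι} : r ∈ R.sub {i, j} ↔ ∃ a b, a ≠ b ∧ r = rt3 R i j a b := by
  refine ⟨fun m => ?_, by rintro ⟨a, b, n, rfl⟩; exact h.rt3_mem n⟩
  have := rank_two_A2 h.ne h.1 h.2 m
  have k : ∀ a b : Fin 3, a ≠ b → R.rt r i = ![1, 0, 0] a - ![1, 0, 0] b → R.rt r j = ![1, 1, 0] a - ![1, 1, 0] b →
      ∃ a b, a ≠ b ∧ r = rt3 R i j a b := fun a b n x y =>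
    ⟨a, b, n, eq_of_mem_sub_pair m (h.rt3_mem n) (x.trans (h.co n).1.symm) (y.trans (h.co n).2.symm)⟩
  simp only [List.mem_cons, Prod.mk.injEq, List.not_mem_nil, or_false] at this
  rcases this with e | e | e | e | e | e
  exacts [k 0 1 (by decide) e.1 e.2, k 1 2 (by decide) e.1 e.2, k 0 2 (by decide) e.1 e.2, k 1 0 (by decide) e.1 e.2,
    k 2 1 (by decide) e.1 e.2, k 2 0 (by decide) e.1 e.2]

theorem rt3_neg {i j : κ} {a b : Fin 3} (hab : a ≠ b) : rt3 R i j b a = R.neg (rt3 R i j a b) := by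
  fin_cases a <;> fin_cases b <;> simp_all [rt3, R.neg_neg]

theorem E3.rt3_inj {i j : κ} (h : E3 R i j) {a b c d : Fin 3} (hab : a ≠ b) (hcd : c ≠ d)
    (e : rt3 R i j a b = rt3 R i j c d) : a = c ∧ b = d := by
  have h1 := (h.co hab).1.symm.trans (e ▸ (h.co hcd).1)
  have h2 := (h.co hab).2.symm.trans (e ▸ (h.co hcd).2)
  clear e
  revert a b c d
  decide

theorem E3.isPos_rt3 {i j : κ} (h : E3 R i j) {a b : Fin 3} (hab : a ≠ b) : R.IsPos (rt3 R i j a b) ↔ a < b := by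
  rw [IsPos, ← htL_rt, h.rt_rt3 hab, map_add, map_smul, map_smul, htL_rt, htL_rt, ht_simple, ht_simple]
  revert a b
  decide

theorem E3.refl_rt3 {i j : κ} (h : E3 R i j) {a b c d : Fin 3} (hab : a ≠ b) (hcd : c ≠ d) :
    R.refl (rt3 R i j a b) (rt3 R i j c d) = rt3 R i j (Equiv.swap a b c) (Equiv.swap a b d) := by
  have l : R.len (R.simple j) = R.len (R.simple i) := by have := R.len_symm i j; rw [h.1, h.2] at this; omega
  have l' : R.len (rt3 R i j a b) = R.len (R.simple i) := by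
    fin_cases a <;> fin_cases b <;> simp [rt3, len_neg, len_σ, l]
  have p : ∀ k, R.len (R.simple k) = R.len (R.simple i) → R.pair (rt3 R i j a b) (R.simple k) =
      R.A k i * (![1, 0, 0] a - ![1, 0, 0] b) + R.A k j * (![1, 1, 0] a - ![1, 1, 0] b) := fun k e => by
    have := R.len_pair_symm (rt3 R i j a b) (R.simple k)
    rw [l', e, pair_simple, wt_of_mem_sub_pair h.ne (h.rt3_mem hab), (h.co hab).1, (h.co hab).2] at this
    exact mul_left_cancel₀ (R.len_pos _).ne' this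
  have n := (Equiv.swap a b).injective.ne hcd
  have q := R.rt_refl (rt3 R i j a b) (rt3 R i j c d)
  rw [← coL_rt, h.rt_rt3 hcd, map_add, map_smul, map_smul, coL_rt, coL_rt, p i rfl, p j l, ← h.rt_rt3 hcd, A_self, A_self,
    h.1, h.2] at q
  refine eq_of_mem_sub_pair ((WJ_mem_sub (R.refl_mem_WJ (h.rt3_mem hab))).2 (h.rt3_mem hcd)) (h.rt3_mem n) ?_ ?_ <;>
    simp only [q, Pi.sub_apply, Pi.smul_apply, h.co hab, h.co hcd, h.co n] <;> clear q p l' n <;> revert a b c d <;> decide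

theorem qc_aux {a b c d e f : Fin 3} (hab : a ≠ b) (hcd : c ≠ d) (n : e ≠ f) (h1 : ¬ (c = a ∧ d = b))
    (h2 : ¬ (c = b ∧ d = a)) {x y z : ℤ} (hx : 0 < x) (hy : 0 < y) (hz : 0 < z)
    (k1 : z * (![1, 0, 0] e - ![1, 0, 0] f) = x * (![1, 0, 0] a - ![1, 0, 0] b) + y * (![1, 0, 0] c - ![1, 0, 0] d))
    (k2 : z * (![1, 1, 0] e - ![1, 1, 0] f) = x * (![1, 1, 0] a - ![1, 1, 0] b) + y * (![1, 1, 0] c - ![1, 1, 0] d)) :
    (b = c ∧ e = a ∧ f = d) ∨ (d = a ∧ e = c ∧ f = b) := by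
  have t : ∀ a b : Fin 3, a ≠ b → (a = 0 ∧ b = 1) ∨ (a = 0 ∧ b = 2) ∨ (a = 1 ∧ b = 0) ∨ (a = 1 ∧ b = 2) ∨ (a = 2 ∧ b = 0) ∨
    (a = 2 ∧ b = 1) := by decide
  rcases t a b hab with ⟨rfl, rfl⟩ | ⟨rfl, rfl⟩ | ⟨rfl, rfl⟩ | ⟨rfl, rfl⟩ | ⟨rfl, rfl⟩ | ⟨rfl, rfl⟩ <;>
  rcases t c d hcd with ⟨rfl, rfl⟩ | ⟨rfl, rfl⟩ | ⟨rfl, rfl⟩ | ⟨rfl, rfl⟩ | ⟨rfl, rfl⟩ | ⟨rfl, rfl⟩ <;>
  rcases t e f n with ⟨rfl, rfl⟩ | ⟨rfl, rfl⟩ | ⟨rfl, rfl⟩ | ⟨rfl, rfl⟩ | ⟨rfl, rfl⟩ | ⟨rfl, rfl⟩ <;>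
  simp only [Matrix.cons_val] at k1 k2 <;> omega

theorem E3.qc {i j : κ} (h : E3 R i j) {a b c d : Fin 3} (hab : a ≠ b) (hcd : c ≠ d) {k : ι}
    (h1 : rt3 R i j c d ≠ rt3 R i j a b) (h2 : rt3 R i j c d ≠ rt3 R i j b a)
    (hk : QC R (rt3 R i j a b) (rt3 R i j c d) k) : (b = c ∧ k = rt3 R i j a d) ∨ (d = a ∧ k = rt3 R i j c b) := by
  obtain ⟨e, f, n, rfl⟩ := h.mem_sub.1 (hk.sub (h.rt3_mem hab) (h.rt3_mem hcd))
  obtain ⟨x, y, z, hx, hy, hz, k⟩ := hk.coord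
  have k1 := k i
  have k2 := k j
  simp only [h.co hab, h.co hcd, h.co n] at k1 k2
  rcases qc_aux hab hcd n (fun ⟨p, q⟩ => h1 (by rw [p, q])) (fun ⟨p, q⟩ => h2 (by rw [p, q])) hx hy hz k1 k2 with
    ⟨p, rfl, rfl⟩ | ⟨p, rfl, rfl⟩
  exacts [.inl ⟨p, rfl⟩, .inr ⟨p, rfl⟩]

/-- a double edge, `a` long and `b` short; positive roots `α_a, σ_a α_b, σ_b α_a, α_b` in dihedral order -/
theorem E4_braid {a b : κ} (h1 : R.A a b = -1) (h2 : R.A b a = -2) :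
    R.sW a * R.sW b * R.sW a * R.sW b = R.sW b * R.sW a * R.sW b * R.sW a := by
  have n : a ≠ b := by rintro rfl; rw [A_self] at h1; omega
  have := pow_orderOf_eq_one (R.sW a * R.sW b)
  rw [orderOf_sW_mul_sW, R.orderOf_sp_mul_sp n (by rw [h1, h2]; omega), h1, h2, show coxOf (-1 * -2) = 2 + 2 from rfl,
    pow_add] at this
  simpa only [pow_two, mul_inv_rev, inv_eq_of_mul_eq_one_right (sW_mul_self _), mul_assoc] using
    eq_inv_of_mul_eq_one_left this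

theorem E4_wl {a b : κ} (h1 : R.A a b = -1) (h2 : R.A b a = -2) :
    wl R {a, b} = R.sW a * R.sW b * R.sW a * R.sW b := by
  have x := R.sp_mem_WJ (J := {a, b}) (.inl rfl)
  have y := R.sp_mem_WJ (J := {a, b}) (.inr rfl)
  have k : ∀ {a b : κ}, R.A a b * R.A b a = 2 →
      ¬ R.IsPos ((R.sW a * R.sW b * R.sW a * R.sW b).1 (R.simple b)) := fun {a b} e p => by
    have : R.σ b (R.σ a (R.simple b)) = R.σ a (R.simple b) := R.rt_inj (by
      rw [rt_σ' _ b, wt_σ, wt_simple, wt_simple, A_self, e]; simp)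
    rw [mul_sW_simple, isPos_neg] at p
    exact p (((congrArg (R.σ a) this).trans (R.σ_σ ..)).symm ▸ R.isPos_simple b :
      R.IsPos (R.σ a (R.σ b (R.σ a (R.simple b)))))
  have := R.eq_w0 (J := {a, b}) (w := (R.sW a * R.sW b * R.sW a * R.sW b).1) (mul_mem (mul_mem (mul_mem x y) x) y) (by
    rintro _ (rfl | rfl)
    exacts [by rw [E4_braid h1 h2]; exact k (by rw [h1, h2]; rfl), k (by rw [h1, h2]; rfl)])
  exact Subtype.ext this.symm

theorem E4_mem_WJ {a b : κ} (h1 : R.A a b = -1) (h2 : R.A b a = -2) {w : R.W} : w.1 ∈ R.WJ {a, b} ↔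
    w = 1 ∨ w = R.sW a ∨ w = R.sW b ∨ w = R.sW a * R.sW b ∨ w = R.sW b * R.sW a ∨ w = R.sW a * R.sW b * R.sW a ∨
      w = R.sW b * R.sW a * R.sW b ∨ w = R.sW a * R.sW b * R.sW a * R.sW b := by
  have x := R.sp_mem_WJ (J := {a, b}) (.inl rfl)
  have y := R.sp_mem_WJ (J := {a, b}) (.inr rfl)
  refine ⟨fun k => left_ind (P := fun w => w = 1 ∨ w = R.sW a ∨ w = R.sW b ∨ w = R.sW a * R.sW b ∨ w = R.sW b * R.sW a ∨
    w = R.sW a * R.sW b * R.sW a ∨ w = R.sW b * R.sW a * R.sW b ∨ w = R.sW a * R.sW b * R.sW a * R.sW b)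
    (.inl rfl) ?_ k, ?_⟩
  · rintro _ (rfl | rfl) _ (rfl | rfl | rfl | rfl | rfl | rfl | rfl | rfl) <;>
      simp only [← mul_assoc, sW_mul_self, mul_sW_mul, one_mul, mul_one, ← E4_braid h1 h2, true_or, or_true]
  · rintro (rfl | rfl | rfl | rfl | rfl | rfl | rfl | rfl)
    exacts [one_mem _, x, y, mul_mem x y, mul_mem y x, mul_mem (mul_mem x y) x, mul_mem (mul_mem y x) y,
      mul_mem (mul_mem (mul_mem x y) x) y]

theorem E4_pos {a b : κ} (h1 : R.A a b = -1) (h2 : R.A b a = -2) {r : ι} : (r ∈ R.sub {a, b} ∧ R.IsPos r) ↔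
    r = R.simple a ∨ r = R.σ a (R.simple b) ∨ r = R.σ b (R.simple a) ∨ r = R.simple b := by
  have n : a ≠ b := by rintro rfl; rw [A_self] at h1; omega
  have x : R.simple a ∈ R.sub {a, b} := R.simple_mem_sub.2 (.inl rfl)
  have y : R.simple b ∈ R.sub {a, b} := R.simple_mem_sub.2 (.inr rfl)
  have x' := (R.σ_mem_sub (J := {a, b}) (.inr rfl)).2 x
  have y' := (R.σ_mem_sub (J := {a, b}) (.inl rfl)).2 y
  refine ⟨fun ⟨m, p⟩ => ?_, ?_⟩
  · have := rank_two_B2 n.symm h2 h1 (Set.pair_comm a b ▸ m)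
    have p1 := (R.isPos_iff r).1 p a
    have p2 := (R.isPos_iff r).1 p b
    simp only [List.mem_cons, Prod.mk.injEq, List.not_mem_nil, or_false] at this
    rcases this with e | e | e | e | e
    on_goal 5 => omega
    on_goal 1 => refine .inr (.inr (.inr (eq_of_mem_sub_pair m y ?_ ?_)))
    on_goal 3 => refine .inl (eq_of_mem_sub_pair m x ?_ ?_)
    on_goal 5 => refine .inr (.inl (eq_of_mem_sub_pair m y' ?_ ?_))
    on_goal 7 => refine .inr (.inr (.inl (eq_of_mem_sub_pair m x' ?_ ?_)))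
    all_goals simp [e, rt_σ', wt_simple, R.rt_simple, n, n.symm, h1, h2]
  · rintro (rfl | rfl | rfl | rfl)
    exacts [⟨x, R.isPos_simple a⟩, ⟨y', R.isPos_σ (R.isPos_simple b) (R.simple_injective.ne n.symm)⟩,
      ⟨x', R.isPos_σ (R.isPos_simple a) (R.simple_injective.ne n)⟩, ⟨y, R.isPos_simple b⟩]

end CL.TB
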