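/-
S1143 (Tits), WD: W-metric spaces (no group).  Lengths: R.ell, ell_mul_sp_of_isPos etc. (CHEV/Weyl), W_induction_pos.
-/
import Cfsg.Agent.CHEV.TB.Rt

set_option autoImplicit false
set_option linter.unusedSectionVars false

namespace CL.TB

open CL.Chev
open scoped MatrixGroups commutatorElement

namespace WD

variable {ι κ Ω Ω' : Type*} [Fintype κ] [DecidableEq κ] [Finite ι] {R : RootSys ι κ} (D : WD R Ω) (D' : WD R Ω')

theorem sW_inv (i : κ) : (R.sW i)⁻¹ = R.sW i := inv_eq_of_mul_eq_one_right (sW_mul_self i)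
theorem mul_sW_sW (w : R.W) (i : κ) : w * R.sW i * R.sW i = w := by rw [mul_assoc, sW_mul_self, mul_one]
theorem mul_sW_eq {w : R.W} {i j : κ} (h : w.1 (R.simple j) = R.simple i) : w * R.sW j = R.sW i * w :=
  Subtype.ext (mul_inv_eq_iff_eq_mul.1 (R.conj_sp_eq w.2 h))
theorem WJ_ind {J : Set κ} {P : ∀ w : R.W, w.1 ∈ R.WJ J → Prop} (h1 : P 1 (one_mem _))
    (hs : ∀ w hw j (hj : j ∈ J), R.IsPos (w.1 (R.simple j)) → P w hw → P (w * R.sW j) (mul_mem hw (R.sp_mem_WJ hj)))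
    (w : R.W) (hw : w.1 ∈ R.WJ J) : P w hw :=
  RootSys.WJ_induction_pos (P := fun w hw => P ⟨w, R.WJ_le_W J hw⟩ hw) h1 (fun w hw => hs ⟨w, _⟩ hw) hw
theorem W_ind {P : R.W → Prop} (h1 : P 1) (hs : ∀ w j, R.IsPos (w.1 (R.simple j)) → P w → P (w * R.sW j)) (w : R.W) :
    P w := RootSys.W_induction_pos (P := fun w hw => P ⟨w, hw⟩) h1 (fun w hw => hs ⟨w, hw⟩) w.2
theorem ell_pos {w : R.W} {j : κ} (p : R.IsPos (w.1 (R.simple j))) : R.ell (w * R.sW j : R.W) = R.ell w + 1 :=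
  RootSys.ell_mul_sp_of_isPos w.2 p
theorem ell_neg {w : R.W} {j : κ} (p : ¬ R.IsPos (w.1 (R.simple j))) : R.ell (w * R.sW j : R.W) + 1 = R.ell w :=
  RootSys.ell_mul_sp_of_not_isPos w.2 p
theorem ell_mul_le (u v : R.W) : R.ell (u * v : R.W) ≤ R.ell u + R.ell v := by
  induction v using W_ind with
  | h1 => rw [mul_one]; omega
  | hs v j p ih =>
    rw [← mul_assoc, ell_pos p]
    by_cases q : R.IsPos ((u * v).1 (R.simple j))
    · rw [ell_pos q]; omega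
    · have := ell_neg q; omega
theorem step {u v : R.W} {j : κ} (p : R.IsPos (v.1 (R.simple j)))
    (hl : R.ell (u * (v * R.sW j) : R.W) = R.ell u + R.ell (v * R.sW j : R.W)) :
    R.IsPos ((u * v).1 (R.simple j)) ∧ R.ell (u * v : R.W) = R.ell u + R.ell v := by
  rw [← mul_assoc, ell_pos p] at hl
  have := ell_mul_le u v
  by_cases q : R.IsPos ((u * v).1 (R.simple j))
  · exact ⟨q, by rw [ell_pos q] at hl; omega⟩
  · have := ell_neg q; omega

theorem δ_self (x : Ω) : D.δ x x = 1 := (D.δ_eq_one x x).2 rfl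

theorem δ_symm {x y : Ω} {i : κ} (h : D.δ x y = R.sW i) : D.δ y x = R.sW i := by rw [D.δ_inv, h, sW_inv]

theorem ne_of_δ {x y : Ω} {i : κ} (h : D.δ x y = R.sW i) : x ≠ y := fun e => sW_ne_one i (h ▸ (D.δ_eq_one x y).2 e)

theorem wd2L {x y : Ω} {i : κ} (h : D.δ x y = R.sW i) (z : Ω) :
    D.δ x z = R.sW i * D.δ y z ∨ D.δ x z = D.δ y z := (D.wd2 z y x i (D.δ_symm h)).imp
  (fun e => by rw [D.δ_inv z x, e, mul_inv_rev, sW_inv, ← D.δ_inv]) fun e => by rw [D.δ_inv z x, e, ← D.δ_inv]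

theorem wd2L' {x y z : Ω} {i : κ} (h : D.δ x y = R.sW i) (hp : Ps R (D.δ y z) (R.simple i)) :
    D.δ x z = R.sW i * D.δ y z := by
  rw [D.δ_inv z x, D.wd2' z y x i (D.δ_symm h) (by rw [D.δ_inv y z]; exact hp), mul_inv_rev, sW_inv, ← D.δ_inv]

theorem wd3L (x z : Ω) (i : κ) : ∃ y, D.δ x y = R.sW i ∧ D.δ y z = R.sW i * D.δ x z := (D.wd3 z x i).imp fun y h =>
  ⟨h.1, by rw [D.δ_inv z y, h.2, mul_inv_rev, sW_inv, ← D.δ_inv]⟩

theorem δ_of_mem_pan {x y z : Ω} {i : κ} (hy : y ∈ D.pan x i) (hz : z ∈ D.pan x i) (h : y ≠ z) :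
    D.δ y z = R.sW i := by
  rcases hy with rfl | hy
  · exact hz.resolve_left h.symm
  rcases hz with rfl | hz
  · exact D.δ_symm hy
  have := D.wd2 y x z i hz
  rw [D.δ_symm hy, sW_mul_self, D.δ_eq_one] at this
  exact this.resolve_left h

/-- induction on `ell v`, `v = v' s_i` -/
theorem exists_mid {x z : Ω} {u v : R.W} (h : D.δ x z = u * v) (hl : R.ell (u * v : R.W) = R.ell u + R.ell v) :
    ∃ y, D.δ x y = u ∧ D.δ y z = v := by
  induction v using W_ind generalizing z with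
  | h1 => exact ⟨z, by rw [h, mul_one], D.δ_self z⟩
  | hs v j p ih =>
    obtain ⟨z', h1, h2⟩ := D.wd3 x z j
    obtain ⟨y, e1, e2⟩ := ih (by rw [h2, h, mul_assoc, mul_sW_sW]) (step p hl).2
    exact ⟨y, e1, by rw [D.wd2' y z' z j (D.δ_symm h1) (e2 ▸ p), e2]⟩

theorem δ_mul {x y z : Ω} (hl : R.ell (D.δ x y * D.δ y z : R.W) = R.ell (D.δ x y) + R.ell (D.δ y z)) :
    D.δ x z = D.δ x y * D.δ y z := by
  generalize e : D.δ y z = v at hl ⊢
  induction v using W_ind generalizing z with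
  | h1 => rw [(D.δ_eq_one y z).1 e, mul_one]
  | hs v j p ih =>
    obtain ⟨z', h1, h2⟩ := D.wd3 y z j
    have := ih (by rw [h2, e, mul_sW_sW]) (step p hl).2
    rw [D.wd2' x z' z j (D.δ_symm h1) (this ▸ (step p hl).1), this, mul_assoc]

/-- two chambers of an `i`-panel at distance `u` from `x` with `u α_i > 0` coincide -/
theorem eq_of_pan {x y y₁ y₂ : Ω} {i : κ} (h₁ : y₁ ∈ D.pan y i) (h₂ : y₂ ∈ D.pan y i) (e : D.δ x y₁ = D.δ x y₂)
    (hp : R.IsPos ((D.δ x y₁).1 (R.simple i))) : y₁ = y₂ := by_contra fun n =>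
  sW_ne_one i (left_eq_mul.1 (e.trans (D.wd2' x y₁ y₂ i (D.δ_of_mem_pan h₁ h₂ n) hp)))

/-- induction on `ell v` with `eq_of_pan` (from the side of `z`, or invert) -/
theorem mid_unique {x y y' z : Ω} (h1 : D.δ x y = D.δ x y') (h2 : D.δ y z = D.δ y' z)
    (hl : R.ell (D.δ x y * D.δ y z : R.W) = R.ell (D.δ x y) + R.ell (D.δ y z)) : y = y' := by
  generalize e : D.δ y z = v at hl h2
  induction v using W_ind generalizing z with
  | h1 => rw [(D.δ_eq_one y z).1 e, (D.δ_eq_one y' z).1 h2.symm]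
  | hs v j p ih =>
    obtain ⟨a, a1, a2⟩ := D.wd3 y z j
    obtain ⟨b, b1, b2⟩ := D.wd3 y' z j
    rw [e, mul_sW_sW] at a2
    rw [← h2, mul_sW_sW] at b2
    have k : D.δ x a = D.δ x y * v := by rw [D.δ_mul (y := y) (a2 ▸ (step p hl).2), a2]
    obtain rfl := D.eq_of_pan (x := x) (.inr a1) (.inr b1)
      (by rw [k, D.δ_mul (y := y') (z := b) (by rw [b2, ← h1]; exact (step p hl).2), b2, h1]) (k ▸ (step p hl).1)
    exact ih a2 (step p hl).2 b2.symm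

theorem exists_δ (x : Ω) (w : R.W) : ∃ y, D.δ x y = w := by
  induction w using W_ind with
  | h1 => exact ⟨x, D.δ_self x⟩
  | hs w j _ ih => obtain ⟨y, rfl⟩ := ih; exact (D.wd3 x y j).imp fun _ h => h.2

theorem self_mem_pan (x : Ω) (i : κ) : x ∈ D.pan x i := .inl rfl

theorem mem_pan_of_δ {x y : Ω} {i : κ} (h : D.δ x y = R.sW i) : y ∈ D.pan x i := .inr h

theorem pan_eq {x y : Ω} {i : κ} (h : y ∈ D.pan x i) : D.pan y i = D.pan x i := by
  have k : ∀ {x y : Ω}, y ∈ D.pan x i → D.pan x i ⊆ D.pan y i := fun h z hz =>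
    or_iff_not_imp_left.2 fun n => D.δ_of_mem_pan h hz (Ne.symm n)
  exact (k (k h (.inl rfl))).antisymm (k h)

theorem exists_third (x : Ω) (i : κ) (y z : Ω) : ∃ t ∈ D.pan x i, t ≠ y ∧ t ≠ z := by
  obtain ⟨a, b, n, ha, hb⟩ := D.thick x i
  have h1 := D.ne_of_δ ha
  have h2 := D.ne_of_δ hb
  by_contra c
  push Not at c
  have h3 := c x (.inl rfl)
  have h4 := c a (.inr ha)
  have h5 := c b (.inr hb)
  by_cases e1 : x = y <;> by_cases e2 : a = y <;> by_cases e3 : b = y <;> grind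

/-- the gate of a panel: `δ x ·` takes the value `u` (`u α_i > 0`) once and `u s_i` elsewhere -/
theorem exists_gate_pan (x y : Ω) (i : κ) : ∃ z ∈ D.pan y i, R.IsPos ((D.δ x z).1 (R.simple i)) ∧
    ∀ z' ∈ D.pan y i, z' ≠ z → D.δ x z' = D.δ x z * R.sW i := by
  obtain ⟨z, hz, p⟩ : ∃ z ∈ D.pan y i, R.IsPos ((D.δ x z).1 (R.simple i)) := by
    by_cases p : R.IsPos ((D.δ x y).1 (R.simple i))
    · exact ⟨y, .inl rfl, p⟩
    · obtain ⟨z, h1, h2⟩ := D.wd3 x y i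
      exact ⟨z, .inr h1, by rwa [h2, mul_sW_simple, R.isPos_neg]⟩
  exact ⟨z, hz, p, fun z' hz' n => D.wd2' x z z' i (D.δ_of_mem_pan hz hz' n.symm) p⟩

/-- residues are connected -/
theorem res_ind {x : Ω} {J : Set κ} {P : Ω → Prop} (h0 : P x)
    (h : ∀ y ∈ D.res x J, ∀ z, ∀ j ∈ J, D.δ y z = R.sW j → P y → P z) : ∀ y ∈ D.res x J, P y := fun y hy => by
  change (D.δ x y).1 ∈ R.WJ J at hy
  generalize e : D.δ x y = v at hy
  induction v, hy using WJ_ind generalizing y with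
  | h1 => exact (D.δ_eq_one x y).1 e ▸ h0
  | hs v hv j hj _ ih =>
    obtain ⟨z, h1, h2⟩ := D.wd3 x y j
    rw [e, mul_sW_sW] at h2
    exact h z (show (D.δ x z).1 ∈ _ from h2 ▸ hv) y j hj (D.δ_symm h1) (ih z h2)

/-- `δ x y' ∈ δ x y · W_J` for `y' ∈ res y J`, and every value is taken -/
theorem δ_res (x : Ω) {y y' : Ω} {J : Set κ} (h : y' ∈ D.res y J) : ((D.δ x y)⁻¹ * D.δ x y').1 ∈ R.WJ J := by
  refine D.res_ind (P := fun y' => ((D.δ x y)⁻¹ * D.δ x y').1 ∈ R.WJ J) (by rw [inv_mul_cancel]; exact one_mem _)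
    (fun a _ z j hj e k => ?_) y' h
  rcases D.wd2 x a z j e with e | e <;> rw [e]
  exacts [by rw [← mul_assoc]; exact mul_mem k (R.sp_mem_WJ hj), k]

theorem self_mem_res (x : Ω) (J : Set κ) : x ∈ D.res x J := by rw [res, Set.mem_setOf_eq, D.δ_self]; exact one_mem _

theorem δ_mem_of_res {x y z : Ω} {J : Set κ} (hy : y ∈ D.res x J) (hz : z ∈ D.res x J) : (D.δ y z).1 ∈ R.WJ J := by
  have := D.δ_res y hz
  rwa [← D.δ_inv, Subgroup.coe_mul, mul_mem_cancel_left hy] at this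

theorem res_eq {x y : Ω} {J : Set κ} (h : y ∈ D.res x J) : D.res y J = D.res x J :=
  Set.ext fun _ => ⟨D.δ_mem_of_res (D.δ_mem_of_res h (D.self_mem_res x J)), D.δ_mem_of_res h⟩

theorem res_mono (x : Ω) {J J' : Set κ} (h : J ⊆ J') : D.res x J ⊆ D.res x J' := fun _ k => R.WJ_mono h k

theorem res_singleton (x : Ω) (i : κ) : D.res x {i} = D.pan x i := Set.ext fun y =>
  mem_WJ_singleton.trans (or_congr_left ((D.δ_eq_one x y).trans eq_comm))

theorem res_univ (x : Ω) : D.res x Set.univ = Set.univ := Set.eq_univ_of_forall fun y => R.WJ_univ.ge (D.δ x y).2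

theorem pan_subset_res {x y : Ω} {J : Set κ} (hy : y ∈ D.res x J) {j : κ} (hj : j ∈ J) : D.pan y j ⊆ D.res x J := by
  rw [← D.res_eq hy, ← D.res_singleton]
  exact D.res_mono y (Set.singleton_subset_iff.2 hj)

theorem exists_δ_res (x y : Ω) {J : Set κ} {v : R.W} (hv : v.1 ∈ R.WJ J) : ∃ y' ∈ D.res y J, D.δ x y' = D.δ x y * v := by
  induction v, hv using WJ_ind with
  | h1 => exact ⟨y, D.self_mem_res y J, (mul_one _).symm⟩
  | hs v _ j hj _ ih =>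
    obtain ⟨a, ha, e⟩ := ih
    obtain ⟨z, h1, h2⟩ := D.wd3 x a j
    exact ⟨z, D.pan_subset_res ha hj (.inr h1), by rw [h2, e, mul_assoc]⟩

/-- the gate property: `exists_coset`, `exists_δ_res` (inverted), `ell_mul_of_min`, `δ_mul` -/
theorem gate (x y : Ω) (J : Set κ) : ∃ z ∈ D.res x J, (∀ j ∈ J, Ps R (D.δ z y) (R.simple j)) ∧
    ∀ z' ∈ D.res x J, D.δ z' y = D.δ z' z * D.δ z y := by
  obtain ⟨v, hv, p, -⟩ := exists_coset J (D.δ x y)
  obtain ⟨z, hz, e⟩ := D.exists_δ_res y x hv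
  rw [D.δ_inv y x, ← mul_inv_rev, ← e, ← D.δ_inv] at p
  exact ⟨z, hz, p, fun z' hz' => D.δ_mul (ell_mul_of_min (D.δ_mem_of_res hz' hz) p)⟩

/-- parallel panels: `δ x y' ∈ {u, u s_j = s_i u}`; in the second case use `wd3L` -/
theorem par_exists {x y y' : Ω} {i j : κ} (h : (D.δ x y).1 (R.simple j) = R.simple i) (hy : y' ∈ D.pan y j) :
    ∃ x' ∈ D.pan x i, D.δ x' y' = D.δ x y := by
  rcases hy with rfl | hy
  · exact ⟨x, .inl rfl, rfl⟩
  obtain ⟨x', h1, h2⟩ := D.wd3L x y' i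
  exact ⟨x', .inr h1, by rw [h2, D.wd2' x y y' j hy (h ▸ R.isPos_simple i), mul_sW_eq h, ← mul_assoc, sW_mul_self, one_mul]⟩

/-- Two isometries on a set `S` that agree on the panel of `x` and at `y` agree on the parallel panel of `y`:
for `y'` in the panel take `x'` from `par_exists`; `f y'`, `f' y'` lie in `pan (f y) j` at distance `δ x y` from `f x'`. -/
theorem par_agree {S : Set Ω} {f f' : Ω → Ω'} (hf : ∀ a ∈ S, ∀ b ∈ S, D'.δ (f a) (f b) = D.δ a b)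
    (hf' : ∀ a ∈ S, ∀ b ∈ S, D'.δ (f' a) (f' b) = D.δ a b) {x y : Ω} {i j : κ} (hx : D.pan x i ⊆ S)
    (hy : D.pan y j ⊆ S) (h : (D.δ x y).1 (R.simple j) = R.simple i) (h1 : ∀ x' ∈ D.pan x i, f x' = f' x')
    {y₀ : Ω} (hy₀ : y₀ ∈ D.pan y j) (h2 : f y₀ = f' y₀) : ∀ y' ∈ D.pan y j, f y' = f' y' := fun y' hy' => by
  obtain ⟨x', h3, h4⟩ := D.par_exists h hy'
  have k : ∀ {f : Ω → Ω'}, (∀ a ∈ S, ∀ b ∈ S, D'.δ (f a) (f b) = D.δ a b) → f y' ∈ D'.pan (f y₀) j := fun hf =>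
    (D.pan_eq hy₀ ▸ hy' : y' ∈ D.pan y₀ j).imp (congrArg _) (hf _ (hy hy₀) _ (hy hy')).trans
  exact D'.eq_of_pan (x := f x') (k hf) (h2 ▸ k hf') (by rw [hf _ (hx h3) _ (hy hy'), h1 _ h3, hf' _ (hx h3) _ (hy hy')])
    (by rw [hf _ (hx h3) _ (hy hy'), h4, h]; exact R.isPos_simple i)

/-- **Rigidity.**  Call `x` good if `f = f'` on all `j`-panels of `x`.  (a) `x` good, `δ x y = w_J`, `f y = f' y` ⟹ `y` good:
for `w_J α_k = -α_j` take `x' ∈ pan x j` with `δ x' y = s_j w_J` (`wd3L`), which maps `α_k` to `α_j`; `par_agree`.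
(b) `x, y` good and opposite, `x'` `j`-adjacent to `x` ⟹ some good `y'` is opposite `x'` (so `x'` is good by (a)): in
`pan y k` exactly one chamber is not opposite `x` and exactly one is not opposite `x'` (`exists_gate_pan`, `δ ∈ w_J ⟨s_k⟩`);
a third one `y'` (`exists_third`) is fixed, opposite the good `x`, so good.  Then `res_ind`. -/
theorem rigid {x₀ y₀ : Ω} {J : Set κ} {f f' : Ω → Ω'}
    (hf : ∀ a ∈ D.res x₀ J, ∀ b ∈ D.res x₀ J, D'.δ (f a) (f b) = D.δ a b)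
    (hf' : ∀ a ∈ D.res x₀ J, ∀ b ∈ D.res x₀ J, D'.δ (f' a) (f' b) = D.δ a b)
    (h0 : f x₀ = f' x₀) (h1 : ∀ j ∈ J, ∀ y ∈ D.pan x₀ j, f y = f' y) (hy : D.δ x₀ y₀ = wl R J) (h2 : f y₀ = f' y₀) :
    ∀ x ∈ D.res x₀ J, f x = f' x := by
  have op : ∀ k ∈ J, ∃ j ∈ J, (wl R J).1 (R.simple k) = R.neg (R.simple j) := fun k hk =>
    let ⟨j, hj, e⟩ := exists_opp (R := R) hk
    ⟨j, hj, by rw [eq_comm, R.neg_eq_iff, ← RootSys.W_neg (wl R J).2, ← e, ← Equiv.Perm.mul_apply, ← Subgroup.coe_mul,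
      wl_mul_self]; rfl⟩
  have a : ∀ x ∈ D.res x₀ J, (∀ j ∈ J, ∀ y ∈ D.pan x j, f y = f' y) → ∀ y, D.δ x y = wl R J → f y = f' y →
      ∀ j ∈ J, ∀ z ∈ D.pan y j, f z = f' z := fun x hx g y e e' k hk => by
    obtain ⟨j, hj, o⟩ := op k hk
    obtain ⟨x', k1, k2⟩ := D.wd3L x y j
    have := D.pan_eq (D.mem_pan_of_δ k1)
    exact D.par_agree D' hf hf' (x := x') (i := j) (this ▸ D.pan_subset_res hx hj)
      (D.pan_subset_res (D.res_eq hx ▸ (show (D.δ x y).1 ∈ _ from e ▸ wl_mem J)) hk)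
      (by rw [k2, e]; exact (congrArg _ o).trans (R.σ_neg_simple j)) (this ▸ g j hj) (.inl rfl) e'
  refine fun x hx => (D.res_ind (P := fun x => f x = f' x ∧ (∀ j ∈ J, ∀ y ∈ D.pan x j, f y = f' y) ∧
    ∃ y, D.δ x y = wl R J ∧ f y = f' y) ⟨h0, h1, y₀, hy, h2⟩ ?_ x hx).1
  rintro x hx x' j hj e ⟨-, g, y, e1, e2⟩
  obtain ⟨k, hk, o⟩ := exists_opp (R := R) hj
  have s : R.sW j * wl R J = wl R J * R.sW k := by
    rw [← rf_simple, ← rf_simple, ← rf_neg, ← o, rf_W, inv_mul_cancel_right]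
  have b : ∀ t, (∀ z ∈ D.pan y k, D.δ t z = wl R J ∨ D.δ t z = wl R J * R.sW k) →
      ∃ z₁, ∀ z ∈ D.pan y k, z ≠ z₁ → D.δ t z = wl R J := fun t ht => by
    obtain ⟨z₁, k1, k2, k3⟩ := D.exists_gate_pan t y k
    refine ⟨z₁, fun z hz n => ?_⟩
    rw [k3 z hz n, (ht z₁ k1).resolve_left fun c => ?_, mul_sW_sW]
    rw [c, o, R.isPos_neg] at k2
    exact k2 (R.isPos_simple j)
  have c : ∀ z ∈ D.pan y k, D.δ x z = wl R J ∨ D.δ x z = wl R J * R.sW k := by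
    rintro z (rfl | hz)
    exacts [.inl e1, e1 ▸ (D.wd2 x y z k hz).symm]
  obtain ⟨z₁, k1⟩ := b x c
  obtain ⟨z₂, k2⟩ := b x' fun z hz => by
    rcases D.wd2L (D.δ_symm e) z with l | l <;> rcases c z hz with m | m <;> rw [l, m]
    exacts [.inr s, .inl (by rw [← mul_assoc, s, mul_sW_sW]), .inl rfl, .inr rfl]
  obtain ⟨t, ht, n1, n2⟩ := D.exists_third y k z₁ z₂
  have ft := a x hx g y e1 e2 k hk t ht
  exact ⟨g j hj x' (.inr e), a t (D.res_eq hx ▸ (show (D.δ x t).1 ∈ _ from k1 t ht n1 ▸ wl_mem J))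
    (a x hx g t (k1 t ht n1) ft) x' (by rw [D.δ_inv, k2 t ht n2, inv_eq_of_mul_eq_one_right (wl_mul_self J)])
    (g j hj x' (.inr e)), t, k2 t ht n2, ft⟩

/-- a map preserving adjacency is an isometry (induction on `ell (δ a b)` with `wd3`, `wd2'`) -/
theorem iso_of_adj {x₀ : Ω} {J : Set κ} {f : Ω → Ω'}
    (h : ∀ a ∈ D.res x₀ J, ∀ b, ∀ j ∈ J, D.δ a b = R.sW j → D'.δ (f a) (f b) = R.sW j) :
    ∀ a ∈ D.res x₀ J, ∀ b ∈ D.res x₀ J, D'.δ (f a) (f b) = D.δ a b := fun a ha b hb => by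
  have hv := D.δ_mem_of_res ha hb
  clear hb
  generalize e : D.δ a b = v at hv
  induction v, hv using WJ_ind generalizing b with
  | h1 => rw [(D.δ_eq_one a b).1 e, D'.δ_self]
  | hs v hv j hj p ih =>
    obtain ⟨z, h1, h2⟩ := D.wd3 a b j
    rw [e, mul_sW_sW] at h2
    rw [D'.wd2' _ _ _ j (h z (D.res_eq ha ▸ (show (D.δ a z).1 ∈ _ from h2 ▸ hv)) b j hj (D.δ_symm h1))
      (ih z h2 ▸ p), ih z h2]

end WD

end CL.TB
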