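/-
S1143 (Tits), Bas: first properties of Bld: apartment, walls, Levi subgroups.
-/
import Cfsg.Agent.CHEV.TB.WD

set_option autoImplicit false
set_option linter.unusedSectionVars false

namespace CL.TB

open CL.Chev
open scoped MatrixGroups commutatorElement

namespace Bld

variable {ι κ G Ω : Type*} [Fintype κ] [DecidableEq κ] [Finite ι] {R : RootSys ι κ} [Group G] [MulAction G Ω]
  (B : Bld R G Ω)

theorem mem_H {g : G} : g ∈ B.H ↔ ∀ w, g • B.c w = B.c w := (mem_fixingSubgroup_iff G).trans Set.forall_mem_range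
theorem mem_Fx {g : G} {r : ι} : g ∈ B.Fx r ↔ ∀ w, Ps R w r → g • B.c w = B.c w := (mem_fixingSubgroup_iff G).trans
  ⟨fun h w hw => h _ ⟨w, hw, rfl⟩, by rintro h _ ⟨w, hw, rfl⟩; exact h w hw⟩
theorem mem_X {g : G} {r : ι} : g ∈ B.X r ↔ (∀ w, Ps R w r → g • B.c w = B.c w) ∧
    ∀ (w : R.W) i, Ps R w r → w.1 (R.simple i) ≠ r → ∀ y ∈ B.pan (B.c w) i, g • y = y := (mem_fixingSubgroup_iff G).trans
  ⟨fun h => ⟨fun w hw => h _ ⟨w, hw, .inl rfl⟩, fun w i hw hi _ hy => h _ ⟨w, hw, .inr ⟨i, hi, hy⟩⟩⟩, by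
    rintro h _ ⟨w, hw, rfl | ⟨i, hi, hy⟩⟩
    exacts [h.1 w hw, h.2 w i hw hi _ hy]⟩
theorem X_le_Fx (r : ι) : B.X r ≤ B.Fx r := fun _ h => B.mem_Fx.2 (B.mem_X.1 h).1
theorem H_le_Fx (r : ι) : B.H ≤ B.Fx r := fun _ h => B.mem_Fx.2 fun w _ => B.mem_H.1 h w
theorem c_injective : Function.Injective B.c := fun u v e =>
  inv_mul_eq_one.1 (by rw [← B.δ_c, e, B.δ_self])
theorem δ_c_sW (w : R.W) (i : κ) : B.δ (B.c w) (B.c (w * R.sW i)) = R.sW i := by rw [B.δ_c, inv_mul_cancel_left]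
theorem c_mem_pan (w : R.W) (i : κ) : B.c (w * R.sW i) ∈ B.pan (B.c w) i := .inr (B.δ_c_sW w i)
theorem pan_c_sW (w : R.W) (i : κ) : B.pan (B.c (w * R.sW i)) i = B.pan (B.c w) i := B.pan_eq (B.c_mem_pan w i)
theorem c_mem_Res {J : Set κ} {v : R.W} : B.c v ∈ B.Res J ↔ v.1 ∈ R.WJ J := by
  rw [Res, WD.res, Set.mem_setOf_eq, B.δ_c, inv_one, one_mul]
theorem Res_singleton (i : κ) : B.Res {i} = B.pan (B.c 1) i := B.res_singleton _ i
theorem smul_mem_pan (g : G) {x y : Ω} {i : κ} : g • y ∈ B.pan (g • x) i ↔ y ∈ B.pan x i := by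
  simp only [WD.pan, Set.mem_setOf_eq, B.δ_smul, smul_left_cancel_iff]
theorem smul_mem_res (g : G) {x y : Ω} {J : Set κ} : g • y ∈ B.res (g • x) J ↔ y ∈ B.res x J := by
  simp only [WD.res, Set.mem_setOf_eq, B.δ_smul]
theorem smul_mem_pan_of {g : G} {x x' : Ω} {i : κ} (hx : x' ∈ B.pan x i) (h : g • x' ∈ B.pan x i) {y : Ω} :
    g • y ∈ B.pan x i ↔ y ∈ B.pan x i := by
  rw [← B.pan_eq hx, ← B.smul_mem_pan g (x := x') (y := y), B.pan_eq h, B.pan_eq hx]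
theorem smul_mem_Res_of {g : G} {x : Ω} {J : Set κ} (hx : x ∈ B.Res J) (h : g • x ∈ B.Res J) {y : Ω} :
    g • y ∈ B.Res J ↔ y ∈ B.Res J := by
  rw [Res, ← B.res_eq hx, ← B.smul_mem_res g (x := x) (y := y), B.res_eq h, B.res_eq hx]
include B in
theorem exists_smul_eq (x y : Ω) : ∃ g : G, g • x = y :=
  (B.trans x x y y (by rw [B.δ_self, B.δ_self])).imp fun _ h => h.1

theorem conj_fix (n g : G) (y : Ω) : (n * g * n⁻¹) • n • y = n • y ↔ g • y = y := by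
  rw [smul_smul, inv_mul_cancel_right, mul_smul, smul_left_cancel_iff]

variable {B}
theorem IsN.mul {n m : G} {u v : R.W} (hn : B.IsN n u) (hm : B.IsN m v) : B.IsN (n * m) (u * v) := fun w => by
  rw [mul_smul, hm, hn, mul_assoc]
theorem IsN.inv {n : G} {u : R.W} (hn : B.IsN n u) : B.IsN n⁻¹ u⁻¹ := fun v => by rw [inv_smul_eq_iff, hn, mul_inv_cancel_left]
theorem isN_one_iff {n : G} : B.IsN n 1 ↔ n ∈ B.H := by simp [IsN, mem_H]
theorem IsN.conj_H {n : G} {w : R.W} (hn : B.IsN n w) {g : G} : n * g * n⁻¹ ∈ B.H ↔ g ∈ B.H := by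
  rw [mem_H, mem_H, (Group.mulLeft_bijective w).surjective.forall]
  exact forall_congr' fun v => by rw [← hn v, conj_fix]
theorem IsN.conj_Fx {n : G} {w : R.W} (hn : B.IsN n w) {g : G} {r : ι} : n * g * n⁻¹ ∈ B.Fx (w.1 r) ↔ g ∈ B.Fx r := by
  rw [mem_Fx, mem_Fx, (Group.mulLeft_bijective w).surjective.forall]
  exact forall_congr' fun v => by rw [← hn v, conj_fix, ps_mul]
theorem IsN.conj_X {n : G} {w : R.W} (hn : B.IsN n w) {g : G} {r : ι} : n * g * n⁻¹ ∈ B.X (w.1 r) ↔ g ∈ B.X r := by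
  rw [mem_X, mem_X, ← mem_Fx, ← mem_Fx, hn.conj_Fx, (Group.mulLeft_bijective w).surjective.forall]
  refine and_congr_right' (forall₂_congr fun v i => imp_congr (ps_mul ..) (imp_congr w.1.injective.ne_iff ?_))
  rw [(MulAction.surjective n).forall]
  exact forall_congr' fun y => by rw [← hn v, conj_fix, smul_mem_pan]
theorem IsN.conj_Tw {n : G} {w : R.W} (hn : B.IsN n w) {g : G} {β : ι} : B.Tw (n * g * n⁻¹) (w.1 β) ↔ B.Tw g β := by
  rw [Tw, Tw, (Group.mulLeft_bijective w).surjective.exists]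
  refine exists₂_congr fun v i => and_congr w.1.injective.eq_iff ?_
  rw [(MulAction.surjective n).forall]
  exact forall_congr' fun y => by rw [← hn v, conj_fix, smul_mem_pan]
theorem conj_X_of_Fx {g x : G} {r : ι} (hg : g ∈ B.Fx r) (hx : x ∈ B.X r) : g * x * g⁻¹ ∈ B.X r := by
  rw [mem_Fx] at hg
  rw [mem_X] at hx ⊢
  refine ⟨fun w hw => by rw [← hg w hw, conj_fix, hx.1 w hw], fun w i hw hi y hy => ?_⟩
  obtain ⟨y, rfl⟩ := MulAction.surjective g y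
  rw [← hg w hw, smul_mem_pan] at hy
  rw [conj_fix, hx.2 w i hw hi y hy]

/-- `ell_add_of_hull` and `mid_unique` -/
theorem hull_map {g : G} {w a b x : R.W} (ha : g • B.c a = B.c (w * a)) (hb : g • B.c b = B.c (w * b))
    (h : ∀ γ, Ps R a γ → Ps R b γ → Ps R x γ) : g • B.c x = B.c (w * x) := by
  have e1 : B.δ (B.c (w * a)) (g • B.c x) = a⁻¹ * x := by rw [← ha, B.δ_smul, B.δ_c]
  have e2 : B.δ (g • B.c x) (B.c (w * b)) = x⁻¹ * b := by rw [← hb, B.δ_smul, B.δ_c]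
  exact B.mid_unique (by rw [e1, B.δ_c]; group) (by rw [e2, B.δ_c]; group) (by rw [e1, e2]; exact ell_add_of_hull h)
theorem hull {g : G} {a b x : R.W} (ha : g • B.c a = B.c a) (hb : g • B.c b = B.c b)
    (h : ∀ γ, Ps R a γ → Ps R b γ → Ps R x γ) : g • B.c x = B.c x := by
  simpa using hull_map (w := 1) (by rwa [one_mul]) (by rwa [one_mul]) h
theorem isN_of_opp {g : G} {w a : R.W} (ha : g • B.c a = B.c (w * a))
    (hb : g • B.c (a * wl R Set.univ) = B.c (w * (a * wl R Set.univ))) : B.IsN g w := fun _ =>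
  hull_map ha hb fun _ h1 h2 => absurd h1 (ps_mul_wl_univ.1 h2)
/-- opposite chambers of `a W_J` span `a W_J` -/
theorem hull_res {g : G} {J : Set κ} {a : R.W} (ha : g • B.c a = B.c a) (hb : g • B.c (a * wl R J) = B.c (a * wl R J))
    {v : R.W} (hv : v.1 ∈ R.WJ J) : g • B.c (a * v) = B.c (a * v) := hull ha hb fun γ h1 h2 => by
  rw [← RootSys.perm_apply_inv a.1 γ, ps_mul]
  exact (ps_of_not_sub hv fun k => (ps_mul_wl k).1 h2 h1).2 h1

theorem Tw.neg {g : G} {β : ι} (h : B.Tw g β) : B.Tw g (R.neg β) :=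
  let ⟨w, i, e, k⟩ := h; ⟨w * R.sW i, i, by rw [mul_sW_simple, e], by rwa [pan_c_sW]⟩
/-- parallel panels (`par_agree` with `f = (g • ·)`, `f' = id`, `S = univ`) -/
theorem Tw.pan {g : G} {β : ι} (h : B.Tw g β) {w : R.W} {i : κ}
    (hw : w.1 (R.simple i) = β ∨ w.1 (R.simple i) = R.neg β) {y₀ : Ω} (hy : y₀ ∈ B.pan (B.c w) i) (hg : g • y₀ = y₀) :
    ∀ y ∈ B.pan (B.c w) i, g • y = y := by
  obtain ⟨u, j, e, k⟩ : B.Tw g (w.1 (R.simple i)) := hw.elim (· ▸ h) (· ▸ h.neg)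
  exact B.par_agree B.toWD (S := Set.univ) (f := (g • ·)) (f' := id) (fun a _ b _ => B.δ_smul g a b)
    (fun _ _ _ _ => rfl) (Set.subset_univ _) (Set.subset_univ _)
    (by rw [B.δ_c]; exact (congrArg _ e.symm).trans (RootSys.perm_inv_apply ..)) k hy hg
/-- `exists_panel` for `→`, `Tw.pan` for `←` -/
theorem mem_X_iff {g : G} {r : ι} : g ∈ B.X r ↔ g ∈ B.Fx r ∧ ∀ β, β ≠ r → β ≠ R.neg r → B.Tw g β := by
  refine ⟨fun h => ⟨B.X_le_Fx r h, fun β h1 h2 => ?_⟩, fun ⟨h, k⟩ => B.mem_X.2 ⟨B.mem_Fx.1 h, fun w i hw hi =>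
    (k _ hi fun e => ps_neg.1 (e ▸ (ps_apply w _).2 (R.isPos_simple i)) hw).pan (.inl rfl) (B.self_mem_pan _ i)
      (B.mem_Fx.1 h w hw)⟩⟩
  obtain ⟨w, i, e | e, p, -⟩ := exists_panel h1 h2
  · exact ⟨w, i, e, (B.mem_X.1 h).2 w i p (e ▸ h1)⟩
  · exact R.neg_neg β ▸ Tw.neg ⟨w, i, e, (B.mem_X.1 h).2 w i p fun k => h2 (R.neg_eq_iff.1 (e ▸ k))⟩
/-- `rigid` with `f = (g • ·)`, `f' = id` -/
theorem fix_res {g : G} {J : Set κ} {x y : Ω} (h0 : g • x = x) (h1 : ∀ j ∈ J, ∀ z ∈ B.pan x j, g • z = z)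
    (hy : B.δ x y = wl R J) (h2 : g • y = y) : ∀ z ∈ B.res x J, g • z = z :=
  B.rigid B.toWD (f := (g • ·)) (f' := id) (fun a _ b _ => B.δ_smul g a b) (fun _ _ _ _ => rfl) h0 h1 hy h2
theorem eq_one_of_pan [FaithfulSMul G Ω] {g : G} {w : R.W} (h0 : g ∈ B.H) (h1 : ∀ j, ∀ z ∈ B.pan (B.c w) j, g • z = z) :
    g = 1 := eq_of_smul_eq_smul (α := Ω) fun z =>
  (fix_res (J := Set.univ) (B.mem_H.1 h0 w) (fun j _ => h1 j) (by rw [B.δ_c, inv_mul_cancel_left])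
    (B.mem_H.1 h0 (w * wl R Set.univ)) z (by rw [B.res_univ]; trivial)).trans (one_smul ..).symm
/-- trivial on `res (c u) J` ⟹ trivial on the walls `u Φ_J` -/
theorem tw_of_res {g : G} {J : Set κ} {u : R.W} (h : ∀ z ∈ B.res (B.c u) J, g • z = z) {β : ι}
    (hβ : u.1⁻¹ β ∈ R.sub J) : B.Tw g β := by
  obtain ⟨v, i, hv, hi, e⟩ := exists_simple_sub hβ
  exact ⟨u * v, i, (congrArg u.1 e).trans (RootSys.perm_apply_inv ..), fun y hy => h y (B.pan_subset_res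
    (by rwa [WD.res, Set.mem_setOf_eq, B.δ_c, inv_mul_cancel_left]) hi hy)⟩
/-- `adj_std`, `Tw.pan` at `c u`, `fix_res`, `tw_of_res` -/
theorem Tw.refl {g : G} {r β γ : ι} (hg : g ∈ B.Fx r) (hβ : B.Tw g β) (hγ : B.Tw g γ) (h0 : R.pair γ β ≠ 0)
    (h1 : β ≠ γ) (h2 : β ≠ R.neg γ) (h3 : ¬ Spn R β γ r) : B.Tw g (R.refl γ β) := by
  obtain ⟨u, i, j, -, hi, hj, p⟩ := adj_std B.le2 h0 h1 h2 h3
  have f := B.mem_Fx.1 hg u (by simpa using p 1 (one_mem _))
  have k : ∀ {δ : ι} {l : κ}, l ∈ ({i, j} : Set κ) → u.1 (R.simple l) = δ ∨ u.1 (R.simple l) = R.neg δ →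
      u.1⁻¹ δ ∈ R.sub {i, j} := fun {δ l} hl e => by
    rcases e with e | e
    · rw [← e, RootSys.perm_inv_apply]; exact R.simple_mem_sub.2 hl
    · rw [← R.neg_mem_sub, ← RootSys.W_neg (inv_mem u.2), ← e, RootSys.perm_inv_apply]; exact R.simple_mem_sub.2 hl
  refine tw_of_res (J := {i, j}) (u := u) (fix_res f ?_ (by rw [B.δ_c, inv_mul_cancel_left])
    (B.mem_Fx.1 hg _ (p _ (wl_mem _)))) ?_
  · rintro _ (rfl | rfl)
    exacts [hβ.pan hi (B.self_mem_pan ..) f, hγ.pan hj (B.self_mem_pan ..) f]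
  · have := (RootSys.WJ_mem_sub (R.refl_mem_WJ (k (.inr rfl) hj))).2 (k (.inl rfl) hi)
    rwa [R.refl_W (inv_mem u.2), inv_inv, Equiv.Perm.mul_apply, Equiv.Perm.mul_apply, RootSys.perm_apply_inv] at this

variable (B)
theorem card_adj (x : Ω) (i : κ) : Nat.card {y // B.δ x y = R.sW i} = B.q i := by
  obtain ⟨g, rfl⟩ := B.exists_smul_eq (B.c 1) x
  exact (Nat.card_congr ((MulAction.toPerm g).subtypeEquiv fun y => by rw [MulAction.toPerm_apply, B.δ_smul])).symm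
theorem two_le_q [Finite Ω] (i : κ) : 2 ≤ B.q i :=
  let ⟨y, z, n, hy, hz⟩ := B.thick (B.c 1) i
  Finite.one_lt_card_iff_nontrivial.2 ⟨⟨y, hy⟩, ⟨z, hz⟩, fun e => n (congrArg Subtype.val e)⟩
theorem ncard_pan [Finite Ω] (x : Ω) (i : κ) : (B.pan x i).ncard = B.q i + 1 := by
  rw [← B.card_adj x]
  exact Set.ncard_insert_of_notMem (s := {y | B.δ x y = R.sW i}) fun h => B.ne_of_δ h rfl
/-- parallel panels `pan (c 1) j`, `pan (c w) i` are in bijection (`par_exists`, `eq_of_pan`) -/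
theorem q_conj [Finite Ω] {w : R.W} {i j : κ} (h : w.1 (R.simple i) = R.simple j) : B.q i = B.q j := by
  have k : ∀ {w : R.W} {i j : κ}, w.1 (R.simple i) = R.simple j → B.q i ≤ B.q j := fun {w i j} h => by
    have : Nonempty Ω := ⟨B.c 1⟩
    have e : B.δ (B.c 1) (B.c w) = w := by rw [B.δ_c, inv_one, one_mul]
    choose! f f1 f2 using fun y' => B.par_exists (y' := y') (e.symm ▸ h)
    have := Set.ncard_le_ncard_of_injOn f f1 fun a ha b hb ab => B.eq_of_pan (x := f a) ha hb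
      (by rw [f2 a ha, ab, f2 b hb]) (by rw [f2 a ha, e, h]; exact R.isPos_simple j)
    rw [ncard_pan, ncard_pan] at this
    omega
  exact (k h).antisymm (k (w := w⁻¹) (by rw [← h]; exact RootSys.perm_inv_apply ..))
include B in
/-- the kernel is normal and does not contain an `n` inducing `s_i` -/
theorem faithful_of_simple [IsSimpleGroup G] [Nonempty κ] : FaithfulSMul G Ω := by
  have i := (MonoidHom.ker_eq_bot_iff (MulAction.toPermHom G Ω)).1
    ((Subgroup.Normal.eq_bot_or_eq_top inferInstance).resolve_right fun e => by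
      obtain ⟨i⟩ := ‹Nonempty κ›
      obtain ⟨n, hn⟩ := B.exists_n (R.sW i)
      have : n • B.c 1 = B.c 1 := congrArg (· (B.c 1)) (MonoidHom.mem_ker.1 (e.ge (Subgroup.mem_top n)))
      exact sW_ne_one i (by simpa using B.c_injective ((hn 1).symm.trans this)))
  exact ⟨fun h => i (Equiv.ext h)⟩
/-- the same building with the induced permutation group -/
theorem exists_img : ∃ B' : Bld R (MulAction.toPermHom G Ω).range Ω, ∀ i, B'.q i = B.q i :=
  ⟨{ toWD := B.toWD, c := B.c, δ_c := B.δ_c, noiso := B.noiso, le2 := B.le2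
     δ_smul := by rintro ⟨_, g, rfl⟩; exact B.δ_smul g
     exists_n := fun w => let ⟨n, h⟩ := B.exists_n w; ⟨⟨_, n, rfl⟩, h⟩
     trans := fun x y x' y' e => let ⟨g, h⟩ := B.trans x y x' y' e; ⟨⟨_, g, rfl⟩, h⟩ }, fun _ => rfl⟩
/-- a length description of the simple root groups (`isPos_inv_iff_len`; `w α_j = ± α_i ↔ s_i w = w s_j`) -/
theorem mem_X_simple {g : G} {i : κ} : g ∈ B.X (R.simple i) ↔
    ∀ w : R.W, Cox.len R.sW w < Cox.len R.sW (R.sW i * w) → g • B.c w = B.c w ∧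
      ∀ j, R.sW i * w ≠ w * R.sW j → ∀ y, B.δ (B.c w) y = R.sW j → g • y = y := by
  have k : ∀ (w : R.W) j, Ps R w (R.simple i) → (w.1 (R.simple j) = R.simple i ↔ R.sW i * w = w * R.sW j) :=
    fun w j hw => ⟨fun e => Subtype.ext (mul_inv_eq_iff_eq_mul.1 (R.conj_sp_eq w.2 e)).symm, fun e => by
      have e' : R.σ i (w.1 (R.simple j)) = R.neg (w.1 (R.simple j)) :=
        (congrArg (fun u : R.W => u.1 (R.simple j)) e).trans (mul_sW_simple w j)
      by_cases p : R.IsPos (w.1 (R.simple j))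
      · exact R.eq_simple_of_not_isPos_σ p (by rwa [e', R.not_isPos_neg])
      · have := R.eq_simple_of_not_isPos_σ (i := i) ((R.isPos_neg _).2 p) (by rwa [R.σ_neg, e', R.neg_neg])
        exact absurd hw (ps_neg.1 (R.neg_eq_iff.1 this ▸ (ps_apply w _).2 (R.isPos_simple j)))⟩
  simp only [mem_X, ← R.isPos_inv_iff_len]
  refine ⟨fun h w hw => ⟨h.1 w hw, fun j n y hy => h.2 w j hw (mt (k w j hw).1 n) y (.inr hy)⟩,
    fun h => ⟨fun w hw => (h w hw).1, fun w j hw n y hy => ?_⟩⟩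
  rcases hy with rfl | hy
  exacts [(h w hw).1, (h w hw).2 j (mt (k w j hw).2 n) y hy]

end Bld

end CL.TB
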