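/-
S1143 (Tits), Levi: the Levi subgroups L J.  Put d0 = d0 R J, R' = the second set in the definition of L = res (c d0) J' (exists_d0_conj).
For x in Res J there is exactly one x* in R' with delta x x* = d0 (existence exists_δ_res from delta x (c d0) = delta x (c 1) * d0 by ell_mul_of_min / δ_mul;
uniqueness: delta x (.) on R' = res (x*) J' equals d0 * delta x* (.), as d0 alpha_k > 0 for k in J'), and symmetrically x is determined by x*; (c v)* = c (v d0).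
-/
import Cfsg.Agent.CHEV.TB.Bas

set_option autoImplicit false
set_option linter.unusedSectionVars false

namespace CL.TB

open CL.Chev
open scoped MatrixGroups commutatorElement

namespace Bld

variable {ι κ G Ω : Type*} [Fintype κ] [DecidableEq κ] [Finite ι] {R : RootSys ι κ} [Group G] [MulAction G Ω]
  {B : Bld R G Ω} {J : Set κ}

/-- the opposite residue -/
def Op (B : Bld R G Ω) (J : Set κ) : Set Ω := {y | (d0 R J * B.δ (B.c (d0 R J)) y * (d0 R J)⁻¹).1 ∈ R.WJ J}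

theorem mem_L {g : G} : g ∈ B.L J ↔ (∀ y, g • y ∈ B.Res J ↔ y ∈ B.Res J) ∧ ∀ y, g • y ∈ B.Op J ↔ y ∈ B.Op J :=
  and_congr MulAction.mem_stabilizer_set MulAction.mem_stabilizer_set

theorem exists_Op (B : Bld R G Ω) (J : Set κ) : ∃ J', B.Op J = B.res (B.c (d0 R J)) J' ∧ (∀ k ∈ J', Ps R (d0 R J)⁻¹ (R.simple k)) ∧
    ∀ w : R.W, (d0 R J * w * (d0 R J)⁻¹).1 ∈ R.WJ J ↔ w.1 ∈ R.WJ J' :=
  let ⟨J', h1, _, h3⟩ := exists_d0_conj (R := R) J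
  ⟨J', Set.ext fun _ => h3 _, fun k hk => let ⟨j, _, e⟩ := h1 k hk; by
    rw [Ps, Subgroup.coe_inv, inv_inv, e]; exact R.isPos_simple j, h3⟩

theorem δ_d0 {x z y : Ω} (hx : x ∈ B.Res J) (hz : z ∈ B.Res J) (h : B.δ z y = d0 R J) : B.δ x y = B.δ x z * d0 R J := by
  obtain ⟨J', -, h2, -⟩ := exists_d0_conj (R := R) J
  rw [← h]
  refine B.δ_mul (ell_mul_of_min (B.δ_mem_of_res hx hz) fun j hj => ?_)
  obtain ⟨k, -, e⟩ := h2 j hj
  rw [h, ← e, ps_apply]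
  exact R.isPos_simple k

theorem op_unique {x y y' : Ω} (hy : y ∈ B.Op J) (hy' : y' ∈ B.Op J) (h : B.δ x y = d0 R J) (h' : B.δ x y' = d0 R J) : y = y' := by
  obtain ⟨J', e, h2, -⟩ := B.exists_Op J
  rw [e] at hy hy'
  have := B.δ_mul (z := x) (ell_mul_of_min (B.δ_mem_of_res hy hy') (by rwa [B.δ_inv, h']))
  rw [B.δ_inv x y, B.δ_inv x y', h, h'] at this
  exact (B.δ_eq_one _ _).1 (right_eq_mul.1 this)

theorem c_mem_Op {v : R.W} (hv : v.1 ∈ R.WJ J) : B.c (v * d0 R J) ∈ B.Op J := by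
  rwa [Op, Set.mem_setOf_eq, B.δ_c, mul_inv_cancel_left, mul_inv_cancel_right]

theorem exists_op {x : Ω} (hx : x ∈ B.Res J) : ∃ y ∈ B.Op J, B.δ x y = d0 R J := by
  obtain ⟨J', e, -, h3⟩ := B.exists_Op J
  obtain ⟨y, hy, k⟩ := B.exists_δ_res x (B.c (d0 R J)) ((h3 ((d0 R J)⁻¹ * B.δ (B.c 1) x * d0 R J)).1 (by
    rwa [← mul_assoc, mul_inv_cancel_left, mul_inv_cancel_right]))
  refine ⟨y, e ▸ hy, ?_⟩
  rw [k, δ_d0 hx (B.self_mem_res _ _) (by rw [B.δ_c, inv_one, one_mul]), B.δ_inv (B.c 1) x]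
  group

theorem mem_L_of' {g : G} {x y : Ω} (hx : x ∈ B.Res J) (hx' : g • x ∈ B.Res J) (hy : y ∈ B.Op J) (hy' : g • y ∈ B.Op J) : g ∈ B.L J := by
  refine mem_L.2 ⟨fun _ => B.smul_mem_Res_of hx hx', fun z => ?_⟩
  obtain ⟨J', e, -⟩ := B.exists_Op J
  rw [e] at hy hy' ⊢
  rw [← B.res_eq hy, ← B.smul_mem_res g (x := y) (y := z), B.res_eq hy', B.res_eq hy]

theorem L_res {g : G} (hg : g ∈ B.L J) {y : Ω} : g • y ∈ B.Res J ↔ y ∈ B.Res J := (mem_L.1 hg).1 y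
theorem L_c {g : G} (hg : g ∈ B.L J) {u v : R.W} (hu : u.1 ∈ R.WJ J) (hv : v.1 ∈ R.WJ J) (h : g • B.c v = B.c u) :
    g • B.c (v * d0 R J) = B.c (u * d0 R J) := op_unique (x := B.c u) (((mem_L.1 hg).2 _).2 (c_mem_Op hv)) (c_mem_Op hu)
    (by rw [← h, B.δ_smul, B.δ_c, inv_mul_cancel_left]) (by rw [B.δ_c, inv_mul_cancel_left])
theorem mem_L_of {g : G} {u v u' v' : R.W} (hu : u.1 ∈ R.WJ J) (hv : v.1 ∈ R.WJ J) (hu' : u'.1 ∈ R.WJ J)
    (hv' : v'.1 ∈ R.WJ J) (h : g • B.c v = B.c u) (h' : g • B.c (v' * d0 R J) = B.c (u' * d0 R J)) : g ∈ B.L J :=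
  mem_L_of' (B.c_mem_Res.2 hv) (h ▸ B.c_mem_Res.2 hu) (c_mem_Op hv') (h' ▸ c_mem_Op hu')
/-- Extend `x, y` to `z` opposite `x` in `Res J` with `y` between (`exists_δ`, `ell_add_wl`, `δ_mul`), likewise `z'`;
`δ x z* = w_J d0 = w₀ = δ x' z'*`; take `g` with `g x = x'`, `g z* = z'*` (`trans`); `g ∈ L J`, `g z = z'`, `g y = y'` (`mid_unique`). -/
theorem L_trans {x y x' y' : Ω} (hx : x ∈ B.Res J) (hy : y ∈ B.Res J) (hx' : x' ∈ B.Res J) (hy' : y' ∈ B.Res J)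
    (h : B.δ x y = B.δ x' y') : ∃ g ∈ B.L J, g • x = x' ∧ g • y = y' := by
  have k : ∀ {x y : Ω}, x ∈ B.Res J → y ∈ B.Res J → ∃ z ∈ B.Res J, ∃ t ∈ B.Op J, B.δ y z = (B.δ x y)⁻¹ * wl R J ∧ B.δ z t = d0 R J ∧
      B.δ x t = wl R J * d0 R J := fun {x y} hx hy => by
    obtain ⟨z, e⟩ := B.exists_δ y ((B.δ x y)⁻¹ * wl R J)
    have m := B.δ_mem_of_res hx hy
    have hz : z ∈ B.Res J := (B.res_eq hy).le (show (B.δ y z).1 ∈ R.WJ J by rw [e]; exact mul_mem (inv_mem m) (wl_mem J))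
    obtain ⟨t, ht, e'⟩ := exists_op hz
    exact ⟨z, hz, t, ht, e, e', by rw [δ_d0 hx hz e', B.δ_mul (y := y) (e ▸ ell_add_wl m), e, mul_inv_cancel_left]⟩
  obtain ⟨z, hz, t, ht, e1, e2, e3⟩ := k hx hy
  obtain ⟨z', hz', t', ht', e1', e2', e3'⟩ := k hx' hy'
  obtain ⟨g, rfl, rfl⟩ := B.trans x t x' t' (e3.trans e3'.symm)
  have hg := mem_L_of' hx hx' ht ht'
  have := δ_d0 ((L_res hg).2 hz) hz' e2'
  rw [B.δ_smul, e2] at this
  obtain rfl := (B.δ_eq_one _ _).1 (right_eq_mul.1 this)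
  exact ⟨g, hg, rfl, B.mid_unique (x := g • x) (z := g • z) (by rw [B.δ_smul, h]) (by rw [B.δ_smul, e1, e1', h])
    (by rw [B.δ_smul, B.δ_smul, e1]; exact ell_add_wl (B.δ_mem_of_res hx hy))⟩
theorem H_le_L : B.H ≤ B.L J := fun _ h =>
  mem_L_of (one_mem _) (one_mem _) (one_mem _) (one_mem _) (B.mem_H.1 h 1) (B.mem_H.1 h (1 * _))
theorem IsN.mem_L {n : G} {w : R.W} (hn : B.IsN n w) (hw : w.1 ∈ R.WJ J) : n ∈ B.L J :=
  mem_L_of (mul_mem hw (one_mem _)) (one_mem _) (mul_mem hw (one_mem _)) (one_mem _) (hn 1) ((hn (1 * _)).trans (by rw [← mul_assoc]; rfl))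
/-- `c (w_J)` and `c d0` are opposite: `isN_of_opp` -/
theorem isN_of_L {g : G} (hg : g ∈ B.L J) {w : R.W} (hw : w.1 ∈ R.WJ J)
    (h : ∀ v : R.W, v.1 ∈ R.WJ J → g • B.c v = B.c (w * v)) : B.IsN g w := isN_of_opp (h _ (wl_mem J)) (by
  simpa [d0] using L_c hg (mul_mem hw (one_mem _)) (one_mem _) (h 1 (one_mem _)))
theorem mem_H_of_L {g : G} (hg : g ∈ B.L J) (h : ∀ v : R.W, v.1 ∈ R.WJ J → g • B.c v = B.c v) : g ∈ B.H :=
  isN_one_iff.1 (isN_of_L hg (one_mem _) (by simpa using h))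
/-- `exists_coset`, then `hull` of `v` and `v d0` -/
theorem fix_of_L {g : G} (hg : g ∈ B.L J) {w v : R.W} (hv : v.1 ∈ R.WJ J) (h : g • B.c v = B.c v)
    (hw : ∀ γ ∈ R.sub J, Ps R v γ → Ps R w γ) : g • B.c w = B.c w := hull h (L_c hg hv hv h) fun γ h1 h2 =>
  by_contra fun n => (ps_d0_of_not_sub hv fun k => n (hw γ k h1)).1 h2 ((ps_of_not_sub hv fun k => n (hw γ k h1)).1 h1)
theorem mem_Fx_of_L {g : G} (hg : g ∈ B.L J) {r : ι} (hr : r ∈ R.sub J)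
    (h : ∀ v : R.W, v.1 ∈ R.WJ J → Ps R v r → g • B.c v = B.c v) : g ∈ B.Fx r := B.mem_Fx.2 fun w hw =>
  let ⟨v, hv, _, k⟩ := exists_coset J w
  fix_of_L hg hv (h v hv ((k r hr).2 hw)) fun γ hγ => (k γ hγ).1
theorem Fx_le_L {r : ι} (hr : r ∈ R.sub J) : B.Fx r ≤ B.L J := fun g hg => by
  obtain ⟨v, i, hv, -, rfl⟩ := exists_simple_sub hr
  have p := (ps_apply v _).2 (R.isPos_simple i)
  exact mem_L_of hv hv hv hv (B.mem_Fx.1 hg v p) (B.mem_Fx.1 hg _ ((ps_d0_of_sub hv hr).2 p))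
theorem X_le_L {r : ι} (hr : r ∈ R.sub J) : B.X r ≤ B.L J := (B.X_le_Fx r).trans (Fx_le_L hr)
/-- conjugate to `w = 1` by `exists_n`; `L_trans` for `J = {i}` with `x = x' = c 1`, `mem_Fx_of_L` -/
theorem Fx_trans {w : R.W} {i : κ} {y z : Ω} (hy : B.δ (B.c w) y = R.sW i) (hz : B.δ (B.c w) z = R.sW i) :
    ∃ g ∈ B.Fx (w.1 (R.simple i)), g • y = z := by
  obtain ⟨n, hn⟩ := B.exists_n w
  obtain ⟨y, rfl⟩ := MulAction.surjective n y
  obtain ⟨z, rfl⟩ := MulAction.surjective n z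
  rw [← mul_one w, ← hn, B.δ_smul] at hy hz
  have m : ∀ {y}, B.δ (B.c 1) y = R.sW i → y ∈ B.Res {i} := fun h => (B.Res_singleton i).ge (.inr h)
  obtain ⟨g, hg, e1, rfl⟩ := L_trans (B.self_mem_res _ _) (m hy) (B.self_mem_res _ _) (m hz) (hy.trans hz.symm)
  refine ⟨n * g * n⁻¹, (IsN.conj_Fx hn).2 (mem_Fx_of_L hg (R.simple_mem_sub.2 rfl) fun v hv p => ?_), by
    rw [smul_smul, inv_mul_cancel_right, mul_smul]⟩
  rcases mem_WJ_singleton.1 hv with rfl | rfl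
  exacts [e1, (not_ps_mul_sW (R := R) 1 i (by rwa [one_mul])).elim]

end Bld

end CL.TB
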