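/-
S1143 (Tits), Root: root groups.
-/
import Cfsg.Agent.CHEV.TB.Levi

set_option autoImplicit false
set_option linter.unusedSectionVars false

namespace CL.TB

open CL.Chev
open scoped MatrixGroups commutatorElement

namespace Bld

variable {ι κ G Ω : Type*} [Fintype κ] [DecidableEq κ] [Finite ι] {R : RootSys ι κ} [Group G] [MulAction G Ω]
  [Finite G] [Finite Ω] [FaithfulSMul G Ω] {B : Bld R G Ω}

/-- Root groups are semiregular.  With `g ∈ Fx r`, `g • c (w s_i) = y` (`Fx_trans`), `g⁻¹ x g ∈ X r` fixes `c (w s_i)` and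
`c (w s_i w₀)` (`ps_mul_wl_univ`, `not_ps_mul_sW`), so lies in `H` (`isN_of_opp`); `exists_nonsimple` (`J = univ`, `noiso`),
`eq_one_of_pan`. -/
theorem X_free {w : R.W} {i : κ} {x : G} (hx : x ∈ B.X (w.1 (R.simple i))) {y : Ω} (hy : B.δ (B.c w) y = R.sW i)
    (h : x • y = y) : x = 1 := by
  obtain ⟨g, hg, rfl⟩ := Fx_trans (B.δ_c_sW w i) hy
  have hx' := B.mem_X.1 (conj_X_of_Fx (inv_mem hg) hx)
  obtain ⟨v, -, p, n⟩ := exists_nonsimple (J := Set.univ) (fun i _ => (B.noiso i).imp fun _ h => ⟨trivial, h⟩)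
    (r := w.1 (R.simple i)) (R.sub_univ ▸ trivial)
  have := eq_one_of_pan (isN_one_iff.1 (isN_of_opp (w := 1) (a := w * R.sW i)
    (by rw [one_mul, inv_inv, mul_smul, mul_smul, h, inv_smul_smul])
    (by rw [one_mul, hx'.1 _ (ps_mul_wl_univ.2 (not_ps_mul_sW w i))]))) fun j => hx'.2 v j p (n j)
  exact conj_eq_one_iff.1 this
theorem X_eq {w : R.W} {i : κ} {x x' : G} (hx : x ∈ B.X (w.1 (R.simple i))) (hx' : x' ∈ B.X (w.1 (R.simple i))) {y : Ω}
    (hy : B.δ (B.c w) y = R.sW i) (h : x • y = x' • y) : x = x' :=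
  (inv_mul_eq_one.1 (X_free (mul_mem (inv_mem hx') hx) hy (by rw [mul_smul, h, inv_smul_smul]))).symm
theorem δ_X_smul {w : R.W} {i : κ} {x : G} (hx : x ∈ B.X (w.1 (R.simple i))) {y : Ω} (hy : B.δ (B.c w) y = R.sW i) :
    B.δ (B.c w) (x • y) = R.sW i := by
  rw [← (B.mem_X.1 hx).1 w ((ps_apply w _).2 (R.isPos_simple i)), B.δ_smul, hy]
/-- conjugate by `n` inducing `w` -/
theorem Mouf.trans {i : κ} (h : B.Mouf i) (w : R.W) {y z : Ω} (hy : B.δ (B.c w) y = R.sW i) (hz : B.δ (B.c w) z = R.sW i) :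
    ∃ x ∈ B.X (w.1 (R.simple i)), x • y = z := by
  obtain ⟨n, hn⟩ := B.exists_n w
  obtain ⟨y, rfl⟩ := MulAction.surjective n y
  obtain ⟨z, rfl⟩ := MulAction.surjective n z
  rw [← mul_one w, ← hn, B.δ_smul] at hy hz
  obtain ⟨a, ha, rfl⟩ := h y hy
  obtain ⟨b, hb, rfl⟩ := h z hz
  exact ⟨n * (b * a⁻¹) * n⁻¹, (IsN.conj_X hn).2 (mul_mem hb (inv_mem ha)), by simp [mul_smul]⟩
theorem mouf_of {i : κ} (w : R.W) (h : ∀ y, B.δ (B.c w) y = R.sW i → ∃ x ∈ B.X (w.1 (R.simple i)),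
    x • B.c (w * R.sW i) = y) : B.Mouf i := fun y hy => by
  obtain ⟨n, hn⟩ := B.exists_n w
  obtain ⟨x, hx, e⟩ := h (n • y) (by rw [← mul_one w, ← hn, B.δ_smul, hy])
  exact ⟨n⁻¹ * x * n, (IsN.conj_X hn).1 (by simpa [mul_assoc] using hx), by rw [mul_smul, mul_smul, hn, e, inv_smul_smul]⟩
theorem X_inj (i : κ) : Function.Injective fun x : B.X (R.simple i) =>
    (⟨_, δ_X_smul (w := 1) x.2 (B.δ_c_sW 1 i)⟩ : {y // B.δ (B.c 1) y = R.sW i}) := fun x x' e =>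
  Subtype.ext (X_eq (w := 1) x.2 x'.2 (B.δ_c_sW 1 i) (congrArg Subtype.val e))
/-- `Mouf i` iff `q i ≤ |X (α_i)|` (semiregularity) -/
theorem mouf_iff_card {i : κ} : B.Mouf i ↔ B.q i ≤ Nat.card (B.X (R.simple i)) := by
  refine ⟨fun h => Nat.card_le_card_of_surjective _ (fun y => ?_ : Function.Surjective fun x : B.X (R.simple i) =>
    (⟨_, δ_X_smul (w := 1) x.2 (B.δ_c_sW 1 i)⟩ : {y // B.δ (B.c 1) y = R.sW i})), fun h y hy => ?_⟩
  · obtain ⟨x, hx, e⟩ := h y.1 y.2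
    exact ⟨⟨x, hx⟩, Subtype.ext (by simpa using e)⟩
  · obtain ⟨x, e⟩ := ((X_inj i).bijective_of_nat_card_le h).2 ⟨y, hy⟩
    exact ⟨x, x.2, by simpa using congrArg Subtype.val e⟩
theorem card_X_W (w : R.W) (r : ι) : Nat.card (B.X (w.1 r)) = Nat.card (B.X r) :=
  let ⟨n, hn⟩ := B.exists_n w
  (Nat.card_congr ((MulAut.conj n).toEquiv.subtypeEquiv fun _ => (IsN.conj_X hn).symm)).symm
theorem Mouf.card_X {i : κ} (h : B.Mouf i) (w : R.W) : Nat.card (B.X (w.1 (R.simple i))) = B.q i :=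
  (card_X_W w _).trans ((Nat.card_le_card_of_injective _ (X_inj i)).antisymm (mouf_iff_card.1 h))
/-- `q_conj`, `card_X_W`, `mouf_iff_card` -/
theorem Mouf.conj {i j : κ} (h : B.Mouf i) {w : R.W} (hw : w.1 (R.simple i) = R.simple j) : B.Mouf j :=
  mouf_iff_card.2 (by rw [← B.q_conj hw, ← hw, h.card_X])
theorem Mouf.exists_ne_one {i : κ} (h : B.Mouf i) (w : R.W) : ∃ x ∈ B.X (w.1 (R.simple i)), x ≠ 1 := by
  have := Finite.one_lt_card_iff_nontrivial.1 ((B.two_le_q i).trans_eq (h.card_X w).symm)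
  obtain ⟨x, hx⟩ := exists_ne (1 : B.X (w.1 (R.simple i)))
  exact ⟨x, x.2, fun e => hx (Subtype.ext e)⟩

/-- A product of root elements for distinct roots, positive at `w`, is trivial only if all factors are.  Induction on the
length of the list: among the `v` with `Ps R v r` for all roots `r` of the list take one of maximal `ell (w⁻¹ v)`; as
`w w₀` is not such a `v`, some `v α_i` is a root `r₀` of the list; all other factors are trivial on `pan (c v) i`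
(`mem_X`), so the factor of `r₀` fixes `c (v s_i)` and is `1` (`X_free`); erase it. -/
theorem prod_eq_one {w : R.W} (l : List (ι × G)) (hn : (l.map Prod.fst).Nodup) (hp : ∀ a ∈ l, Ps R w a.1)
    (hx : ∀ a ∈ l, a.2 ∈ B.X a.1) (h : (l.map Prod.snd).prod = 1) : ∀ a ∈ l, a.2 = 1 := by
  induction hl : l.length generalizing l with
  | zero => simp [List.length_eq_zero_iff.1 hl]
  | succ m ih =>
    intro a₀ h₀
    obtain ⟨v, hv, mx⟩ := Set.exists_max_image {v : R.W | ∀ a ∈ l, Ps R v a.1} (fun v => R.ell (w⁻¹ * v : R.W)) (Set.toFinite _)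
      ⟨w, hp⟩
    obtain ⟨i, hi⟩ : ∃ i, R.IsPos ((w⁻¹ * v).1 (R.simple i)) := by
      by_contra c
      have e : w⁻¹ * v = wl R Set.univ := Subtype.ext (R.eq_w0 (R.WJ_univ.ge (w⁻¹ * v).2) fun j _ k => c ⟨j, k⟩)
      exact ps_mul_wl_univ.1 (inv_mul_eq_iff_eq_mul.1 e ▸ hv a₀ h₀) (hp a₀ h₀)
    obtain ⟨a, ha, e⟩ : ∃ a ∈ l, v.1 (R.simple i) = a.1 := by
      by_contra c
      have := mx (v * R.sW i) fun a ha => ps_mul_sW (hv a ha) fun e => c ⟨a, ha, e⟩
      rw [← mul_assoc, WD.ell_pos hi] at this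
      omega
    obtain ⟨l₁, l₂, rfl⟩ := List.append_of_mem ha
    rw [List.map_append, List.map_cons, List.nodup_middle, List.nodup_cons, ← List.map_append] at hn
    have k : ∀ l' : List (ι × G), (∀ b ∈ l', b ∈ l₁ ++ l₂) → (l'.map Prod.snd).prod • B.c (v * R.sW i) = B.c (v * R.sW i) := fun l' hl' =>
      (MulAction.stabilizer G _).list_prod_mem fun g hg => by
        obtain ⟨b, hb, rfl⟩ := List.mem_map.1 hg
        have m : b ∈ l₁ ++ a :: l₂ := by have := hl' b hb; simp only [List.mem_append, List.mem_cons] at this ⊢; tauto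
        exact (B.mem_X.1 (hx b m)).2 v i (hv b m) (fun c => hn.1 (List.mem_map.2 ⟨b, hl' b hb, c.symm.trans e⟩)) _ (B.c_mem_pan v i)
    rw [List.map_append, List.map_cons, List.prod_append, List.prod_cons] at h
    have a1 : a.2 = 1 := X_free (e ▸ hx a ha) (B.δ_c_sW v i) (by
      have := congrArg (· • B.c (v * R.sW i)) h
      simp only [mul_smul, k l₂ fun _ => List.mem_append_right _, one_smul] at this
      rwa [← k l₁ fun _ => List.mem_append_left _, smul_left_cancel_iff, k l₁ fun _ => List.mem_append_left _] at this)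
    have sb : ∀ b ∈ l₁ ++ l₂, b ∈ l₁ ++ a :: l₂ := fun b hb => by simp only [List.mem_append, List.mem_cons] at hb ⊢; tauto
    have := ih (l₁ ++ l₂) hn.2 (fun b hb => hp b (sb b hb)) (fun b hb => hx b (sb b hb))
      (by rwa [a1, one_mul, ← List.prod_append, ← List.map_append] at h) (by simp at hl ⊢; omega)
    simp only [List.mem_append, List.mem_cons] at h₀ this
    rcases h₀ with h₀ | rfl | h₀
    exacts [this _ (.inl h₀), a1, this _ (.inr h₀)]

/-- The `μ`-maps.  Reduce to `r = α_i`.  `X (-α_i)` fixes `c s_i` and is transitive on the rest of the panel: `a x c_{s_i} = c_1`,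
`b c_1 = x⁻¹ c_{s_i}`; `a x b ∈ L {i}` (`X_le_L`) swaps `c_1`, `c_{s_i}`; `isN_of_L`. -/
theorem exists_mu (hM : ∀ i, B.Mouf i) {r : ι} {x : G} (hx : x ∈ B.X r) (h1 : x ≠ 1) :
    ∃ a ∈ B.X (R.neg r), ∃ b ∈ B.X (R.neg r), B.IsN (a * x * b) (rf R r) := by
  obtain ⟨w, i, rfl⟩ := exists_simple (R := R) r
  obtain ⟨n, hn⟩ := B.exists_n w
  obtain ⟨x, rfl⟩ := (MulAut.conj n).surjective x
  replace hx := (IsN.conj_X hn).1 hx
  replace h1 : x ≠ 1 := fun e => h1 (by simp [e])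
  have c1 : B.δ (B.c 1) (B.c (R.sW i)) = R.sW i := by simpa using B.δ_c_sW 1 i
  have k : ∀ {x}, x ∈ B.X (R.simple i) → x ≠ 1 → B.δ (B.c (R.sW i)) (x • B.c (R.sW i)) = R.sW i := fun hx h1 =>
    B.δ_of_mem_pan (.inr c1) (.inr (δ_X_smul (w := 1) hx c1)) fun e => h1 (X_free (w := 1) hx c1 e.symm)
  obtain ⟨a, ha, e1⟩ := (hM i).trans (R.sW i) (k hx h1) (B.δ_symm c1)
  obtain ⟨b, hb, e2⟩ := (hM i).trans (R.sW i) (B.δ_symm c1) (k (inv_mem hx) (inv_ne_one.2 h1))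
  have p := (ps_apply (R.sW i) _).2 (R.isPos_simple i)
  have s : (R.sW i).1 (R.simple i) = R.neg (R.simple i) := R.σ_simple i
  have m : R.simple i ∈ R.sub {i} := R.simple_mem_sub.2 rfl
  have := isN_of_L (J := {i}) (g := a * x * b) (w := R.sW i) (mul_mem (mul_mem (X_le_L (s ▸ R.neg_mem_sub.2 m) ha) (X_le_L m hx))
    (X_le_L (s ▸ R.neg_mem_sub.2 m) hb)) (R.sp_mem_WJ rfl) fun v hv => by
      rcases mem_WJ_singleton.1 hv with rfl | rfl
      · rw [mul_smul, mul_smul, e2, smul_inv_smul, (B.mem_X.1 ha).1 _ p, mul_one]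
      · rw [mul_smul, mul_smul, (B.mem_X.1 hb).1 _ p, e1, sW_mul_self]
  rw [s] at ha hb
  refine ⟨_, RootSys.W_neg w.2 _ ▸ (IsN.conj_X hn).2 ha, _, RootSys.W_neg w.2 _ ▸ (IsN.conj_X hn).2 hb, ?_⟩
  rw [rf_W, rf_simple]
  convert (IsN.mul hn this).mul (IsN.inv hn) using 1
  simp [mul_assoc]

/-- induction on `ell w`, `w = w' s_i` (`exists_mid`): move `c w'` first, then use `X (w' α_i)` -/
theorem exists_U (hM : ∀ i, B.Mouf i) {a w : R.W} {y : Ω} (hy : B.δ (B.c a) y = w) :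
    ∃ u ∈ ⨆ (r) (_ : Ps R a r ∧ ¬ Ps R (a * w) r), B.X r, u • B.c (a * w) = y := by
  induction w using WD.W_ind generalizing y with
  | h1 => exact ⟨1, one_mem _, by rw [one_smul, mul_one, (B.δ_eq_one _ _).1 hy]⟩
  | hs w j p ih =>
    obtain ⟨z, z1, z2⟩ := B.wd3 (B.c a) y j
    obtain ⟨u, hu, rfl⟩ := ih (by rw [z2, hy, WD.mul_sW_sW])
    obtain ⟨x, hx, e⟩ := (hM j).trans (a * w) (B.δ_c_sW _ j) (z := u⁻¹ • y) (by rw [← B.δ_smul u, smul_inv_smul, B.δ_symm z1])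
    have p' : Ps R a ((a * w).1 (R.simple j)) := (ps_apply a _).2 p
    refine ⟨u * x, mul_mem ((iSup₂_le fun r hr => le_iSup₂_of_le r ⟨hr.1, fun c => hr.2 ?_⟩ le_rfl :
      _ ≤ ⨆ (r) (_ : Ps R a r ∧ ¬ Ps R (a * (w * R.sW j)) r), B.X r) hu) (Subgroup.mem_iSup_of_mem _ (Subgroup.mem_iSup_of_mem
        ⟨p', mul_assoc a w _ ▸ not_ps_mul_sW _ j⟩ hx)), by rw [mul_smul, ← mul_assoc, e, smul_inv_smul]⟩
    rw [← mul_assoc] at c
    exact WD.mul_sW_sW (a * w) j ▸ ps_mul_sW c fun e => ps_neg.1 (by rw [← mul_sW_simple, e]; exact hr.1) p'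

/-- `K = ⨆ X r` is normalised by every `n` inducing some `w` and contains such an `n` for each `w` modulo `H`; an element
`g` fixing `c 1` is `u h` with `u ∈ K`, `h ∈ H` (`exists_U` for `w₀`, `isN_of_opp`), any `g` is `u n h` (`exists_U`); so `K` is
normal, and non-trivial. -/
theorem iSup_X_eq_top [IsSimpleGroup G] [Nonempty κ] (hM : ∀ i, B.Mouf i) : ⨆ r, B.X r = ⊤ := by
  have le : ∀ {p : ι → Prop} {x}, x ∈ (⨆ (r) (_ : p r), B.X r) → x ∈ ⨆ r, B.X r := fun {p x} hx =>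
    (iSup₂_le fun r _ => le_iSup B.X r : (⨆ (r) (_ : p r), B.X r) ≤ _) hx
  have k1 : ∀ {n w}, B.IsN n w → ∀ k ∈ ⨆ r, B.X r, n * k * n⁻¹ ∈ ⨆ r, B.X r := fun {n w} hn =>
    (iSup_le fun r x hx => Subgroup.mem_iSup_of_mem (w.1 r) (hn.conj_X.2 hx) :
      _ ≤ Subgroup.comap (MulAut.conj n).toMonoidHom (⨆ r, B.X r))
  refine (Subgroup.Normal.eq_bot_or_eq_top ⟨fun k hk g => ?_⟩).resolve_left fun e => ?_
  · obtain ⟨u, hu, e⟩ := exists_U hM (a := 1) (y := g • B.c 1) rfl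
    obtain ⟨n, hn⟩ := B.exists_n (B.δ (B.c 1) (g • B.c 1))
    have f : (n⁻¹ * u⁻¹ * g) • B.c 1 = B.c 1 := by rw [mul_smul, mul_smul, ← e, inv_smul_smul, inv_smul_eq_iff, hn, mul_one, one_mul]
    obtain ⟨u', hu', e'⟩ := exists_U hM (a := 1) (w := wl R Set.univ) (y := (n⁻¹ * u⁻¹ * g) • B.c (wl R Set.univ))
      (by rw [← f, B.δ_smul, B.δ_c]; simp)
    have f' : u'⁻¹ • B.c 1 = B.c 1 := (iSup₂_le fun r hr x hx => (B.mem_X.1 hx).1 1 hr.1 :
      _ ≤ MulAction.stabilizer G (B.c 1)) (inv_mem hu')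
    have := k1 (isN_of_opp (g := u'⁻¹ * (n⁻¹ * u⁻¹ * g)) (w := 1) (a := 1) (by rw [mul_smul, f, f', one_mul])
      (by rw [mul_smul, one_mul, one_mul, ← e', inv_smul_smul, one_mul])) k hk
    have := mul_mem (mul_mem (le hu) (k1 hn _ (mul_mem (mul_mem (le hu') this) (inv_mem (le hu'))))) (inv_mem (le hu))
    convert this using 1
    group
  · obtain ⟨i⟩ := ‹Nonempty κ›
    obtain ⟨x, hx, n⟩ := (hM i).exists_ne_one 1
    exact n (Subgroup.mem_bot.1 (e ▸ Subgroup.mem_iSup_of_mem _ hx))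
/-- the right side contains `μ`-elements for the simple roots, hence elements inducing every `w`; `exists_simple` -/
theorem iSup_X_simple [IsSimpleGroup G] [Nonempty κ] (hM : ∀ i, B.Mouf i) :
    ⨆ i, (B.X (R.simple i) ⊔ B.X (R.neg (R.simple i))) = ⊤ := by
  have m : ∀ i, B.X (R.simple i) ⊔ B.X (R.neg (R.simple i)) ≤ ⨆ i, (B.X (R.simple i) ⊔ B.X (R.neg (R.simple i))) := fun i =>
    le_iSup (fun i => B.X (R.simple i) ⊔ B.X (R.neg (R.simple i))) i
  have k : ∀ w, ∃ n ∈ ⨆ i, (B.X (R.simple i) ⊔ B.X (R.neg (R.simple i))), B.IsN n w := fun w => by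
    induction w using WD.W_ind with
    | h1 => exact ⟨1, one_mem _, fun v => by simp⟩
    | hs w j _ ih =>
      obtain ⟨n, hn, e⟩ := ih
      obtain ⟨x, hx, n1⟩ := (hM j).exists_ne_one 1
      obtain ⟨a, ha, b, hb, e'⟩ := exists_mu hM (r := R.simple j) hx n1
      exact ⟨_, mul_mem hn (m j (mul_mem (mul_mem (Subgroup.mem_sup_right ha) (Subgroup.mem_sup_left hx))
        (Subgroup.mem_sup_right hb))), rf_simple (R := R) j ▸ e.mul e'⟩
  refine top_unique ((iSup_X_eq_top hM).ge.trans (iSup_le fun r x hx => ?_))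
  obtain ⟨w, i, rfl⟩ := exists_simple (R := R) r
  obtain ⟨n, hn, e⟩ := k w
  obtain ⟨x, rfl⟩ := (MulAut.conj n).surjective x
  exact mul_mem (mul_mem hn (m i (Subgroup.mem_sup_left (e.conj_X.1 hx)))) (inv_mem hn)

end Bld

end CL.TB
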