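/-
S1143 (Tits), Comm: the commutator relation.
-/
import Cfsg.Agent.CHEV.TB.Root

set_option autoImplicit false
set_option linter.unusedSectionVars false

namespace CL.TB

open CL.Chev
open scoped MatrixGroups commutatorElement

namespace Bld

variable {ι κ G Ω : Type*} [Fintype κ] [DecidableEq κ] [Finite ι] {R : RootSys ι κ} [Group G] [MulAction G Ω]
  [Finite G] [Finite Ω] [FaithfulSMul G Ω] {B : Bld R G Ω}

/-- Let `K = {w | Ps w r ∧ Ps w s}`.  If `x ∈ X r` and `g ∈ Fx s` ... the commutator of `x ∈ X r`, `y ∈ X s` is trivial on ALL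
panels at chambers of `K`: at `(w, i)` with `w α_i ≠ r, s` both are trivial, otherwise one is trivial on the panel and the
other one stabilises it. -/
theorem comm_pan {r s : ι} (h1 : s ≠ r) {x y : G} (hx : x ∈ B.X r) (hy : y ∈ B.X s) {w : R.W} (hr : Ps R w r)
    (hs : Ps R w s) (i : κ) : ∀ z ∈ B.pan (B.c w) i, ⁅x, y⁆ • z = z := fun z hz => by
  have k : ∀ {x y : G}, (∀ z ∈ B.pan (B.c w) i, x • z = z) → y • B.c w = B.c w → ⁅x, y⁆ • z = z ∧ ⁅y, x⁆ • z = z :=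
    fun {x y} hx hy => by
    have e : ⁅y, x⁆ • z = z := by
      have hz' : y⁻¹ • z ∈ B.pan (B.c w) i := by rwa [← B.smul_mem_pan y, hy, smul_inv_smul]
      rw [commutatorElement_def, mul_smul, inv_smul_eq_iff.2 (hx z hz).symm, mul_smul, mul_smul, hx _ hz', smul_inv_smul]
    exact ⟨by rw [← commutatorElement_inv, inv_smul_eq_iff, e], e⟩
  by_cases e : w.1 (R.simple i) = r
  · exact (k ((B.mem_X.1 hy).2 w i hs (e ▸ h1.symm)) ((B.mem_X.1 hx).1 w hr)).2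
  · exact (k ((B.mem_X.1 hx).2 w i hr e) ((B.mem_X.1 hy).1 w hs)).1

omit [Finite G] [Finite Ω] [FaithfulSMul G Ω] in
theorem qc_of_ps {i j : κ} (hij : i ≠ j) {s k : ι} (hs : s ∈ R.sub {i, j}) (hk : k ∈ R.sub {i, j}) (p : R.IsPos s)
    (n : s ≠ R.simple i) {b : R.W} (b1 : ¬ Ps R b (R.simple i)) (b2 : Ps R b s) (k1 : Ps R (R.sW i) k) (k2 : ¬ Ps R b k) :
    QC R (R.simple i) s k := by
  have e : R.rt s j • R.rt k = (R.rt s j * R.rt k i - R.rt k j * R.rt s i) • R.rt (R.simple i) + R.rt k j • R.rt s := by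
    funext m
    rw [R.rt_simple]
    by_cases hi : m = i
    · subst hi; simp
    · by_cases hj : m = j
      · subst hj; simp [hi, mul_comm]
      · simp [hi, hs m (by simp [hi, hj]), hk m (by simp [hi, hj])]
  have l : ∀ w : R.W, R.rt s j * R.ht (w.1⁻¹ k) =
      (R.rt s j * R.rt k i - R.rt k j * R.rt s i) * R.ht (w.1⁻¹ (R.simple i)) + R.rt k j * R.ht (w.1⁻¹ s) := fun w => by
    obtain ⟨L, hL⟩ := RootSys.W_exists_linear (inv_mem w.2)
    simpa only [map_smul, map_add, ← hL, RootSys.htL_rt, smul_eq_mul] using congrArg (fun v => RootSys.htL (L v)) e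
  have c : 0 < R.rt s j := lt_of_le_of_ne ((R.isPos_iff s).1 p j) fun h => by
    rcases R.eq_simple_or_neg (r := s) (i := i) (fun m hm => if hj : m = j then hj ▸ h.symm else hs m (by simp [hm, hj])) with h | h
    exacts [n h, (R.isPos_neg _).1 (h ▸ p) (R.isPos_simple i)]
  have y0 : 0 ≤ R.rt k j := by
    have := (R.isPos_iff _).1 k1 j
    rwa [show (R.sW i).1⁻¹ k = R.σ i k from congrArg (· k) (R.sp_inv i), R.rt_σ_of_ne i k hij.symm] at this
  have a1 : ¬ Ps R (R.sW i) (R.simple i) := by simpa using not_ps_mul_sW (R := R) 1 i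
  have a2 : Ps R (R.sW i) s := by simpa using ps_mul_sW (ps_one.2 p) (i := i) n.symm
  have l1 := l b
  have l2 := l (R.sW i)
  simp only [Ps, RootSys.IsPos, not_lt] at b1 b2 k1 k2 a1 a2
  have k3 := lt_of_le_of_ne k2 (R.ht_ne_zero _)
  have x0 : 0 < R.rt s j * R.rt k i - R.rt k j * R.rt s i := by by_contra h; nlinarith
  have y1 : 0 < R.rt k j := by by_contra h; nlinarith
  exact ⟨_, _, _, Int.lt_toNat.2 x0, Int.lt_toNat.2 y1, Int.lt_toNat.2 c, by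
    rwa [Int.toNat_of_nonneg x0.le, Int.toNat_of_nonneg y0, Int.toNat_of_nonneg c.le]⟩

theorem mem_of_pan_std (hM : ∀ i, B.Mouf i) {i j : κ} (hij : i ≠ j) {s : ι} (hs : s ∈ R.sub {i, j}) (p : R.IsPos s)
    (n : s ≠ R.simple i) {g : G} (hg : ∀ w, Ps R w (R.simple i) → Ps R w s → ∀ k, ∀ z ∈ B.pan (B.c w) k, g • z = z) :
    g ∈ ⨆ (k) (_ : QC R (R.simple i) s k), B.X k := by
  have hi : i ∈ ({i, j} : Set κ) := .inl rfl
  have si := R.simple_mem_sub.2 hi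
  have a2 : Ps R (R.sW i) s := by simpa using ps_mul_sW (ps_one.2 p) (i := i) n.symm
  have o : ∀ {r}, r ∈ R.sub {i, j} → R.IsPos r → ¬ Ps R (wl R {i, j}) r := fun hr h k =>
    (ps_mul_wl (w := 1) hr).1 (by rwa [one_mul]) (ps_one.2 h)
  obtain ⟨b, k, hk, hb, e, h⟩ := cross_sub (J := {i, j}) (a := R.sW i) (b := wl R {i, j})
    (mul_mem (inv_mem (R.sp_mem_WJ hi)) (wl_mem _)) a2 (o hs p)
  replace hb : b.1 ∈ R.WJ {i, j} := (mul_mem_cancel_left (inv_mem (R.sp_mem_WJ hi))).1 hb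
  obtain ⟨b1, b2⟩ := h _ (ps_neg.2 (by simpa using not_ps_mul_sW (R := R) 1 i)) (ps_neg.2 (o si (R.isPos_simple i)))
  rw [ps_neg] at b1 b2
  have bs : Ps R b s := e ▸ (ps_apply b _).2 (R.isPos_simple k)
  have K1 := ps_one.2 (R.isPos_simple i)
  have f1 : g • B.c (R.sW i) = _ := hg 1 K1 (ps_one.2 p) i _ (by simpa using B.c_mem_pan 1 i)
  obtain ⟨u, hu, eu⟩ := exists_U hM (a := R.sW i) (w := (R.sW i)⁻¹ * b) (y := g • B.c b) (by rw [← f1, B.δ_smul, B.δ_c])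
  rw [mul_inv_cancel_left] at hu eu
  replace hu : u ∈ ⨆ (k) (_ : QC R (R.simple i) s k), B.X k := (iSup₂_le fun r hr => le_iSup₂_of_le r (qc_of_ps hij hs (by
    by_contra c
    exact hr.2 ((ps_of_not_sub hb c).2 ((ps_of_not_sub (v := R.sW i) (R.sp_mem_WJ hi) c).1 hr.1))) p n b1 bs hr.1 hr.2) le_rfl :
    _ ≤ ⨆ (k) (_ : QC R (R.simple i) s k), B.X k) hu
  have hT : (⨆ (k) (_ : QC R (R.simple i) s k), B.X k) ≤
      fixingSubgroup G {z | ∃ w, Ps R w (R.simple i) ∧ Ps R w s ∧ ∃ k, z ∈ B.pan (B.c w) k} := iSup₂_le fun r hr x hx =>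
    (mem_fixingSubgroup_iff G).2 fun z ⟨w, w1, w2, k, hz⟩ => (B.mem_X.1 hx).2 w k (hr.ps w1 w2) (hr.ne_simple n.symm w1 w2 k) z hz
  have hg' : ∀ w, Ps R w (R.simple i) → Ps R w s → ∀ k, ∀ z ∈ B.pan (B.c w) k, (u⁻¹ * g) • z = z := fun w w1 w2 k z hz => by
    rw [mul_smul, hg w w1 w2 k z hz, (mem_fixingSubgroup_iff G).1 (hT (inv_mem hu)) z ⟨w, w1, w2, k, hz⟩]
  obtain ⟨k', -, ok⟩ := exists_opp (R := R) hk
  have sk : R.sW k * wl R {i, j} * R.sW k' = wl R {i, j} := by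
    rw [← rf_simple k, ← rf_neg, ← ok, rf_W, inv_mul_cancel_right, rf_simple, WD.mul_sW_sW]
  have bk : (b * R.sW k).1 ∈ R.WJ {i, j} := mul_mem hb (R.sp_mem_WJ hk)
  have f2 : (u⁻¹ * g) • B.c (b * wl R {i, j}) = _ := hg' (b * R.sW k * wl R {i, j})
    ((ps_mul_wl ((RootSys.WJ_mem_sub (inv_mem bk)).2 si)).2 b2)
    ((ps_mul_wl ((RootSys.WJ_mem_sub (inv_mem bk)).2 hs)).2 (e ▸ not_ps_mul_sW b k)) k' _ (by
      have := B.c_mem_pan (b * R.sW k * wl R {i, j}) k'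
      rwa [show b * R.sW k * wl R {i, j} * R.sW k' = b * wl R {i, j} by rw [mul_assoc b, mul_assoc b, sk]] at this)
  have f3 := hull_res (by rw [mul_smul, ← eu, inv_smul_smul]) f2 (v := b⁻¹ * wl R {i, j}) (mul_mem (inv_mem hb) (wl_mem _))
  rw [mul_inv_cancel_left] at f3
  have f4 : (u⁻¹ * g) • B.c (d0 R {i, j}) = _ := hg' _ (by simpa using (ps_d0_of_sub (v := 1) (one_mem _) si).2 K1)
    (by simpa using (ps_d0_of_sub (v := 1) (one_mem _) hs).2 (ps_one.2 p)) i _ (B.self_mem_pan _ i)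
  have := eq_one_of_pan (isN_one_iff.1 (isN_of_opp (w := 1) (a := wl R {i, j}) (by rwa [one_mul]) (by rwa [one_mul]))) (hg' 1 K1 (ps_one.2 p))
  exact inv_mul_eq_one.1 this ▸ hu

/-- **Peeling.**  By `pair_std` and conjugation assume `r = α_i`, `s > 0` in `Φ_J`, `J = {i, j}`.  `1, d0 ∈ K`.  Let `b ∈ W_J` be of
maximal length with `¬ Ps b α_i`, `Ps b s`; then `b α_k = s` for some `k ∈ J` with `b s_k` longer (or `ell`-maximality gives it),
the roots positive at `s_i` and negative at `b` are in `QC α_i s` (rank two lists `E3.mem_sub`, `E4_pos`, or for `A i j = 0`: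
`s = α_j`, `b = s_i`), and `b w_J` is adjacent to a chamber `k₀ = b w_J s_{k'} ∈ K ∩ W_J`.  `g` fixes `c s_i`; `exists_U` with
`a = s_i` gives `u ∈ ⨆ X k` (`k ∈ QC`) with `g' = u⁻¹ g` fixing `c b`.  Every `X k`, `k ∈ QC r s`, is trivial on all panels at
chambers of `K` (`QC.ps`, `QC.ne_simple`), so `g'` is, hence fixes `c (b w_J)`, `c d0`; `hull_res` gives `c w_J`, which is
opposite `c d0` (`isN_of_opp`): `g' ∈ H`; `eq_one_of_pan` at `w = 1`. -/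
theorem mem_of_pan (hM : ∀ i, B.Mouf i) {r s : ι} (h1 : s ≠ r) (h2 : s ≠ R.neg r) {g : G}
    (hg : ∀ w, Ps R w r → Ps R w s → ∀ i, ∀ z ∈ B.pan (B.c w) i, g • z = z) :
    g ∈ ⨆ (k) (_ : QC R r s k), B.X k := by
  obtain ⟨w, i, j, hij, rfl, p, hs⟩ := pair_std h1 h2
  obtain ⟨s, rfl⟩ := w.1.surjective s
  rw [RootSys.perm_inv_apply] at hs
  obtain ⟨n, hn⟩ := B.exists_n w
  obtain ⟨g, rfl⟩ := (MulAut.conj n).surjective g
  have := mem_of_pan_std hM hij hs ((ps_apply w s).1 p) (fun e => h1 (congrArg _ e)) (g := g) fun v v1 v2 k z hz =>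
    (conj_fix n g z).1 (hg (w * v) ((ps_mul ..).2 v1) ((ps_mul ..).2 v2) k _ (by rwa [← hn, smul_mem_pan]))
  exact (iSup₂_le fun k hk x hx => Subgroup.mem_iSup_of_mem (w.1 k) (Subgroup.mem_iSup_of_mem (hk.W w)
    ((IsN.conj_X hn).2 hx)) : _ ≤ Subgroup.comap (MulAut.conj n).toMonoidHom (⨆ (k) (_ : QC R (w.1 (R.simple i)) (w.1 s) k), B.X k)) this

theorem comm_mem (hM : ∀ i, B.Mouf i) {r s : ι} (h1 : s ≠ r) (h2 : s ≠ R.neg r) {x y : G} (hx : x ∈ B.X r)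
    (hy : y ∈ B.X s) : ⁅x, y⁆ ∈ ⨆ (k) (_ : QC R r s k), B.X k :=
  mem_of_pan hM h1 h2 fun _ hr hs => comm_pan h1 hx hy hr hs

theorem commute_of_qc (hM : ∀ i, B.Mouf i) {r s : ι} (h1 : s ≠ r) (h2 : s ≠ R.neg r) (h : ∀ k, ¬ QC R r s k) {x y : G}
    (hx : x ∈ B.X r) (hy : y ∈ B.X s) : Commute x y := commutatorElement_eq_one_iff_commute.1
  (Subgroup.mem_bot.1 ((iSup₂_le fun k hk => absurd hk (h k) : ⨆ (k) (_ : QC R r s k), B.X k ≤ ⊥) (comm_mem hM h1 h2 hx hy)))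

theorem comm_mem_one (hM : ∀ i, B.Mouf i) {r s k₀ : ι} (h1 : s ≠ r) (h2 : s ≠ R.neg r) (h : ∀ k, QC R r s k → k = k₀)
    {x y : G} (hx : x ∈ B.X r) (hy : y ∈ B.X s) : ⁅x, y⁆ ∈ B.X k₀ :=
  (iSup₂_le fun k hk => h k hk ▸ le_rfl : _ ≤ B.X k₀) (comm_mem hM h1 h2 hx hy)

end Bld

end CL.TB
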