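/-
S1143 (Tits), A2F: consequences of the coordinates on the residue of a simple edge.
-/
import Cfsg.Agent.CHEV.TB.Comm
import Cfsg.Agent.CHEV.TB.Hua

set_option autoImplicit false
set_option linter.unusedSectionVars false

namespace CL.TB

open CL.Chev
open scoped MatrixGroups commutatorElement

section El
variable {K : Type*} [Field K]
theorem coe_El {a b : Fin 3} (h : a ≠ b) (t : K) : (El a b t).1 = Matrix.transvection a b t :=
  congrArg Subtype.val (dif_neg h : El a b t = _)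
theorem El_add {a b : Fin 3} (t u : K) : El a b (t + u) = El a b t * El a b u := by
  by_cases h : a = b
  · simp [El, h]
  · exact Subtype.ext (by
      rw [Matrix.SpecialLinearGroup.coe_mul, coe_El h, coe_El h, coe_El h, Matrix.transvection_mul_transvection_same _ _ h])
theorem El_zero (a b : Fin 3) : El a b (0 : K) = 1 := by simpa using El_add (a := a) (b := b) (0 : K) 0
theorem El_inv (a b : Fin 3) (t : K) : (El a b t)⁻¹ = El a b (-t) := by
  rw [inv_eq_iff_mul_eq_one, ← El_add, add_neg_cancel, El_zero]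
theorem El_pow (a b : Fin 3) (t : K) (n : ℕ) : El a b t ^ n = El a b (n * t) := by
  induction n with
  | zero => simp [El_zero]
  | succ n ih => rw [pow_succ, ih, ← El_add]; congr 1; push_cast; ring
theorem El_comm {a b c : Fin 3} (h1 : a ≠ b) (h2 : a ≠ c) (h3 : b ≠ c) (t u : K) :
    El a b t * El b c u = El a c (t * u) * El b c u * El a b t := Subtype.ext (by
  simp [coe_El, h1, h2, h3, h2.symm, h3.symm, Matrix.transvection, mul_add, add_mul, Matrix.single_mul_single_of_ne]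
  abel)
theorem El_row {a b c : Fin 3} (h1 : a ≠ b) (h2 : a ≠ c) (t u : K) : Commute (El a b t) (El a c u) := Subtype.ext (by
  simp [coe_El, h1, h2, h1.symm, h2.symm, Matrix.transvection, mul_add, add_mul, Matrix.single_mul_single_of_ne]
  abel)
theorem El_col {a b c : Fin 3} (h1 : a ≠ c) (h2 : b ≠ c) (t u : K) : Commute (El a c t) (El b c u) := Subtype.ext (by
  simp [coe_El, h1, h2, h1.symm, h2.symm, Matrix.transvection, mul_add, add_mul, Matrix.single_mul_single_of_ne]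
  abel)
theorem nEl_sym {a b : Fin 3} (h : a ≠ b) {t : K} (ht : t ≠ 0) : nEl a b t = El b a (-t⁻¹) * El a b t * El b a (-t⁻¹) :=
  Subtype.ext (by
    simp [nEl, coe_El, h, h.symm, ht, Matrix.transvection, mul_add, add_mul, Matrix.single_mul_single_of_ne, ← Matrix.single_neg]
    abel)
variable (K) in
/-- the Steinberg elements of `SL₃(K)` -/
def stEl : St3 K SL(3, K) := ⟨El, fun _ _ _ => El_add, fun _ _ _ => El_comm, fun _ _ _ => El_row, fun _ _ _ => El_col,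
  fun _ _ h _ => nEl_sym h⟩
/-- conjugation by a monomial matrix -/
theorem nEl_conj {a b c d : Fin 3} (h : a ≠ b) (h' : c ≠ d) {t : K} (ht : t ≠ 0) : ∃ e : K, e ≠ 0 ∧
    ∀ u, nEl a b t * El c d u * (nEl a b t)⁻¹ = El (Equiv.swap a b c) (Equiv.swap a b d) (e * u) := by
  obtain ⟨f, h2, h3, k⟩ : ∃ f, a ≠ f ∧ b ≠ f ∧ ∀ c, c = a ∨ c = b ∨ c = f := by revert a b; decide
  have s := Equiv.swap_apply_of_ne_of_ne h2.symm h3.symm
  rcases k c with rfl | rfl | rfl <;> rcases k d with rfl | rfl | rfl <;>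
    first | exact absurd rfl h' | simp only [Equiv.swap_apply_left, Equiv.swap_apply_right, s]
  · exact ⟨-(t⁻¹ * t⁻¹), by simpa, fun u => neg_mul _ u ▸ (stEl K).n_conj_ab h ht u⟩
  · exact ⟨-t⁻¹, by simpa, fun u => neg_mul _ u ▸ (stEl K).n_conj_ac h h2 h3 ht u⟩
  · exact ⟨-(t * t), by simpa, fun u => neg_mul _ u ▸ (stEl K).n_conj_ba h ht u⟩
  · exact ⟨t, ht, (stEl K).n_conj_bc h h2 h3 ht⟩
  · exact ⟨-t, by simpa, fun u => neg_mul _ u ▸ (stEl K).n_conj_ca h h2 h3 ht u⟩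
  · exact ⟨t⁻¹, by simpa, (stEl K).n_conj_cb h h2 h3 ht⟩
theorem El01 (t : K) : (El 0 1 t).1 = !![1, t, 0; 0, 1, 0; 0, 0, 1] := by
  rw [coe_El (by decide)]; ext a b; fin_cases a <;> fin_cases b <;> simp [Matrix.transvection]
theorem El02 (t : K) : (El 0 2 t).1 = !![1, 0, t; 0, 1, 0; 0, 0, 1] := by
  rw [coe_El (by decide)]; ext a b; fin_cases a <;> fin_cases b <;> simp [Matrix.transvection]
theorem El12 (t : K) : (El 1 2 t).1 = !![1, 0, 0; 0, 1, t; 0, 0, 1] := by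
  rw [coe_El (by decide)]; ext a b; fin_cases a <;> fin_cases b <;> simp [Matrix.transvection]
theorem nEl01 {t : K} (ht : t ≠ 0) : (nEl 0 1 t).1 = !![0, t, 0; -t⁻¹, 0, 0; 0, 0, 1] := by
  ext a b; fin_cases a <;> fin_cases b <;>
    simp [nEl, coe_El, ht, Matrix.transvection, Matrix.mul_apply, Fin.sum_univ_three, Matrix.one_apply, Matrix.single_apply]
theorem nEl02 {t : K} (ht : t ≠ 0) : (nEl 0 2 t).1 = !![0, 0, t; 0, 1, 0; -t⁻¹, 0, 0] := by
  ext a b; fin_cases a <;> fin_cases b <;>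
    simp [nEl, coe_El, ht, Matrix.transvection, Matrix.mul_apply, Fin.sum_univ_three, Matrix.one_apply, Matrix.single_apply]
theorem nEl12 {t : K} (ht : t ≠ 0) : (nEl 1 2 t).1 = !![1, 0, 0; 0, 0, t; 0, -t⁻¹, 0] := by
  ext a b; fin_cases a <;> fin_cases b <;>
    simp [nEl, coe_El, ht, Matrix.transvection, Matrix.mul_apply, Fin.sum_univ_three, Matrix.one_apply, Matrix.single_apply]
theorem nEl_inv {a b : Fin 3} (h : a ≠ b) (t : K) : (nEl a b t)⁻¹ = nEl a b (-t) := ((stEl K).n_neg h t).symm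
/-- the diagonal matrix `diag (s, t, (s t)⁻¹)` -/
def Dg (s t : Kˣ) : SL(3, K) := ⟨Matrix.diagonal ![s, t, ((s * t)⁻¹ : Kˣ)], by
  simp [Fin.prod_univ_three]; field_simp⟩
theorem coe_Dg (s t : Kˣ) : (Dg s t).1 = !![(s : K), 0, 0; 0, t, 0; 0, 0, (s * t : K)⁻¹] := by
  change Matrix.diagonal _ = _
  ext a b; fin_cases a <;> fin_cases b <;> simp
theorem Dg_conj01 (s t : Kˣ) (u : K) : Dg s t * El 0 1 u * (Dg s t)⁻¹ = El 0 1 (s * (t⁻¹ : Kˣ) * u) :=
  mul_inv_eq_iff_eq_mul.2 (Subtype.ext (by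
    ext a b; fin_cases a <;> fin_cases b <;> simp [coe_Dg, El01]; field_simp))
theorem Dg_conj02 (s t : Kˣ) (u : K) : Dg s t * El 0 2 u * (Dg s t)⁻¹ = El 0 2 (s * s * t * u) :=
  mul_inv_eq_iff_eq_mul.2 (Subtype.ext (by
    ext a b; fin_cases a <;> fin_cases b <;> simp [coe_Dg, El02]; field_simp))
end El

namespace A2

variable {ι κ G Ω : Type*} [Fintype κ] [DecidableEq κ] [Finite ι] {R : RootSys ι κ} [Group G] [MulAction G Ω]
  [Finite G] [Finite Ω] [FaithfulSMul G Ω] {B : Bld R G Ω}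
  {i j : κ} {K : Type*} [Field K] [Finite K] (P : A2 B i j K)

theorem Ind.one : P.Ind 1 1 := ⟨one_mem _, fun y _ => by simp⟩
theorem exists_ind (A : SL(3, K)) : ∃ g, P.Ind g A := P.lift A
variable {P}
theorem Ind.mul {g g' : G} {A A' : SL(3, K)} (h : P.Ind g A) (h' : P.Ind g' A') : P.Ind (g * g') (A * A') :=
  ⟨mul_mem h.1 h'.1, fun y hy => by rw [mul_smul, h.2 _ ((Bld.L_res h'.1).2 hy), h'.2 y hy, map_mul, Equiv.Perm.mul_apply]⟩
theorem Ind.inv {g : G} {A : SL(3, K)} (h : P.Ind g A) : P.Ind g⁻¹ A⁻¹ :=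
  ⟨inv_mem h.1, fun y hy => by
    rw [map_inv, eq_comm, Equiv.Perm.inv_eq_iff_eq, ← h.2 _ ((Bld.L_res (inv_mem h.1)).2 hy), smul_inv_smul]⟩
theorem Ind.pow {g : G} {A : SL(3, K)} (h : P.Ind g A) (n : ℕ) : P.Ind (g ^ n) (A ^ n) := by
  induction n with
  | zero => simpa using Ind.one P
  | succ n ih => rw [pow_succ, pow_succ]; exact ih.mul h
theorem cR {v : R.W} (hv : v.1 ∈ R.WJ {i, j}) : B.c v ∈ B.Res {i, j} := B.c_mem_Res.2 hv
theorem wi : (R.sW i).1 ∈ R.WJ {i, j} := R.sp_mem_WJ (.inl rfl)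
theorem wj : (R.sW j).1 ∈ R.WJ {i, j} := R.sp_mem_WJ (.inr rfl)
theorem Ind.isN_i {g : G} (hg : P.Ind g (nEl 0 1 1)) : B.IsN g (R.sW i) :=
  Bld.isN_of_L hg.1 wi fun v hv => by rw [hg.2 _ (cR hv), P.n_i v hv]
theorem Ind.isN_j {g : G} (hg : P.Ind g (nEl 1 2 1)) : B.IsN g (R.sW j) :=
  Bld.isN_of_L hg.1 wj fun v hv => by rw [hg.2 _ (cR hv), P.n_j v hv]
theorem stab_conj (N A : SL(3, K)) : P.ρ A (P.ρ N (B.c 1)) = P.ρ N (B.c 1) ↔
    (N⁻¹ * A * N) 1 0 = 0 ∧ (N⁻¹ * A * N) 2 0 = 0 ∧ (N⁻¹ * A * N) 2 1 = 0 := by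
  rw [← P.stab, map_mul, map_mul, map_inv, Equiv.Perm.mul_apply, Equiv.Perm.mul_apply, Equiv.Perm.inv_eq_iff_eq]
theorem stab_i (A : SL(3, K)) : P.ρ A (B.c (R.sW i)) = B.c (R.sW i) ↔ A 0 1 = 0 ∧ A 2 1 = 0 ∧ A 2 0 = 0 := by
  rw [← mul_one (R.sW i), ← P.n_i 1 (one_mem _), stab_conj, nEl_inv (by decide)]
  simp [nEl01, Matrix.mul_apply, Fin.sum_univ_three, Matrix.vecMul, dotProduct]
theorem stab_j (A : SL(3, K)) : P.ρ A (B.c (R.sW j)) = B.c (R.sW j) ↔ A 2 0 = 0 ∧ A 1 0 = 0 ∧ A 1 2 = 0 := by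
  rw [← mul_one (R.sW j), ← P.n_j 1 (one_mem _), stab_conj, nEl_inv (by decide)]
  simp [nEl12, Matrix.mul_apply, Fin.sum_univ_three, Matrix.vecMul, dotProduct]
theorem stab_w (h : E3 R i j) (A : SL(3, K)) :
    P.ρ A (B.c (wl R {i, j})) = B.c (wl R {i, j}) ↔ A 1 2 = 0 ∧ A 0 2 = 0 ∧ A 0 1 = 0 := by
  rw [h.wl_eq, mul_assoc, ← P.n_i (R.sW j * R.sW i) (mul_mem wj wi), ← P.n_j _ wi, ← mul_one (R.sW i), ← P.n_i 1 (one_mem _), ← Equiv.Perm.mul_apply _ _ (B.c 1),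
    ← Equiv.Perm.mul_apply _ _ (B.c 1), ← map_mul, ← map_mul, stab_conj, mul_inv_rev, mul_inv_rev, nEl_inv (by decide),
    nEl_inv (by decide)]
  simp [nEl01, nEl12, Matrix.mul_apply, Fin.sum_univ_three, Matrix.vecMul, dotProduct]
theorem Ind.mem_H_of (h : E3 R i j) {g : G} {A : SL(3, K)} (hg : P.Ind g A) (hA : ∀ a b, a ≠ b → A a b = 0) : g ∈ B.H :=
  Bld.mem_H_of_L hg.1 fun v hv => by
    simpa using Bld.hull_res (a := 1) (by rw [hg.2 _ (cR (one_mem _)), P.stab]; simp [hA])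
      (by rw [one_mul, hg.2 _ (cR (wl_mem _)), stab_w h]; simp [hA]) hv
theorem act_i {A : SL(3, K)} (hA : P.ρ A (B.c 1) = B.c 1) : ∃ l m : K, A 1 1 * l = A 0 0 ∧ A 1 1 * m = A 0 1 ∧
    ∀ u, P.ρ A (P.ρ (El 0 1 u) (B.c (R.sW i))) = P.ρ (El 0 1 (l * u + m)) (B.c (R.sW i)) := by
  obtain ⟨h1, h2, h3⟩ := (P.stab A).1 hA
  have d : A 1 1 ≠ 0 := fun e => by simpa [h1, h2, h3, e] using (Matrix.det_fin_three A.1).symm.trans A.det_coe
  refine ⟨A 0 0 / A 1 1, A 0 1 / A 1 1, by field_simp, by field_simp, fun u => ?_⟩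
  rw [← Equiv.Perm.inv_eq_iff_eq, ← map_inv, ← Equiv.Perm.mul_apply, ← Equiv.Perm.mul_apply, ← map_mul, ← map_mul, stab_i, El_inv]
  simp [El01, Matrix.mul_apply, Fin.sum_univ_three, Matrix.vecMul, dotProduct, h1, h2, h3]
  field_simp; ring
theorem act_j {A : SL(3, K)} (hA : P.ρ A (B.c 1) = B.c 1) : ∃ l m : K, A 2 2 * l = A 1 1 ∧ A 2 2 * m = A 1 2 ∧
    ∀ u, P.ρ A (P.ρ (El 1 2 u) (B.c (R.sW j))) = P.ρ (El 1 2 (l * u + m)) (B.c (R.sW j)) := by
  obtain ⟨h1, h2, h3⟩ := (P.stab A).1 hA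
  have d : A 2 2 ≠ 0 := fun e => by simpa [h1, h2, h3, e] using (Matrix.det_fin_three A.1).symm.trans A.det_coe
  refine ⟨A 1 1 / A 2 2, A 1 2 / A 2 2, by field_simp, by field_simp, fun u => ?_⟩
  rw [← Equiv.Perm.inv_eq_iff_eq, ← map_inv, ← Equiv.Perm.mul_apply, ← Equiv.Perm.mul_apply, ← map_mul, ← map_mul, stab_j, El_inv]
  simp [El12, Matrix.mul_apply, Fin.sum_univ_three, Matrix.vecMul, dotProduct, h1, h2, h3]
  field_simp; ring
theorem inj_i {u v : K} (e : P.ρ (El 0 1 u) (B.c (R.sW i)) = P.ρ (El 0 1 v) (B.c (R.sW i))) : u = v := by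
  rw [← Equiv.Perm.inv_eq_iff_eq, ← map_inv, ← Equiv.Perm.mul_apply, ← map_mul, stab_i, El_inv, ← El_add] at e
  simpa [El01, neg_add_eq_zero, eq_comm] using e.1
theorem inj_j {u v : K} (e : P.ρ (El 1 2 u) (B.c (R.sW j)) = P.ρ (El 1 2 v) (B.c (R.sW j))) : u = v := by
  rw [← Equiv.Perm.inv_eq_iff_eq, ← map_inv, ← Equiv.Perm.mul_apply, ← map_mul, stab_j, El_inv, ← El_add] at e
  simpa [El12, neg_add_eq_zero, eq_comm] using e.2.2
variable (P) in
/-- monomial representatives -/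
theorem exists_mon (h : E3 R i j) {v : R.W} (hv : v.1 ∈ R.WJ {i, j}) : ∃ (n : G) (N : SL(3, K)) (π : Equiv.Perm (Fin 3)),
    P.Ind n N ∧ B.IsN n v ∧ ∀ c d, c ≠ d → v.1 (rt3 R i j c d) = rt3 R i j (π c) (π d) ∧
      ∃ e : K, e ≠ 0 ∧ ∀ u, N * El c d u * N⁻¹ = El (π c) (π d) (e * u) := by
  induction v, hv using WD.WJ_ind with
  | h1 => exact ⟨1, 1, 1, Ind.one P, fun v => by simp, fun c d _ => ⟨rfl, 1, one_ne_zero, by simp⟩⟩
  | hs v _ k hk _ ih =>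
    obtain ⟨n, N, π, h1, h2, h3⟩ := ih
    obtain ⟨a, b, hab, e, k⟩ : ∃ a b, a ≠ b ∧ rt3 R i j a b = R.simple k ∧ ∀ g, P.Ind g (nEl a b 1) → B.IsN g (R.sW k) := by
      rcases hk with rfl | rfl
      exacts [⟨0, 1, by decide, rfl, fun _ => Ind.isN_i⟩, ⟨1, 2, by decide, rfl, fun _ => Ind.isN_j⟩]
    obtain ⟨m, hm⟩ := P.exists_ind (nEl a b 1)
    refine ⟨n * m, N * nEl a b 1, π * Equiv.swap a b, h1.mul hm, h2.mul (k m hm), fun c d hcd => ?_⟩
    obtain ⟨e1, e2, e3⟩ := nEl_conj hab hcd (one_ne_zero (α := K))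
    obtain ⟨e4, e5, e6, e7⟩ := h3 _ _ ((Equiv.swap a b).injective.ne hcd)
    refine ⟨?_, e5 * e1, mul_ne_zero e6 e2, fun u => ?_⟩
    · rw [Equiv.Perm.mul_apply, Equiv.Perm.mul_apply, ← e4, ← h.refl_rt3 hab hcd, e, R.refl_simple]; rfl
    · rw [Equiv.Perm.mul_apply, Equiv.Perm.mul_apply, mul_assoc e5, ← e7, ← e3]; group
/-- for `(a,b) = (0,1), (1,2)` and `t = 1` this is `n_i, n_j` and `isN_of_L`; in general `nEl a b t` is a product of these (`E3.braid`)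
and a diagonal matrix, and diagonal matrices fix all `c v` (`stab`, conjugating by `nEl`) -/
theorem Ind.isN (h : E3 R i j) {g : G} {a b : Fin 3} (hab : a ≠ b) {t : K} (ht : t ≠ 0) (hg : P.Ind g (nEl a b t)) :
    B.IsN g (rf R (rt3 R i j a b)) := by
  have k : ∀ {a b : Fin 3} {n g : G} {t : K}, a < b → t ≠ 0 → P.Ind n (nEl a b 1) → B.IsN n (rf R (rt3 R i j a b)) →
      P.Ind g (nEl a b t) → B.IsN g (rf R (rt3 R i j a b)) := fun {a b n g t} hab ht hn hn' hg => by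
    have := (Bld.isN_one_iff.2 ((hg.mul hn.inv).mem_H_of h fun c d hcd => ?_)).mul hn'
    · rwa [inv_mul_cancel_right, one_mul] at this
    rw [nEl_inv hab.ne]
    fin_cases a <;> fin_cases b <;> simp at hab <;> fin_cases c <;> fin_cases d <;> simp [nEl01, nEl02, nEl12, ht] at hcd ⊢
  obtain ⟨n, hn⟩ := P.exists_ind (nEl 0 1 1)
  obtain ⟨m, hm⟩ := P.exists_ind (nEl 1 2 1)
  have k' : ∀ {a b : Fin 3} {g : G} {t : K}, a < b → t ≠ 0 → P.Ind g (nEl a b t) → B.IsN g (rf R (rt3 R i j a b)) :=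
    fun {a b g t} hab ht hg => by
    obtain ⟨rfl, rfl⟩ | ⟨rfl, rfl⟩ | ⟨rfl, rfl⟩ : (a = 0 ∧ b = 1) ∨ (a = 1 ∧ b = 2) ∨ (a = 0 ∧ b = 2) := by
      clear hg; revert a b; decide
    · exact k hab ht hn (rf_simple (R := R) i ▸ hn.isN_i) hg
    · exact k hab ht hm (rf_simple (R := R) j ▸ hm.isN_j) hg
    · refine k hab ht (n := n * m * n⁻¹) ?_ ?_ hg
      · convert (hn.mul hm).mul hn.inv
        exact Subtype.ext (by rw [nEl_inv (by decide)]; simp [nEl01, nEl02, nEl12])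
      · have := (hn.isN_i.mul hm.isN_j).mul hn.isN_i.inv
        rwa [← rf_simple j, ← rf_W] at this
  rcases lt_or_gt_of_ne hab with l | l
  · exact k' l ht hg
  · rw [rt3_neg hab.symm, rf_neg]
    exact k' l (t := -t⁻¹) (by simpa) (by rwa [← show nEl a b t = nEl b a (-t⁻¹) from (stEl K).n_swap hab ht])
theorem Ind.mem_H (h : E3 R i j) {g : G} {s t : Kˣ} (hg : P.Ind g (Dg s t)) : g ∈ B.H :=
  hg.mem_H_of h fun _ _ hab => Matrix.diagonal_apply_ne _ hab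
theorem pR {v : R.W} (hv : v.1 ∈ R.WJ {i, j}) {k : κ} (hk : k ∈ ({i, j} : Set κ)) {y : Ω} (hy : y ∈ B.pan (B.c v) k) :
    y ∈ B.Res {i, j} := B.pan_subset_res (cR hv) hk hy
theorem Ind.conj_El {n g : G} {N : SL(3, K)} (hn : P.Ind n N) {a b c d : Fin 3} {e t : K} (he : e ≠ 0)
    (h : ∀ u, N * El c d u * N⁻¹ = El a b (e * u)) (hg : P.Ind g (El a b t)) : P.Ind (n⁻¹ * g * n) (El c d (e⁻¹ * t)) := by
  convert (hn.inv.mul hg).mul hn
  rw [← mul_inv_cancel_left₀ he t, ← h, mul_inv_cancel_left₀ he]; group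
/-- For `a < b`, `El a b t` fixes `c 1` (`stab`) and is trivial on `pan (c 1) k` if `rt3 a b ≠ α_k` (`pan_i`, `pan_j`, `n_i`, `n_j`, `stab`:
`(El 0 1 u * n)⁻¹ El a b t (El 0 1 u * n)` is upper triangular).  Induct on `v ∈ W_J` with `nEl_conj`, `E3.refl_rt3`. -/
theorem Ind.fix (h : E3 R i j) {g : G} {a b : Fin 3} (hab : a ≠ b) {t : K} (hg : P.Ind g (El a b t)) {v : R.W}
    (hv : v.1 ∈ R.WJ {i, j}) (hp : Ps R v (rt3 R i j a b)) : g • B.c v = B.c v ∧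
      ∀ k ∈ ({i, j} : Set κ), v.1 (R.simple k) ≠ rt3 R i j a b → ∀ y ∈ B.pan (B.c v) k, g • y = y := by
  obtain ⟨n, N, π, h1, h2, h3⟩ := P.exists_mon h hv
  obtain ⟨c, rfl⟩ := π.surjective a
  obtain ⟨d, rfl⟩ := π.surjective b
  have hcd : c ≠ d := fun e => hab (e ▸ rfl)
  obtain ⟨e1, e, he, e2⟩ := h3 c d hcd
  rw [← e1, ps_apply, h.isPos_rt3 hcd] at hp
  have hg' := h1.conj_El he e2 hg
  have f : P.ρ (El c d (e⁻¹ * t)) (B.c 1) = B.c 1 := (P.stab _).2 (by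
    fin_cases c <;> fin_cases d <;> simp at hp <;> simp [El01, El02, El12])
  have k : ∀ y : Ω, (n⁻¹ * g * n) • y = y → g • n • y = n • y := fun y e => by rwa [mul_smul, mul_smul, inv_smul_eq_iff] at e
  have cv : B.c v = n • B.c 1 := by rw [h2, mul_one]
  have f' := k _ ((hg'.2 _ (cR (one_mem _))).trans f)
  refine ⟨cv ▸ f', fun l hl ne y hy => ?_⟩
  obtain ⟨y, rfl⟩ := MulAction.surjective n y
  rw [cv, B.smul_mem_pan] at hy
  refine k y ((hg'.2 _ (pR (one_mem _) hl hy)).trans ?_)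
  rcases hy with rfl | hy
  · exact f
  rw [← e1, v.1.injective.ne_iff] at ne
  rcases hl with rfl | rfl
  · obtain ⟨u, rfl⟩ := P.pan_i y hy
    obtain ⟨l', m, a1, a2, a3⟩ := act_i f
    rw [a3]
    fin_cases c <;> fin_cases d <;> simp at hp <;> first | exact absurd rfl ne | simp_all [El02, El12]
  · obtain ⟨u, rfl⟩ := P.pan_j y hy
    obtain ⟨l', m, a1, a2, a3⟩ := act_j f
    rw [a3]
    fin_cases c <;> fin_cases d <;> simp at hp <;> first | exact absurd rfl ne | simp_all [El02, El01]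
theorem Ind.mem_Fx (h : E3 R i j) {g : G} {a b : Fin 3} (hab : a ≠ b) {t : K} (hg : P.Ind g (El a b t)) :
    g ∈ B.Fx (rt3 R i j a b) :=
  Bld.mem_Fx_of_L hg.1 (h.mem_sub.2 ⟨a, b, hab, rfl⟩) fun _ hv hp => (hg.fix h hab hv hp).1
theorem Ind.tw (h : E3 R i j) {g : G} {a b : Fin 3} (hab : a ≠ b) {t : K} (hg : P.Ind g (El a b t)) {β : ι}
    (hβ : β ∈ R.sub {i, j}) (h1 : β ≠ rt3 R i j a b) (h2 : β ≠ rt3 R i j b a) : B.Tw g β := by
  obtain ⟨v, k, hv, hk, e⟩ := exists_simple_sub hβ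
  by_cases p : Ps R v (rt3 R i j a b)
  · exact ⟨v, k, e, (hg.fix h hab hv p).2 k hk (e ▸ h1)⟩
  obtain ⟨k', hk', o⟩ := exists_opp (R := R) hk
  have e' : (v * wl R {i, j}).1 (R.simple k') = R.neg β := (congrArg v.1 o).trans (e ▸ RootSys.W_neg v.2 _)
  exact R.neg_neg β ▸ Bld.Tw.neg ⟨_, k', e', (hg.fix h hab (mul_mem hv (wl_mem _)) ((ps_mul_wl
    ((RootSys.WJ_mem_sub (inv_mem hv)).2 (h.mem_sub.2 ⟨a, b, hab, rfl⟩))).2 p)).2 k' hk'
    fun c => h2 (rt3_neg (R := R) hab ▸ R.neg_eq_iff.1 (e' ▸ c))⟩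
variable (P)
/-- `El a b K` is regular on the panel of its wall minus one chamber -/
theorem existsUnique_El (h : E3 R i j) {a b : Fin 3} (hab : a ≠ b) {v : R.W} (hv : v.1 ∈ R.WJ {i, j}) {k : κ}
    (hk : k ∈ ({i, j} : Set κ)) (e : v.1 (R.simple k) = rt3 R i j a b) {y : Ω} (hy : B.δ (B.c v) y = R.sW k) :
    ∃! u, y = P.ρ (El a b u) (B.c (v * R.sW k)) := by
  obtain ⟨n, N, π, h1, h2, h3⟩ := P.exists_mon h hv
  obtain ⟨y, rfl⟩ := MulAction.surjective n y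
  rw [← mul_one v, ← h2, B.δ_smul] at hy
  obtain ⟨c, d, hcd, e', u, rfl, hu⟩ : ∃ c d, c ≠ d ∧ rt3 R i j c d = R.simple k ∧ ∃! u, y = P.ρ (El c d u) (B.c (R.sW k)) := by
    rcases hk with rfl | rfl
    · obtain ⟨u, rfl⟩ := P.pan_i y hy
      exact ⟨0, 1, by decide, rfl, u, rfl, fun _ e => (inj_i e).symm⟩
    · obtain ⟨u, rfl⟩ := P.pan_j y hy
      exact ⟨1, 2, by decide, rfl, u, rfl, fun _ e => (inj_j e).symm⟩
  obtain ⟨e1, f, hf, e2⟩ := h3 c d hcd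
  obtain ⟨rfl, rfl⟩ := h.rt3_inj hab (π.injective.ne hcd) (by rw [← e, ← e1, e'])
  have sk : B.c (R.sW k) ∈ B.Res {i, j} := cR (R.sp_mem_WJ hk)
  have k : ∀ u, n • P.ρ (El c d u) (B.c (R.sW k)) = P.ρ (El (π c) (π d) (f * u)) (B.c (v * R.sW k)) := fun u => by
    obtain ⟨g, hg⟩ := P.exists_ind (El c d u)
    rw [← hg.2 _ sk, h1.2 _ ((Bld.L_res hg.1).2 sk), hg.2 _ sk, ← e2, ← h2, h1.2 _ sk]; simp
  refine ⟨f * u, k u, fun t ht => ?_⟩
  rw [← mul_inv_cancel_left₀ hf t] at ht ⊢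
  rw [hu _ (smul_left_cancel n (ht.trans (k _).symm))]
include P in
theorem card_K (h : E3 R i j) : Nat.card K = B.q i ∧ Nat.card K = B.q j := by
  have k : ∀ {a b : Fin 3} {k : κ}, a ≠ b → k ∈ ({i, j} : Set κ) → R.simple k = rt3 R i j a b → Nat.card K = B.q k :=
    fun {a b k} hab hk e => by
    have d : ∀ u, B.δ (B.c 1) (P.ρ (El a b u) (B.c (1 * R.sW k))) = R.sW k := fun u => by
      obtain ⟨g, hg⟩ := P.exists_ind (El a b u)
      rw [← hg.2 _ (cR (mul_mem (one_mem _) (R.sp_mem_WJ hk))),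
        ← (hg.fix h hab (v := 1) (one_mem _) (ps_one.2 (e ▸ R.isPos_simple k))).1, B.δ_smul, B.δ_c_sW]
    exact Nat.card_congr (Equiv.ofBijective (fun u => ⟨_, d u⟩) ⟨fun u u' e' =>
      (P.existsUnique_El h hab (v := 1) (one_mem _) hk e (d u)).unique rfl (congrArg Subtype.val e'), fun y =>
        (P.existsUnique_El h hab (v := 1) (one_mem _) hk e y.2).exists.imp fun _ e => Subtype.ext e.symm⟩)
  exact ⟨k (a := 0) (b := 1) (by decide) (.inl rfl) rfl, k (a := 1) (b := 2) (by decide) (.inr rfl) rfl⟩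
theorem Ind.eq_zero (h : E3 R i j) {g : G} {a b : Fin 3} (hab : a ≠ b) {t : K} (hg : P.Ind g (El a b t))
    (h1 : ∀ y ∈ B.Res {i, j}, g • y = y) : t = 0 := by
  obtain ⟨v, k, hv, hk, e⟩ := exists_simple_sub (h.mem_sub.2 ⟨a, b, hab, rfl⟩)
  have m : B.c (v * R.sW k) ∈ B.Res {i, j} := cR (mul_mem hv (R.sp_mem_WJ hk))
  exact (P.existsUnique_El h hab hv hk e (B.δ_c_sW v k)).unique (by rw [← hg.2 _ m, h1 _ m]) (by simp [El_zero])
/-- `ρ` is faithful on the group of the `El 0 1 u * El 0 2 v` -/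
theorem eq_zero_of_ind (h : E3 R i j) {g : G} {u v : K} (hg : P.Ind g (El 0 1 u * El 0 2 v))
    (h1 : ∀ y ∈ B.Res {i, j}, g • y = y) : u = 0 ∧ v = 0 := by
  have := (stab_w h _).1 ((hg.2 _ (cR (wl_mem _))).symm.trans (h1 _ (cR (wl_mem _))))
  simpa [El01, El02, and_comm] using this
/-- choose `t` with the same image of `c (v s_k)`; `g⁻¹ x` fixes the apartment of `Res J` (`hull_res`) and both panels at a chamber
`c v'` with `v'⁻¹ r` not simple (`exists_nonsimple`); `fix_res` -/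
theorem exists_ind_of_mem_X (h : E3 R i j) {a b : Fin 3} (hab : a ≠ b) {x : G} (hx : x ∈ B.X (rt3 R i j a b)) :
    ∃ t, P.Ind x (El a b t) := by
  have hr := h.mem_sub.2 ⟨a, b, hab, rfl⟩
  obtain ⟨v, k, hv, hk, e⟩ := exists_simple_sub hr
  have vk : (v * R.sW k).1 ∈ R.WJ {i, j} := mul_mem hv (R.sp_mem_WJ hk)
  obtain ⟨t, ht, -⟩ := P.existsUnique_El h hab hv hk e (Bld.δ_X_smul (e ▸ hx) (B.δ_c_sW v k))
  obtain ⟨g, hg⟩ := P.exists_ind (El a b t)
  have p := (ps_mul_wl ((RootSys.WJ_mem_sub (inv_mem vk)).2 hr)).2 (e ▸ not_ps_mul_sW v k)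
  have f : ∀ w : R.W, w.1 ∈ R.WJ {i, j} → (g⁻¹ * x) • B.c w = B.c w := fun w hw => by
    simpa only [mul_inv_cancel_left] using Bld.hull_res (B := B) (J := {i, j}) (a := v * R.sW k) (g := g⁻¹ * x)
      (by rw [mul_smul g⁻¹, inv_smul_eq_iff, ht, hg.2 _ (cR vk)])
      (by
        rw [mul_smul g⁻¹, inv_smul_eq_iff, (B.mem_X.1 hx).1 _ p]
        exact (hg.fix h hab (v := v * R.sW k * wl R {i, j}) (mul_mem vk (wl_mem _)) p).1.symm)
      (v := (v * R.sW k)⁻¹ * w) (mul_mem (inv_mem vk) hw)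
  obtain ⟨w, hw, pw, n⟩ := exists_nonsimple (J := {i, j}) (by
    rintro _ (rfl | rfl)
    exacts [⟨j, .inr rfl, h.ne.symm, by simp [h.1]⟩, ⟨i, .inl rfl, h.ne, by simp [h.2]⟩]) hr
  refine ⟨t, Bld.X_le_L hr hx, fun y hy => ?_⟩
  rw [← hg.2 y hy, ← inv_smul_eq_iff, ← mul_smul]
  exact Bld.fix_res (f w hw) (fun l hl z hz => by
    rw [mul_smul, (B.mem_X.1 hx).2 w l pw (n l) z hz, inv_smul_eq_iff, (hg.fix h hab hw pw).2 l hl (n l) z hz])
    (by rw [B.δ_c, inv_mul_cancel_left]) (f (w * wl R {i, j}) (mul_mem hw (wl_mem _))) y ((B.res_eq (cR hw)).ge hy)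

include P in
/-- **PA.**  Write `y_u = ρ (El 0 1 u) (c s_i)`, `g y_u = y_{θ u}`, `θ 0 = 0`.  A matrix `A` fixing `c 1` and `c s_i` is upper triangular with
`A 0 1 = 0` and maps `y_u` to `y_{λ u}` (`A El 0 1 u = El 0 1 (λ u) A'`, `A'` of the same shape).  `norm` for `A = Dg t 1` gives
`θ (t u) = λ(t) θ u`; so `t ↦ θ t / θ 1` is a multiplicative bijection of the cyclic group `Kˣ`, `θ u = c u ^ k`.  Hence `θ θ' = μ θ' θ`,
the commutator acts as a scalar `μ`, and `μ ^ (q - 1) = 1`. -/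
theorem pa (h : E3 R i j) {g g' : G} (h1 : g • B.c 1 = B.c 1) (h2 : g • B.c (R.sW i) = B.c (R.sW i))
    (h1' : g' • B.c 1 = B.c 1) (h2' : g' • B.c (R.sW i) = B.c (R.sW i)) :
    ∀ y ∈ B.pan (B.c 1) i, ⁅g, g'⁆ ^ (B.q i - 1) • y = y := by
  have yR : ∀ u, P.ρ (El 0 1 u) (B.c (R.sW i)) ∈ B.Res {i, j} := fun u => by
    obtain ⟨n, hn⟩ := P.exists_ind (El 0 1 u)
    rw [← hn.2 _ (cR wi)]; exact (Bld.L_res hn.1).2 (cR wi)
  have yd : ∀ u, B.δ (B.c 1) (P.ρ (El 0 1 u) (B.c (R.sW i))) = R.sW i := fun u => by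
    obtain ⟨n, hn⟩ := P.exists_ind (El 0 1 u)
    rw [← hn.2 _ (cR wi), ← (hn.fix h (by decide) (v := 1) (one_mem _) (ps_one.2 (R.isPos_simple i))).1, B.δ_smul, B.δ_c]; simp
  obtain ⟨ω, hω⟩ := IsCyclic.exists_monoid_generator (α := Kˣ)
  have k : ∀ g : G, g • B.c 1 = B.c 1 → g • B.c (R.sW i) = B.c (R.sW i) → ∃ (c : K) (k : ℕ), c ≠ 0 ∧ k ≠ 0 ∧
      ∀ u, g • P.ρ (El 0 1 u) (B.c (R.sW i)) = P.ρ (El 0 1 (c * u ^ k)) (B.c (R.sW i)) := fun g h1 h2 => by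
    choose θ hθ using fun u => P.pan_i (g • P.ρ (El 0 1 u) (B.c (R.sW i))) (by rw [← h1, B.δ_smul, yd])
    have θ0 : θ 0 = 0 := inj_i (by rw [← hθ]; simpa [El_zero] using h2)
    have θn : ∀ u, u ≠ 0 → θ u ≠ 0 := fun u hu e => hu (inj_i (smul_left_cancel g (by rw [hθ, hθ, e, θ0])))
    obtain ⟨A, hA⟩ := P.norm g h1 (Dg ω 1)
    have f : P.ρ (Dg ω 1) (B.c 1) = B.c 1 := (P.stab _).2 (by simp [coe_Dg])
    obtain ⟨l, m, -, -, e⟩ := act_i (P := P) (A := A) (by rw [← h1, ← hA _ (cR (one_mem _)), f])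
    obtain ⟨l', m', e1, e2, e'⟩ := act_i f
    simp [coe_Dg] at e1 e2
    have r : ∀ u, θ (ω * u) = l * θ u + m := fun u => inj_i (by
      rw [← hθ, ← e, ← hθ, ← hA _ (yR u), e', e1, e2, add_zero])
    have m0 : m = 0 := by simpa [θ0] using (r 0).symm
    have l0 : l ≠ 0 := fun c => θn ω ω.ne_zero (by simpa [c, m0] using r 1)
    obtain ⟨k, hk⟩ := hω (Units.mk0 l l0)
    have hk' : (ω : K) ^ (k + orderOf ω) = l := by
      rw [← Units.val_pow_eq_pow_val, pow_add, pow_orderOf_eq_one, mul_one, show ω ^ k = _ from hk, Units.val_mk0]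
    have p : ∀ n : ℕ, θ (ω ^ n) = θ 1 * l ^ n := fun n => by
      induction n with
      | zero => simp
      | succ n ih => rw [pow_succ', r, ih, m0]; ring
    refine ⟨θ 1, k + orderOf ω, θn 1 one_ne_zero, by have := orderOf_pos ω; omega, fun u => ?_⟩
    rw [hθ]
    by_cases hu : u = 0
    · rw [hu, θ0, zero_pow (by have := orderOf_pos ω; omega), mul_zero]
    obtain ⟨n, hn⟩ := hω (Units.mk0 u hu)
    rw [show u = ω ^ n by simpa using congrArg Units.val hn.symm, p, ← hk', ← pow_mul, ← pow_mul, mul_comm n]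
  obtain ⟨c, n, c0, n0, e⟩ := k g h1 h2
  obtain ⟨c', n', c0', n0', e'⟩ := k g' h1' h2'
  have f : ⁅g, g'⁆ • B.c 1 = B.c 1 := by
    rw [commutatorElement_def, mul_smul, mul_smul, mul_smul, inv_smul_eq_iff.2 h1'.symm, inv_smul_eq_iff.2 h1.symm, h1', h1]
  have r : ∀ u, ⁅g, g'⁆ • P.ρ (El 0 1 u) (B.c (R.sW i)) = P.ρ (El 0 1 (c * c' ^ n / (c' * c ^ n') * u)) (B.c (R.sW i)) :=
    fun u => by
    obtain ⟨w, hw⟩ := P.pan_i ((g' * g)⁻¹ • P.ρ (El 0 1 u) (B.c (R.sW i))) (by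
      rw [← B.δ_smul (g' * g), smul_inv_smul, mul_smul, h1, h1', yd])
    have : ⁅g, g'⁆ = g * g' * (g' * g)⁻¹ := by rw [commutatorElement_def]; group
    rw [this, mul_smul, hw, mul_smul, e', e]
    rw [inv_smul_eq_iff, mul_smul, e, e'] at hw
    rw [inj_i hw]; congr 3; field_simp; ring
  have p : ∀ (m : ℕ) u, ⁅g, g'⁆ ^ m • P.ρ (El 0 1 u) (B.c (R.sW i)) =
      P.ρ (El 0 1 ((c * c' ^ n / (c' * c ^ n')) ^ m * u)) (B.c (R.sW i)) := fun m => by
    induction m with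
    | zero => simp
    | succ m ih => intro u; rw [pow_succ', mul_smul, ih, r, pow_succ', mul_assoc]
  rintro y (rfl | hy)
  · exact MulAction.mem_stabilizer_iff.1 (pow_mem (MulAction.mem_stabilizer_iff.2 f) _)
  obtain ⟨u, rfl⟩ := P.pan_i y hy
  have := Fintype.ofFinite K
  rw [p, ← (P.card_K h).1, Nat.card_eq_fintype_card, FiniteField.pow_card_sub_one_eq_one _ (by simp [c0, c0']), one_mul]

include P in
/-- **PE.**  `x` induces `El 0 1 t`; `g x g⁻¹` acts on `Res J` as an upper triangular `A'` (`norm`, `stab`), which acts on the `y_u` as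
`u ↦ λ u + μ`; its `p`-th power is trivial there (`p = char K`), so `λ = 1`; `Mouf i` and `exists_ind_of_mem_X` give `x'`. -/
theorem pe (h : E3 R i j) (hM : B.Mouf i) {g x : G} (hg : g • B.c 1 = B.c 1) (hx : x ∈ B.X (R.simple i)) :
    ∃ x' ∈ B.X (R.simple i), ∀ y ∈ B.pan (B.c 1) i, (g * x * g⁻¹) • y = x' • y := by
  have hi : i ∈ ({i, j} : Set κ) := .inl rfl
  have c1 : B.c 1 ∈ B.Res {i, j} := cR (one_mem _)
  have p1 := ps_one.2 (R.isPos_simple i)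
  obtain ⟨t, ht⟩ := P.exists_ind_of_mem_X h (a := 0) (b := 1) (by decide) hx
  obtain ⟨A, hA⟩ := P.norm g hg (El 0 1 t)
  have st : ∀ y ∈ B.Res {i, j}, g⁻¹ • y ∈ B.Res {i, j} := fun y hy => by
    rwa [← B.smul_mem_Res_of (g := g) c1 (hg.symm ▸ c1), smul_inv_smul]
  have k : ∀ y ∈ B.Res {i, j}, (g * x * g⁻¹) • y = P.ρ A y := fun y hy => by
    rw [mul_smul, mul_smul, ht.2 _ (st y hy), hA _ (st y hy), smul_inv_smul]
  have f : (g * x * g⁻¹) • B.c 1 = B.c 1 := by rw [← hg, Bld.conj_fix, (B.mem_X.1 hx).1 1 p1]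
  obtain ⟨l, m, -, -, e⟩ := act_i (P := P) (A := A) (by rw [← k _ c1, f])
  have yR : ∀ u, P.ρ (El 0 1 u) (B.c (R.sW i)) ∈ B.Res {i, j} := fun u => by
    obtain ⟨n, hn⟩ := P.exists_ind (El 0 1 u)
    rw [← hn.2 _ (cR wi)]; exact (Bld.L_res hn.1).2 (cR wi)
  have p : ∀ n : ℕ, ∃ ν, ∀ u, (g * x * g⁻¹) ^ n • P.ρ (El 0 1 u) (B.c (R.sW i)) = P.ρ (El 0 1 (l ^ n * u + ν)) (B.c (R.sW i)) :=
    fun n => by
    induction n with
    | zero => exact ⟨0, by simp⟩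
    | succ n ih =>
      obtain ⟨ν, ih⟩ := ih
      exact ⟨l * ν + m, fun u => by rw [pow_succ', mul_smul, ih, k _ (yR _), e]; congr 3; ring⟩
  have := Fintype.ofFinite K
  obtain ⟨ν, hν⟩ := p (Fintype.card K)
  have q : ∀ u, u = l * u + ν := fun u => inj_i (P := P) (by
    rw [← FiniteField.pow_card l, ← hν, conj_pow, mul_smul, mul_smul, (ht.pow _).2 _ (st _ (yR u)), El_pow,
      FiniteField.cast_card_eq_zero, zero_mul, El_zero, map_one, Equiv.Perm.one_apply, smul_inv_smul])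
  have l1 : l = 1 := by linear_combination q 0 - q 1
  obtain ⟨x', hx', e'⟩ := hM ((g * x * g⁻¹) • B.c (R.sW i)) (by rw [← f, B.δ_smul, B.δ_c]; simp)
  obtain ⟨t', ht'⟩ := P.exists_ind_of_mem_X h (a := 0) (b := 1) (by decide) hx'
  have e0 := e 0
  rw [El_zero, map_one, Equiv.Perm.one_apply, ← k _ (cR wi), ← e', ht'.2 _ (cR wi)] at e0
  refine ⟨x', hx', ?_⟩
  rintro y (rfl | hy)
  · rw [f, (B.mem_X.1 hx').1 1 p1]
  obtain ⟨u, rfl⟩ := P.pan_i y hy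
  rw [k _ (yR u), e, ht'.2 _ (yR u), ← Equiv.Perm.mul_apply, ← map_mul, ← El_add, inj_i e0, l1]; congr 3; ring

include P in
/-- `x a b t` := the element of `X (rt3 a b)` inducing `El a b t` (`Mouf.trans`, `exists_ind_of_mem_X`, `existsUnique_El`; unique by `X_eq`).
Relations: `comm_mem_one`, `commute_of_qc`, `E3.qc`, then compare the induced matrices.  `n_sym`: both sides `n₁, n₂` induce `nEl a b t`;
`n₁ x_{ab}(t) n₁⁻¹ ∈ X (rt3 b a)` induces `El b a (-t⁻¹)`, so `n₁ x_{ab}(t) = x_{ba}(-t⁻¹) n₁`, which is the relation after cancelling. -/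
theorem exists_par (h : E3 R i j) (hM : ∀ k, B.Mouf k) : ∃ S : St3 K G, Par B i j S := by
  have ex : ∀ a b t, ∃ x : G, a ≠ b → x ∈ B.X (rt3 R i j a b) ∧ P.Ind x (El a b t) := fun a b t => by
    by_cases hab : a = b
    · exact ⟨1, fun c => absurd hab c⟩
    obtain ⟨v, k, hv, hk, e⟩ := exists_simple_sub (h.mem_sub.2 ⟨a, b, hab, rfl⟩)
    have m : B.c (v * R.sW k) ∈ B.Res {i, j} := cR (mul_mem hv (R.sp_mem_WJ hk))
    obtain ⟨g, hg⟩ := P.exists_ind (El a b t)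
    have d : B.δ (B.c v) (g • B.c (v * R.sW k)) = R.sW k := by
      rw [← (hg.fix h hab hv (e ▸ (ps_apply v _).2 (R.isPos_simple k))).1, B.δ_smul, B.δ_c_sW]
    obtain ⟨x, hx, ex⟩ := (hM k).trans v (B.δ_c_sW v k) d
    obtain ⟨t', ht⟩ := P.exists_ind_of_mem_X h hab (e ▸ hx)
    exact ⟨x, fun _ => ⟨e ▸ hx, (P.existsUnique_El h hab hv hk e d).unique (ex ▸ ht.2 _ m) (hg.2 _ m) ▸ ht⟩⟩
  choose x hx using ex
  have uq : ∀ {a b : Fin 3} {t} {g : G}, (hab : a ≠ b) → g ∈ B.X (rt3 R i j a b) → P.Ind g (El a b t) → g = x a b t :=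
    fun {a b t g} hab h1 h2 => by
    obtain ⟨v, k, hv, hk, e⟩ := exists_simple_sub (h.mem_sub.2 ⟨a, b, hab, rfl⟩)
    have m : B.c (v * R.sW k) ∈ B.Res {i, j} := cR (mul_mem hv (R.sp_mem_WJ hk))
    exact Bld.X_eq (e ▸ h1) (e ▸ (hx a b t hab).1) (B.δ_c_sW v k) (by rw [h2.2 _ m, (hx a b t hab).2.2 _ m])
  have add : ∀ a b, a ≠ b → ∀ t u, x a b (t + u) = x a b t * x a b u := fun a b hab t u =>
    (uq hab (mul_mem (hx a b t hab).1 (hx a b u hab).1) (El_add t u ▸ (hx a b t hab).2.mul (hx a b u hab).2)).symm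
  have ne : ∀ {a b c d : Fin 3}, a ≠ b → c ≠ d → ¬ (c = a ∧ d = b) → rt3 R i j c d ≠ rt3 R i j a b := fun h1 h2 h3 e =>
    h3 (h.rt3_inj h2 h1 e)
  have cm : ∀ a b c d, a ≠ b → c ≠ d → b ≠ c → d ≠ a → ∀ t u, Commute (x a b t) (x c d u) := fun a b c d h1 h2 h3 h4 t u => by
    by_cases e : c = a ∧ d = b
    · obtain ⟨rfl, rfl⟩ := e
      exact (add _ _ h1 _ _).symm.trans (add_comm t u ▸ add _ _ h1 _ _)
    · have n := ne h1.symm h2 fun e => h3 e.1.symm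
      exact Bld.commute_of_qc hM (ne h1 h2 e) (rt3_neg (R := R) h1 ▸ n)
        (fun k hk => (h.qc h1 h2 (ne h1 h2 e) n hk).elim (fun e => h3 e.1) fun e => h4 e.1) (hx _ _ t h1).1 (hx _ _ u h2).1
  have iN : ∀ a b, a ≠ b → ∀ t, P.Ind (x a b t * x b a (-t⁻¹) * x a b t) (nEl a b t) := fun a b hab t =>
    ((hx a b t hab).2.mul (hx b a _ hab.symm).2).mul (hx a b t hab).2
  refine ⟨⟨x, add, fun a b c h1 h2 h3 t u => ?_, fun a b c h1 h2 => cm a b a c h1 h2 h1.symm h2.symm,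
    fun a b c h1 h2 => cm a c b c h1 h2 h2.symm h1.symm, fun a b hab t ht => ?_⟩, fun a b hab g => ⟨fun hg => ?_, ?_⟩,
    fun a b hab t e => ?_, fun a b hab t ht => (iN a b hab t).isN h hab ht⟩
  · have n1 := ne h1 h3 fun e => h1 e.1.symm
    have n2 := ne h1.symm h3 fun e => h2 e.2.symm
    rw [← uq h2 (Bld.comm_mem_one hM n1 (rt3_neg (R := R) h1 ▸ n2)
      (fun k hk => (h.qc h1 h3 n1 n2 hk).elim And.right fun e => absurd e.1.symm h2) (hx a b t h1).1 (hx b c u h3).1) (t := t * u) ?_,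
      commutatorElement_def]
    · group
    · have := (((hx a b t h1).2.mul (hx b c u h3).2).mul (hx a b t h1).2.inv).mul (hx b c u h3).2.inv
      rwa [El_comm h1 h2 h3, mul_inv_cancel_right, mul_inv_cancel_right] at this
  · have := uq hab.symm (t := -t⁻¹) (by
      have := ((iN a b hab t).isN h hab ht).conj_X.2 (hx a b t hab).1
      rwa [show (rf R _).1 _ = _ from R.refl_self _, ← rt3_neg hab] at this) (by
      convert ((iN a b hab t).mul (hx a b t hab).2).mul (iN a b hab t).inv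
      rw [show nEl a b t * El a b t * (nEl a b t)⁻¹ = El b a _ from (stEl K).n_conj_ab hab ht t, inv_mul_cancel_right₀ ht])
    rw [mul_inv_eq_iff_eq_mul, ← mul_assoc, mul_left_inj, ← mul_assoc] at this
    exact this
  · exact (P.exists_ind_of_mem_X h hab hg).imp fun t => uq hab hg
  · rintro ⟨t, rfl⟩; exact (hx a b t hab).1
  · exact Ind.eq_zero P h hab (hx a b t hab).2 fun y _ => by rw [show x a b t = 1 from e, one_smul]

end A2

end CL.TB
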