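/-
S1143 (Tits), GCT1: gluing root subgroups given on the subsystems of rank two.
-/
import Cfsg.Agent.CHEV.TB.WD
import Cfsg.Agent.CHEV.CT

set_option autoImplicit false
set_option linter.unusedSectionVars false
set_option maxHeartbeats 200000

namespace CL.TB

open CL.Chev CL.Cox Subgroup

/-- ambient root groups `X`, elements `N` inducing Weyl group elements, and compatible subgroups `C i j` -/
structure GD {ι κ : Type*} [Fintype κ] [DecidableEq κ] (R : RootSys ι κ) (Γ : Type*) [Group Γ] where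
  X : ι → Subgroup Γ
  N : Γ → R.W → Prop
  C : κ → κ → Subgroup Γ
  n : κ → Γ
  N_one : N 1 1
  N_mul : ∀ {a b u v}, N a u → N b v → N (a * b) (u * v)
  N_inv : ∀ {a u}, N a u → N a⁻¹ u⁻¹
  N_X : ∀ {a u r g}, N a u → g ∈ X r → a * g * a⁻¹ ∈ X (u.1 r)
  n_N : ∀ i, N (n i) (R.sW i)
  C_eq : ∀ i j, ∀ k ∈ ({i, j} : Set κ), ∀ r ∈ R.sub {k}, C i j ⊓ X r = C k k ⊓ X r
  n_mem : ∀ k, n k ∈ ⨆ (r) (_ : r ∈ R.sub {k}), C k k ⊓ X r

namespace GD

variable {ι κ Γ : Type*} [Fintype κ] [DecidableEq κ] [Finite ι] {R : RootSys ι κ} [Group Γ] [Finite Γ] (S : GD R Γ)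
  {i j k : κ} {r : ι} {a g h : Γ} {u w : R.W}

/-- the rank one groups -/
def D (k : κ) : Subgroup Γ := ⨆ (r) (_ : r ∈ R.sub {k}), S.C k k ⊓ S.X r

theorem le_D (hr : r ∈ R.sub {k}) : S.C k k ⊓ S.X r ≤ S.D k :=
  le_iSup₂_of_le (f := fun r (_ : r ∈ R.sub {k}) => S.C k k ⊓ S.X r) r hr le_rfl

theorem D_le (hk : k ∈ ({i, j} : Set κ)) : S.D k ≤ S.C i j := iSup₂_le fun r hr => (S.C_eq i j k hk r hr).ge.trans inf_le_left

theorem cj (ha : a ∈ S.C i j) (hN : S.N a u) (hg : g ∈ S.C i j ⊓ S.X r) : a * g * a⁻¹ ∈ S.C i j ⊓ S.X (u.1 r) :=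
  mem_inf.2 ⟨mul_mem (mul_mem ha hg.1) (inv_mem ha), S.N_X hN hg.2⟩

/-- the torus -/
def H : Subgroup Γ where
  carrier := {h | S.N h 1 ∧ ∀ k, ∀ r ∈ R.sub {k}, h ∈ normalizer ((S.C k k ⊓ S.X r : Subgroup Γ) : Set Γ)}
  one_mem' := ⟨S.N_one, fun _ _ _ => one_mem _⟩
  mul_mem' a b := ⟨one_mul (1 : R.W) ▸ S.N_mul a.1 b.1, fun k r h => mul_mem (a.2 k r h) (b.2 k r h)⟩
  inv_mem' a := ⟨inv_one (G := R.W) ▸ S.N_inv a.1, fun k r h => inv_mem (a.2 k r h)⟩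

theorem mem_H (ha : a ∈ S.D j) (hN : S.N a 1) : a ∈ S.H := ⟨hN, fun k r hr => mem_normalizer_fintype fun g hg => by
  rw [← S.C_eq j k k (.inr rfl) r hr] at hg ⊢
  exact S.cj (S.D_le (.inl rfl) ha) hN hg⟩

theorem cj_D {K : Subgroup Γ} (hK : ∀ r ∈ R.sub {k}, ∀ g ∈ S.C k k ⊓ S.X r, a * g * a⁻¹ ∈ K) (hg : g ∈ S.D k) :
    a * g * a⁻¹ ∈ K := (iSup₂_le hK : S.D k ≤ K.comap (MulAut.conj a).toMonoidHom) hg

theorem n_norm (i : κ) : S.n i ∈ normalizer (S.H : Set Γ) := mem_normalizer_fintype fun h hh => by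
  have m : ∀ k, S.n i ∈ S.C i k := fun k => S.D_le (.inl rfl) (S.n_mem i)
  refine ⟨by simpa using S.N_mul (S.N_mul (S.n_N i) hh.1) (S.N_inv (S.n_N i)), fun k r hr => mem_normalizer_fintype fun g hg => ?_⟩
  have k1 : ∀ m, S.D m ≤ (S.D m).comap (MulAut.conj h).toMonoidHom := fun m g =>
    S.cj_D fun r hr g hg => S.le_D hr ((mem_normalizer_iff.1 (hh.2 m r hr) g).1 hg)
  have k2 : S.D i ⊔ S.D k ≤ (S.C i k).comap (MulAut.conj h).toMonoidHom :=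
    sup_le ((k1 i).trans (comap_mono (S.D_le (.inl rfl)))) ((k1 k).trans (comap_mono (S.D_le (.inr rfl))))
  have k3 : (S.n i)⁻¹ * g * (S.n i)⁻¹⁻¹ ∈ S.D i ⊔ S.D k :=
    mul_mem (mul_mem (inv_mem (mem_sup_left (S.n_mem i))) (mem_sup_right (S.le_D hr hg))) (inv_mem (inv_mem (mem_sup_left (S.n_mem i))))
  have := S.cj (m k) (S.n_N i) ⟨k2 k3, S.N_X hh.1 (S.N_X (S.N_inv (S.n_N i)) hg.2)⟩
  rw [← S.C_eq i k k (.inr rfl) r hr]
  simpa [mul_assoc] using this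

theorem N_wp (l : List κ) : S.N (wp S.n l) (wp R.sW l) := by
  induction l with
  | nil => exact S.N_one
  | cons i l ih => exact S.N_mul (S.n_N i) ih

theorem wp_C {l : List κ} (hl : ∀ k ∈ l, k ∈ ({i, j} : Set κ)) : wp S.n l ∈ S.C i j :=
  wp_mem fun k hk => S.D_le (hl k hk) (S.n_mem k)

theorem sub_W (e : w.1 (R.simple i) = R.simple j) (hr : r ∈ R.sub {i}) : w.1 r ∈ R.sub {j} := by
  rcases R.eq_simple_or_neg (i := i) hr with rfl | rfl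
  · exact e ▸ R.simple_mem_sub.2 rfl
  · rw [RootSys.W_neg w.2, R.neg_mem_sub]; exact e ▸ R.simple_mem_sub.2 rfl

theorem cj_two {m : κ} (ha : a ∈ S.C i j) (hN : S.N a w) (hk : k ∈ ({i, j} : Set κ)) (hm : m ∈ ({i, j} : Set κ))
    (e : w.1 (R.simple k) = R.simple m) (hr : r ∈ R.sub {k}) (hg : g ∈ S.C k k ⊓ S.X r) :
    a * g * a⁻¹ ∈ S.C m m ⊓ S.X (w.1 r) := by
  rw [← S.C_eq i j k hk r hr] at hg
  exact S.C_eq i j m hm _ (sub_W e hr) ▸ S.cj ha hN hg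

/-- the images of the `n i` modulo the torus -/
def f (i : κ) : normalizer (S.H : Set Γ) ⧸ S.H.subgroupOf (normalizer (S.H : Set Γ)) := QuotientGroup.mk ⟨S.n i, S.n_norm i⟩

theorem wp_f (l : List κ) : wp S.f l = QuotientGroup.mk ⟨wp S.n l, wp_mem fun i _ => S.n_norm i⟩ := by
  induction l with
  | nil => rfl
  | cons i l ih => rw [wp_cons, ih]; rfl

theorem f_sq (i : κ) : S.f i * S.f i = 1 := (QuotientGroup.eq_one_iff _).2
  (S.mem_H (mul_mem (S.n_mem i) (S.n_mem i)) (sW_mul_self (R := R) i ▸ S.N_mul (S.n_N i) (S.n_N i)))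

theorem two {l : List κ} (hl : ∀ k ∈ l, k ∈ ({i, j} : Set κ)) (e : (l.map R.sp).prod = 1) : wp S.f l = 1 := by
  obtain ⟨l, rfl⟩ := CTData.exists_list_sub hl
  rw [wp_map]
  refine RootSys.ExchHyp.eq_one_of_eq_one (R := R.restrict {i, j}) ⟨fun k => S.f_sq k, fun l a b e => ?_⟩ l
    (Equiv.ext fun r => Subtype.ext (by rw [RootSys.restrict_word, e]; rfl))
  have e' : (wp R.sW (l.map Subtype.val)).1 (R.simple a) = R.simple b := by
    rw [R.wp_sW_val]; exact (R.restrict_word _ l _).symm.trans (congrArg Subtype.val e)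
  have m := S.wp_C (i := i) (j := j) (l := l.map Subtype.val) fun k hk => by
    obtain ⟨k, -, rfl⟩ := List.mem_map.1 hk
    exact k.2
  have n := S.N_wp (l.map Subtype.val)
  have := S.mem_H (mul_mem (S.cj_D (fun r hr g hg => S.le_D (sub_W e' hr) (S.cj_two m n a.2 b.2 e' hr hg)) (S.n_mem a))
    (inv_mem (S.n_mem b))) (by
      have := S.N_mul (S.N_mul (S.N_mul n (S.n_N a)) (S.N_inv n)) (S.N_inv (S.n_N b))
      rwa [WD.mul_sW_eq e', mul_inv_cancel_right, mul_inv_cancel] at this)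
  rw [← mul_inv_eq_iff_eq_mul, ← mul_inv_eq_one]
  change wp (fun k => S.f k.1) l * _ * (wp (fun k => S.f k.1) l)⁻¹ * _ = 1
  rw [← wp_map, wp_f]
  exact (QuotientGroup.eq_one_iff _).2 this

theorem exists_θ : ∃ θ : R.W →* _, ∀ i, θ (R.sW i) = S.f i := R.exch_sW.exists_hom S.f S.f_sq fun i j => by
  rw [← CTData.wp_replicate]
  refine S.two (i := i) (j := j) (fun k hk => ?_) ((CTData.wp_replicate R.sp i j _).trans ?_)
  · simp only [List.mem_flatten, List.mem_replicate] at hk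
    obtain ⟨_, ⟨-, rfl⟩, hk⟩ := hk
    simpa using hk
  · rw [R.orderOf_sW_mul_sW, pow_orderOf_eq_one]

/-- the monomial subgroup and its map onto `W` -/
theorem exists_T : ∃ T : Γ → R.W → Prop, (∀ a b u v, T a u → T b v → T (a * b) (u * v)) ∧ (∀ a u, T a u → T a⁻¹ u⁻¹) ∧
    (∀ a, T a 1 → a ∈ S.H) ∧ (∀ a u, T a u → S.N a u) ∧ ∀ l, T (wp S.n l) (wp R.sW l) := by
  obtain ⟨θ, hθ⟩ := S.exists_θ
  have hw : ∀ l, θ (wp R.sW l) = _ := fun l => (map_wp θ _ l).trans ((congrArg (wp · l) (funext hθ)).trans (S.wp_f l))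
  refine ⟨fun a u => ∃ h : a ∈ normalizer (S.H : Set Γ), θ u = QuotientGroup.mk ⟨a, h⟩, ?_, ?_, ?_, ?_, fun l => ⟨_, hw l⟩⟩
  · rintro a b u v ⟨h, e⟩ ⟨h', e'⟩
    exact ⟨mul_mem h h', by rw [map_mul, e, e']; rfl⟩
  · rintro a u ⟨h, e⟩
    exact ⟨inv_mem h, by rw [map_inv, e]; rfl⟩
  · rintro a ⟨h, e⟩
    exact mem_subgroupOf.1 ((QuotientGroup.eq_one_iff _).1 (e.symm.trans θ.map_one))
  · rintro a u ⟨h, e⟩
    obtain ⟨l, rfl⟩ := R.gen_sW.surj u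
    simpa using S.N_mul (S.N_wp l) (mem_subgroupOf.1 (QuotientGroup.eq.1 ((hw l).symm.trans e))).1

/-- the global root subgroups -/
theorem exists_Z : ∃ Z : ι → Subgroup Γ, (∀ i j, ∀ r ∈ R.sub {i, j}, Z r = S.C i j ⊓ S.X r) ∧
    ∀ w, ∃ m, S.N m w ∧ ∀ r g, m * g * m⁻¹ ∈ Z (w.1 r) ↔ g ∈ Z r := by
  obtain ⟨T, mul, inv, ker, hN, hw⟩ := S.exists_T
  have ex : ∀ i j (v : R.W), v.1 ∈ R.WJ {i, j} → ∃ m ∈ S.C i j, T m v := fun i j v hv => by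
    obtain ⟨l, hl, e⟩ := R.mem_WJ_iff.1 hv
    exact ⟨_, S.wp_C hl, Subtype.ext (e.trans (R.wp_sW_val l).symm) ▸ hw l⟩
  have ex' : ∀ v, ∃ m, T m v := fun v => let ⟨l, e⟩ := R.gen_sW.surj v; ⟨_, e ▸ hw l⟩
  have key : ∀ n (w : R.W), R.ell w = n → ∀ m i j, T m w → w.1 (R.simple i) = R.simple j →
      ∀ g ∈ S.C i i ⊓ S.X (R.simple i), m * g * m⁻¹ ∈ S.C j j ⊓ S.X (R.simple j) := fun n => by
    induction n using Nat.strong_induction_on with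
    | _ n ih =>
    intro w hn m i j t e g hg
    by_cases h1 : w = 1
    · subst h1
      obtain rfl : i = j := R.simple_injective e
      exact (mem_normalizer_iff.1 ((ker m t).2 i _ (R.simple_mem_sub.2 rfl)) g).1 hg
    obtain ⟨k, p, v, hv, w', hw', e1, e2, e3, hlt⟩ := RootSys.exists_factor w.2 (fun e => h1 (Subtype.ext e)) e
    obtain ⟨a, ha, ta⟩ := ex i k ⟨v, R.WJ_le_W _ hv⟩ hv
    have := ih _ (hn ▸ hlt) ⟨w', hw'⟩ rfl (m * a⁻¹) p j 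
      ((Subtype.ext (mul_inv_eq_iff_eq_mul.2 e1) : w * ⟨v, R.WJ_le_W _ hv⟩⁻¹ = (⟨w', hw'⟩ : R.W)) ▸ mul _ _ _ _ t (inv _ _ ta))
      e3 _ (e2 ▸ S.cj_two ha (hN _ _ ta) (.inl rfl) (R.simple_mem_sub.1 (e2 ▸ (RootSys.WJ_mem_sub hv).2 (R.simple_mem_sub.2 (.inl rfl))))
        e2 (R.simple_mem_sub.2 rfl) hg)
    simpa [mul_assoc] using this
  let Z : ι → Subgroup Γ := fun r => ⨅ (m) (w) (i) (_ : T m w ∧ w.1 (R.simple i) = r),
    (S.C i i ⊓ S.X (R.simple i)).comap (MulAut.conj m⁻¹).toMonoidHom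
  have mem : ∀ m w i g, T m w → (g ∈ Z (w.1 (R.simple i)) ↔ m⁻¹ * g * m ∈ S.C i i ⊓ S.X (R.simple i)) := fun m w i g t => by
    simp only [Z, mem_iInf, mem_comap, MulEquiv.coe_toMonoidHom, MulAut.conj_apply, inv_inv]
    refine ⟨fun h => h m w i ⟨t, rfl⟩, fun h m' w' j t' => ?_⟩
    have := key _ _ rfl _ i j (mul _ _ _ _ (inv _ _ t'.1) t) ((congrArg (w'⁻¹).1 t'.2.symm).trans (RootSys.perm_inv_apply ..)) _ h
    simpa [mul_assoc] using this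
  refine ⟨Z, fun i j r hr => ?_, fun w => ?_⟩
  · obtain ⟨v, k, hv, hk, rfl⟩ := exists_simple_sub hr
    obtain ⟨a, ha, ta⟩ := ex i j v hv
    ext g
    rw [mem a v k g ta, ← S.C_eq i j k hk _ (R.simple_mem_sub.2 rfl)]
    exact ⟨fun h => by simpa [mul_assoc] using S.cj ha (hN _ _ ta) h, fun h => by
      simpa using S.cj (inv_mem ha) (hN _ _ (inv _ _ ta)) h⟩
  · obtain ⟨m, t⟩ := ex' w
    refine ⟨m, hN _ _ t, fun r g => ?_⟩
    obtain ⟨v, k, rfl⟩ := exists_simple (R := R) r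
    obtain ⟨a, ta⟩ := ex' v
    rw [mem a v k g ta]
    refine (mem _ _ k _ (mul _ _ _ _ t ta)).trans ?_
    simp [mul_assoc]

end GD

end CL.TB
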