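/-
S1143 (Tits), Psi: from compatible graphs of root groups to an isomorphism of residues.
-/
import Cfsg.Agent.CHEV.TB.Comm

set_option autoImplicit false
set_option linter.unusedSectionVars false
set_option maxHeartbeats 200000

namespace CL.TB

open CL.Chev
open scoped MatrixGroups commutatorElement

namespace Bld

variable {ι κ G Ω G' Ω' : Type*} [Fintype κ] [DecidableEq κ] [Finite ι] {R : RootSys ι κ}
  [Group G] [MulAction G Ω] [Finite G] [Finite Ω] [FaithfulSMul G Ω] {B : Bld R G Ω}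
  [Group G'] [MulAction G' Ω'] [Finite G'] [Finite Ω'] [FaithfulSMul G' Ω'] {B' : Bld R G' Ω'}

theorem ps_simple (w : R.W) (i : κ) : Ps R w (w.1 (R.simple i)) := (ps_apply w _).2 (R.isPos_simple i)

theorem le_sup2 {Γ : Type*} [Group Γ] {p : ι → Prop} (Y : ι → Subgroup Γ) {r : ι} (h : p r) : Y r ≤ ⨆ (r) (_ : p r), Y r :=
  le_iSup₂_of_le (f := fun r (_ : p r) => Y r) r h le_rfl

/-- Generic collection lemma. -/
theorem exists_mul_of_mem {Γ : Type*} [Group Γ] {T₀ : Set ι} {Y : ι → Subgroup Γ}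
    (hT : ∀ r ∈ T₀, ∀ s ∈ T₀, ∀ k, QC R r s k → k ∈ T₀)
    (hc : ∀ r ∈ T₀, ∀ s ∈ T₀, s ≠ r → s ≠ R.neg r → ∀ y ∈ Y r, ∀ z ∈ Y s, ⁅y, z⁆ ∈ ⨆ (k) (_ : QC R r s k), Y k)
    {v : R.W} {i : κ} {d : Γ} (hd : d ∈ ⨆ (r) (_ : r ∈ T₀ ∧ Ps R v r), Y r) :
    ∃ y, (y = 1 ∨ (v.1 (R.simple i) ∈ T₀ ∧ y ∈ Y (v.1 (R.simple i)))) ∧
      ∃ d' ∈ ⨆ (r) (_ : r ∈ T₀ ∧ Ps R v r ∧ Ps R (v * R.sW i) r), Y r, d = y * d' := by
  set U := ⨆ (r) (_ : r ∈ T₀ ∧ Ps R v r ∧ Ps R (v * R.sW i) r), Y r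
  have hU : ∀ r ∈ T₀, Ps R v r → r ≠ v.1 (R.simple i) → Y r ≤ U := fun r a b c => le_sup2 Y ⟨a, b, ps_mul_sW b c.symm⟩
  by_cases h0 : v.1 (R.simple i) ∈ T₀
  swap
  · exact ⟨1, .inl rfl, d, (iSup₂_le fun r hr => hU r hr.1 hr.2 fun e => h0 (e ▸ hr.1) : _ ≤ U) hd, (one_mul d).symm⟩
  have k : ∀ y ∈ Y (v.1 (R.simple i)), ∀ u ∈ U, y * u * y⁻¹ ∈ U := fun y hy u hu =>
    (iSup₂_le fun r hr a ha => by
      have n1 : r ≠ v.1 (R.simple i) := fun e => not_ps_mul_sW v i (e ▸ hr.2.2)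
      have n2 : r ≠ R.neg (v.1 (R.simple i)) := fun e => ps_neg.1 (e ▸ hr.2.1) (ps_simple v i)
      have := mul_mem ((iSup₂_le fun k hk => hU k (hT _ h0 _ hr.1 k hk) (hk.ps (ps_simple v i) hr.2.1) (hk.ne_left n1 n2) : _ ≤ U)
        (hc _ h0 r hr.1 n1 n2 y hy a ha)) (hU r hr.1 hr.2.1 n1 ha)
      simpa [commutatorElement_def] using this : U ≤ U.comap (MulAut.conj y).toMonoidHom) hu
  have hn : Y (v.1 (R.simple i)) ≤ Subgroup.normalizer (U : Set Γ) := fun y hy => Subgroup.mem_normalizer_iff.2 fun u =>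
    ⟨k y hy u, fun h => by simpa [mul_assoc] using k _ (inv_mem hy) _ h⟩
  have : d ∈ ((Y (v.1 (R.simple i)) ⊔ U : Subgroup Γ) : Set Γ) := (iSup₂_le fun r hr => by
    by_cases e : r = v.1 (R.simple i)
    exacts [e ▸ le_sup_left, (hU r hr.1 hr.2 e).trans le_sup_right] : _ ≤ Y (v.1 (R.simple i)) ⊔ U) hd
  rw [Subgroup.coe_mul_of_left_le_normalizer_right _ _ hn] at this
  obtain ⟨y, hy, u, hu, rfl⟩ := this
  exact ⟨y, .inr ⟨h0, hy⟩, u, hu, rfl⟩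

theorem fix_of_mem {Γ : Type*} [Group Γ] (φ : Γ →* G) {p : ι → Prop} {Y : ι → Subgroup Γ} {w : R.W}
    (h : ∀ r, p r → Ps R w r ∧ ∀ y ∈ Y r, φ y ∈ B.X r) {d : Γ} (hd : d ∈ ⨆ (r) (_ : p r), Y r) : φ d • B.c w = B.c w :=
  (iSup₂_le fun r hr y hy => (B.mem_X.1 ((h r hr).2 y hy)).1 w (h r hr).1 : _ ≤ (MulAction.stabilizer G (B.c w)).comap φ) hd

/-- an element of `U_w` fixing `c (w v)` lies in `U_w ∩ U_{w v}` -/
theorem peel {Γ : Type*} [Group Γ] (φ : Γ →* G) {T₀ : Set ι} {Y : ι → Subgroup Γ}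
    (hT : ∀ r ∈ T₀, ∀ s ∈ T₀, ∀ k, QC R r s k → k ∈ T₀)
    (hc : ∀ r ∈ T₀, ∀ s ∈ T₀, s ≠ r → s ≠ R.neg r → ∀ y ∈ Y r, ∀ z ∈ Y s, ⁅y, z⁆ ∈ ⨆ (k) (_ : QC R r s k), Y k)
    (hY : ∀ r ∈ T₀, ∀ y ∈ Y r, φ y ∈ B.X r ∧ (φ y = 1 → y = 1)) {w : R.W} (hw : ∀ r ∈ T₀, Ps R w r) {d : Γ}
    (hd : d ∈ ⨆ (r) (_ : r ∈ T₀), Y r) (v : R.W) (h : φ d • B.c (w * v) = B.c (w * v)) :
    d ∈ ⨆ (r) (_ : r ∈ T₀ ∧ Ps R (w * v) r), Y r := by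
  induction v using WD.W_ind with
  | h1 => exact (iSup₂_le fun r hr => le_sup2 Y ⟨hr, (mul_one w).symm ▸ hw r hr⟩ : _ ≤ _) hd
  | hs v i p ih =>
    rw [← mul_assoc] at h ⊢
    obtain ⟨y, hy, d', hd', rfl⟩ := exists_mul_of_mem hT hc (i := i) (ih (hull
      (fix_of_mem φ (fun r hr => ⟨hw r hr, fun y hy => (hY r hr y hy).1⟩) hd) h fun γ a b => by
        rw [← WD.mul_sW_sW (w * v) i]
        refine ps_mul_sW b fun e => ?_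
        rw [← e, mul_sW_simple, ps_neg] at a
        exact a ((ps_apply w _).2 p)))
    have f := fix_of_mem (B := B) φ (fun r hr => ⟨hr.2.2, fun y hy => (hY r hr.1 y hy).1⟩) hd'
    rw [map_mul, mul_smul, f] at h
    have : y = 1 := hy.elim id fun a => (hY _ a.1 y a.2).2 (X_free (hY _ a.1 y a.2).1 (B.δ_c_sW _ i) h)
    rw [this, one_mul]
    exact (iSup₂_le fun r hr => le_sup2 Y ⟨hr.1, hr.2.2⟩ : _ ≤ _) hd'

/-- `U_w` acts freely on the chambers opposite `c w`. -/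
theorem eq_one_of_mem_U (hM : ∀ i, B.Mouf i) {w : R.W} {g : G} (hg : g ∈ ⨆ (r) (_ : Ps R w r), B.X r)
    (h : g • B.c (w * wl R Set.univ) = B.c (w * wl R Set.univ)) : g = 1 := by
  have := peel (MonoidHom.id G) (T₀ := {r | Ps R w r}) (fun _ a _ b _ k => k.ps a b)
    (fun _ _ _ _ a b _ x _ y => comm_mem hM a b x y) (fun _ _ _ a => ⟨a, id⟩) (fun _ => id) hg _ h
  rwa [le_bot_iff.1 (iSup₂_le fun _ hr => absurd hr.1 (ps_mul_wl_univ.1 hr.2)), Subgroup.mem_bot] at this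

theorem exists_D (hM : ∀ i, B.Mouf i) {J : Set κ} {Γ : Type*} [Group Γ] (φ : Γ →* G) {Y : ι → Subgroup Γ}
    (h : ∀ r ∈ R.sub J, R.IsPos r → ∀ x ∈ B.X r, ∃ y ∈ Y r, φ y = x) {y : Ω} (hy : y ∈ B.Res J) :
    ∃ d ∈ ⨆ (r) (_ : r ∈ R.sub J ∧ R.IsPos r), Y r, φ d • B.c (B.δ (B.c 1) y) = y := by
  obtain ⟨u, hu, e⟩ := exists_U hM (a := 1) (y := y) rfl
  rw [one_mul] at hu e
  obtain ⟨d, hd, rfl⟩ := (iSup₂_le fun r hr x hx => by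
    have k : r ∈ R.sub J := by_contra fun n => hr.2 ((ps_of_not_sub hy n).2 (ps_one.1 hr.1))
    obtain ⟨a, ha, e⟩ := h r k (ps_one.1 hr.1) x hx
    exact ⟨a, le_sup2 Y ⟨k, ps_one.1 hr.1⟩ ha, e⟩ : _ ≤ (⨆ (r) (_ : r ∈ R.sub J ∧ R.IsPos r), Y r).map φ) hu
  exact ⟨d, hd, e⟩

theorem exists_iso_of_gr (hM : ∀ i, B.Mouf i) (hM' : ∀ i, B'.Mouf i) {J : Set κ} {Y : ι → Subgroup (G × G')}
    (hY : ∀ r ∈ R.sub J, R.IsPos r → B.Gr B' r (Y r))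
    (hc : ∀ r ∈ R.sub J, R.IsPos r → ∀ s ∈ R.sub J, R.IsPos s → s ≠ r → ∀ y ∈ Y r, ∀ z ∈ Y s,
      ⁅y, z⁆ ∈ ⨆ (k) (_ : QC R r s k), Y k) :
    ∃ Ψ : Ω → Ω', B.Iso B' J Ψ ∧ ∀ r ∈ R.sub J, R.IsPos r → Y r ≤ B.Cmp G' J Ψ := by
  classical
  set D := ⨆ (r) (_ : r ∈ R.sub J ∧ R.IsPos r), Y r
  have f1 : ∀ d ∈ D, d.1 • B.c 1 = B.c 1 := fun d => fix_of_mem (MonoidHom.fst G G') fun r hr =>
    ⟨ps_one.2 hr.2, fun y hy => ((hY r hr.1 hr.2).le y hy).1⟩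
  have k1 : ∀ d ∈ D, ∀ v, d.1 • B.c v = B.c v → d.2 • B'.c v = B'.c v := fun d hd v h =>
    fix_of_mem (MonoidHom.snd G G') (fun r hr => ⟨one_mul v ▸ hr.2, fun y hy => ((hY r hr.1.1 hr.1.2).le y hy).2⟩)
      (peel (B := B) (MonoidHom.fst G G') (T₀ := {r | r ∈ R.sub J ∧ R.IsPos r})
        (fun _ a _ b _ k => ⟨k.sub a.1 b.1, ps_one.1 (k.ps (ps_one.2 a.2) (ps_one.2 b.2))⟩)
        (fun r a s b n _ => hc r a.1 a.2 s b.1 b.2 n)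
        (fun r a y hy => ⟨((hY r a.1 a.2).le y hy).1, fun e => Prod.ext e (((hY r a.1 a.2).inj y hy).1 e)⟩)
        (fun _ a => ps_one.2 a.2) hd v ((one_mul v).symm ▸ h))
  obtain ⟨Ψ, hΨ⟩ : ∃ Ψ : Ω → Ω', ∀ d ∈ D, ∀ v, Ψ (d.1 • B.c v) = d.2 • B'.c v := by
    refine ⟨fun y => if h : ∃ d ∈ D, d.1 • B.c (B.δ (B.c 1) y) = y then h.choose.2 • B'.c (B.δ (B.c 1) y) else B'.c 1,
      fun d hd v => ?_⟩
    have e : B.δ (B.c 1) (d.1 • B.c v) = v := by rw [← f1 d hd, B.δ_smul, B.δ_c, inv_one, one_mul]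
    have h : ∃ d' ∈ D, d'.1 • B.c (B.δ (B.c 1) (d.1 • B.c v)) = d.1 • B.c v := ⟨d, hd, by rw [e]⟩
    have := h.choose_spec
    refine (dif_pos h).trans ?_
    generalize h.choose = d' at this
    rw [e] at this ⊢
    rw [← inv_smul_eq_iff, ← mul_smul]
    exact k1 (d⁻¹ * d') (mul_mem (inv_mem hd) this.1) v (by rw [Prod.fst_mul, mul_smul, this.2, Prod.fst_inv, inv_smul_smul])
  have ex := fun y => exists_D hM (J := J) (y := y) (MonoidHom.fst G G') (Y := Y) fun r a b x hx =>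
    let ⟨_, h⟩ := (hY r a b).onto x hx; ⟨_, h, rfl⟩
  have c1 : B.c 1 ∈ B.Res J := B.self_mem_res _ J
  have cm : D ≤ B.Cmp G' J Ψ := fun d hd => ⟨fun y => B.smul_mem_Res_of c1 ((f1 d hd).symm ▸ c1), fun y hy => by
    obtain ⟨a, ha, e⟩ := ex y hy
    rw [← e, MonoidHom.coe_fst, hΨ a ha, ← mul_smul, ← mul_smul]
    exact hΨ (d * a) (mul_mem hd ha) _⟩
  have ce : ∀ v, Ψ (B.c v) = B'.c v := fun v => by simpa using hΨ 1 (one_mem D) v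
  refine ⟨Ψ, ⟨B.iso_of_adj B'.toWD fun a ha b j hj e => ?_, fun y hy => ?_, fun v _ => ce v⟩,
    fun r a b => (le_sup2 Y ⟨a, b⟩).trans cm⟩
  · obtain ⟨d, hd, e'⟩ := ex a ha
    have hv : (B.δ (B.c 1) a).1 ∈ R.WJ J := ha
    generalize B.δ (B.c 1) a = v at e' hv
    obtain ⟨b, rfl⟩ := MulAction.surjective d.1 b
    subst e'
    rw [MonoidHom.coe_fst, B.δ_smul] at e
    rw [MonoidHom.coe_fst, hΨ d hd, (cm hd).2 b (B.pan_subset_res (B.c_mem_Res.2 hv) hj (.inr e)), B'.δ_smul]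
    have k : ∀ v : R.W, v.1 ∈ R.WJ J → R.IsPos (v.1 (R.simple j)) → ∀ b, B.δ (B.c v) b = R.sW j →
        B'.δ (B'.c v) (Ψ b) = R.sW j ∧ (Ψ b = B'.c (v * R.sW j) → b = B.c (v * R.sW j)) := fun v hv p b e => by
      obtain ⟨x, hx, rfl⟩ := (hM j).trans v (B.δ_c_sW v j) e
      have s := (RootSys.WJ_mem_sub hv).2 (R.simple_mem_sub.2 hj)
      obtain ⟨x', hx'⟩ := (hY _ s p).onto x hx
      have t := ((hY _ s p).le _ hx').2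
      rw [hΨ (x, x') (le_sup2 Y ⟨s, p⟩ hx')]
      exact ⟨δ_X_smul t (B'.δ_c_sW v j), fun h => by
        rw [show x = 1 from ((hY _ s p).inj _ hx').2 (X_free t (B'.δ_c_sW v j) h), one_smul]⟩
    by_cases p : R.IsPos (v.1 (R.simple j))
    · exact (k v hv p b e).1
    rcases (B.pan_c_sW v j).ge (.inr e) with rfl | e'
    · rw [ce, B'.δ_c_sW]
    obtain ⟨h1, h2⟩ := k (v * R.sW j) (mul_mem hv (R.sp_mem_WJ hj)) (by rwa [mul_sW_simple, R.isPos_neg]) b e'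
    rw [WD.mul_sW_sW] at h2
    exact B'.δ_of_mem_pan (x := B'.c (v * R.sW j)) ((B'.pan_c_sW v j).ge (B'.self_mem_pan _ j)) (.inr h1)
      fun n => B.ne_of_δ e (h2 n.symm).symm
  · obtain ⟨d, hd, e⟩ := exists_D hM' (MonoidHom.snd G G') (Y := Y) (fun r a b x hx =>
      let ⟨_, h⟩ := (hY r a b).onto' x hx; ⟨_, h, rfl⟩) hy
    exact ⟨_, ((cm hd).1 _).2 (B.c_mem_Res.2 hy), (hΨ d hd _).trans e⟩

theorem Iso.mem {J : Set κ} {Ψ : Ω → Ω'} (h : B.Iso B' J Ψ) {y : Ω} (hy : y ∈ B.Res J) : Ψ y ∈ B'.Res J := by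
  rw [Res, WD.res, Set.mem_ofPred_eq, ← h.c_eq 1 (one_mem _), h.δ_eq _ (B.self_mem_res _ J) _ hy]
  exact hy
theorem Iso.injOn {J : Set κ} {Ψ : Ω → Ω'} (h : B.Iso B' J Ψ) : Set.InjOn Ψ (B.Res J) := fun x hx y hy e => by
  rw [← B.δ_eq_one, ← h.δ_eq x hx y hy, e, B'.δ_self]
theorem Iso.swap {J : Set κ} {Ψ : Ω → Ω'} (h : B.Iso B' J Ψ) {Φ : Ω' → Ω} (h1 : ∀ y ∈ B.Res J, Φ (Ψ y) = y) {g : G} {g' : G'}
    (k : (g, g') ∈ B.Cmp G' J Ψ) : (g', g) ∈ B'.Cmp G J Φ := by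
  have c1 : B.c 1 ∈ B.Res J := B.self_mem_res _ J
  refine ⟨fun y => B'.smul_mem_Res_of (h.mem c1) (k.2 _ c1 ▸ h.mem ((k.1 _).2 c1)), fun y hy => ?_⟩
  obtain ⟨y, a, rfl⟩ := h.surj y hy
  rw [← k.2 y a, h1 y a, h1 _ ((k.1 y).2 a)]
theorem Iso.exists_symm {J : Set κ} {Ψ : Ω → Ω'} (h : B.Iso B' J Ψ) : ∃ Φ : Ω' → Ω, B'.Iso B J Φ ∧
    (∀ y ∈ B.Res J, Φ (Ψ y) = y) ∧ (∀ y ∈ B'.Res J, Ψ (Φ y) = y) ∧
    ∀ g g', (g, g') ∈ B.Cmp G' J Ψ ↔ (g', g) ∈ B'.Cmp G J Φ := by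
  have : Nonempty Ω := ⟨B.c 1⟩
  have h1 : ∀ y ∈ B.Res J, Function.invFunOn Ψ (B.Res J) (Ψ y) = y := fun y hy => h.injOn.leftInvOn_invFunOn hy
  generalize Function.invFunOn Ψ (B.Res J) = Φ at h1
  have h2 : ∀ y ∈ B'.Res J, Ψ (Φ y) = y := fun y hy => by
    obtain ⟨y, a, rfl⟩ := h.surj y hy
    rw [h1 y a]
  have k : B'.Iso B J Φ := ⟨fun x hx y hy => by
      obtain ⟨x, a, rfl⟩ := h.surj x hx
      obtain ⟨y, b, rfl⟩ := h.surj y hy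
      rw [h1 x a, h1 y b, h.δ_eq x a y b],
    fun y hy => ⟨_, h.mem hy, h1 y hy⟩, fun v hv => by rw [← h.c_eq v hv, h1 _ (B.c_mem_Res.2 hv)]⟩
  exact ⟨Φ, k, h1, h2, fun g g' => ⟨h.swap h1, k.swap h2⟩⟩
theorem Iso.c_iff {J : Set κ} {Ψ : Ω → Ω'} (h : B.Iso B' J Ψ) {g : G} {g' : G'} (hg : (g, g') ∈ B.Cmp G' J Ψ)
    {u v : R.W} (hu : u.1 ∈ R.WJ J) (hv : v.1 ∈ R.WJ J) : g • B.c v = B.c u ↔ g' • B'.c v = B'.c u := by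
  rw [← h.c_eq u hu, ← h.c_eq v hv, ← hg.2 _ (B.c_mem_Res.2 hv)]
  exact (h.injOn.eq_iff ((hg.1 _).2 (B.c_mem_Res.2 hv)) (B.c_mem_Res.2 hu)).symm

theorem Iso.mem_pan {J : Set κ} {Ψ : Ω → Ω'} (h : B.Iso B' J Ψ) {v : R.W} (hv : v.1 ∈ R.WJ J) {j : κ} (hj : j ∈ J) {y : Ω}
    (hy : y ∈ B.pan (B.c v) j) : Ψ y ∈ B'.pan (B'.c v) j := by
  have a := B.c_mem_Res.2 hv
  rw [← h.c_eq v hv]
  exact hy.imp (congrArg Ψ) (h.δ_eq _ a _ (B.pan_subset_res a hj hy)).trans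

theorem Iso.isom {J : Set κ} {Ψ : Ω → Ω'} (h : B.Iso B' J Ψ) {x : G} (hx : x ∈ B.L J) (x' : G') :
    (∀ a ∈ B.Res J, ∀ b ∈ B.Res J, B'.δ (Ψ (x • a)) (Ψ (x • b)) = B.δ a b) ∧
    ∀ a ∈ B.Res J, ∀ b ∈ B.Res J, B'.δ (x' • Ψ a) (x' • Ψ b) = B.δ a b :=
  ⟨fun a ha b hb => by rw [h.δ_eq _ ((L_res hx).2 ha) _ ((L_res hx).2 hb), B.δ_smul], fun a ha b hb => by
    rw [B'.δ_smul, h.δ_eq a ha b hb]⟩

/-- compatibility from the panels through `c v` and the opposite chamber -/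
theorem Iso.mem_Cmp {J : Set κ} {Ψ : Ω → Ω'} (h : B.Iso B' J Ψ) {r : ι} (hr : r ∈ R.sub J) {x : G} {x' : G'} (hx : x ∈ B.X r)
    (hx' : x' ∈ B'.X r) {v : R.W} (hv : v.1 ∈ R.WJ J) (p : Ps R v r)
    (h1 : ∀ j ∈ J, v.1 (R.simple j) = r → ∀ y ∈ B.pan (B.c v) j, Ψ (x • y) = x' • Ψ y)
    (h2 : Ψ (x • B.c (v * wl R J)) = x' • Ψ (B.c (v * wl R J))) : (x, x') ∈ B.Cmp G' J Ψ := by
  have e : B.res (B.c v) J = B.Res J := B.res_eq (B.c_mem_Res.2 hv)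
  obtain ⟨i1, i2⟩ := h.isom (X_le_L hr hx) x'
  refine ⟨fun _ => L_res (X_le_L hr hx), e ▸ B.rigid B'.toWD (f := fun y => Ψ (x • y)) (f' := fun y => x' • Ψ y)
    (e.symm ▸ i1) (e.symm ▸ i2) ?_ (fun j hj y hy => ?_) (by rw [B.δ_c, inv_mul_cancel_left]) h2⟩
  · rw [(B.mem_X.1 hx).1 v p, h.c_eq v hv, (B'.mem_X.1 hx').1 v p]
  · by_cases n : v.1 (R.simple j) = r
    · exact h1 j hj n y hy
    · rw [(B.mem_X.1 hx).2 v j p n y hy, (B'.mem_X.1 hx').2 v j p n _ (h.mem_pan hv hj hy)]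

theorem Iso.half (hM' : ∀ i, B'.Mouf i) {J : Set κ} (hJ : ∀ i ∈ J, ∃ j ∈ J, j ≠ i ∧ R.A i j ≠ 0) {Ψ : Ω → Ω'}
    (h : B.Iso B' J Ψ) {r : ι} (hr : r ∈ R.sub J) {x : G} (hx : x ∈ B.X r) : ∃ x' ∈ B'.X r, (x, x') ∈ B.Cmp G' J Ψ := by
  obtain ⟨v, hv, p, n⟩ := exists_nonsimple hJ hr
  have hL := X_le_L hr hx
  obtain ⟨w, k, hw, hk, rfl⟩ := exists_simple_sub hr
  have ha : (w * R.sW k).1 ∈ R.WJ J := mul_mem hw (R.sp_mem_WJ hk)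
  obtain ⟨x', hx', e⟩ := (hM' k).trans w (B'.δ_c_sW w k) (z := Ψ (x • B.c (w * R.sW k))) (by
    rw [← h.c_eq w hw, h.δ_eq _ (B.c_mem_Res.2 hw) _ ((L_res hL).2 (B.c_mem_Res.2 ha)), δ_X_smul hx (B.δ_c_sW w k)])
  refine ⟨x', hx', h.mem_Cmp hr hx hx' hv p (fun j _ e => absurd e (n j)) ?_⟩
  obtain ⟨i1, i2⟩ := h.isom hL x'
  have hb : (w * R.sW k * wl R J).1 ∈ R.WJ J := mul_mem ha (wl_mem J)
  have hu : (v * wl R J).1 ∈ R.WJ J := mul_mem hv (wl_mem J)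
  have q := (ps_mul_wl ((RootSys.WJ_mem_sub (inv_mem ha)).2 hr)).2 (not_ps_mul_sW w k)
  rw [← h.c_eq _ ha] at e
  have e' : x' • Ψ (B.c (w * R.sW k * wl R J)) = Ψ (x • B.c (w * R.sW k * wl R J)) := by
    rw [(B.mem_X.1 hx).1 _ q, h.c_eq _ hb, (B'.mem_X.1 hx').1 _ q]
  generalize v * wl R J = u at hu
  generalize w * R.sW k = a at *
  replace hu := B.c_mem_Res.2 hu
  replace hb := B.c_mem_Res.2 hb
  have hc := B.c_mem_Res.2 ha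
  refine B'.mid_unique (x := Ψ (x • B.c a)) (z := Ψ (x • B.c (a * wl R J))) (by rw [i1 _ hc _ hu, ← e, i2 _ hc _ hu])
    (by rw [i1 _ hu _ hb, ← e', i2 _ hu _ hb]) ?_
  rw [i1 _ hc _ hu, i1 _ hu _ hb, B.δ_c, B.δ_c, show u⁻¹ * (a * wl R J) = (a⁻¹ * u)⁻¹ * wl R J by group]
  exact ell_add_wl (mul_mem (inv_mem ha) (B.c_mem_Res.1 hu))

/-- isomorphisms of residues without isolated nodes intertwine the root groups -/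
theorem Iso.full' (hM : ∀ i, B.Mouf i) (hM' : ∀ i, B'.Mouf i) {J : Set κ} (hJ : ∀ i ∈ J, ∃ j ∈ J, j ≠ i ∧ R.A i j ≠ 0)
    {Ψ : Ω → Ω'} (h : B.Iso B' J Ψ) : B.Full B' J Ψ := fun r hr => ⟨fun _ => h.half hM' hJ hr, fun x hx => by
  obtain ⟨Φ, a, -, -, b⟩ := h.exists_symm
  obtain ⟨y, hy, e⟩ := a.half hM hJ hr hx
  exact ⟨y, hy, (b y x).2 e⟩⟩

theorem Iso.full (hM : ∀ i, B.Mouf i) (hM' : ∀ i, B'.Mouf i) {i j : κ} (hij : i ≠ j) (hA : R.A i j ≠ 0) {Ψ : Ω → Ω'}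
    (h : B.Iso B' {i, j} Ψ) : B.Full B' {i, j} Ψ := h.full' hM hM' (by
  rintro _ (rfl | rfl)
  exacts [⟨j, .inr rfl, hij.symm, hA⟩, ⟨i, .inl rfl, hij, mt (R.A_eq_zero_comm ..).1 hA⟩])

theorem Res_mono {J J' : Set κ} (h : J ⊆ J') : B.Res J ⊆ B.Res J' := B.res_mono _ h

theorem Cmp_sub {J J' : Set κ} (h : J ⊆ J') {Ψ : Ω → Ω'} {d : G × G'} (hd : d ∈ B.Cmp G' J' Ψ) (hL : d.1 ∈ B.L J) :
    d ∈ B.Cmp G' J Ψ := ⟨fun _ => L_res hL, fun y hy => hd.2 y (Res_mono h hy)⟩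

theorem Iso.restrict {J : Set κ} {Ψ : Ω → Ω'} (h : B.Iso B' J Ψ) {j : κ} (hj : j ∈ J) : B.Iso B' {j} Ψ := by
  have s : {j} ⊆ J := Set.singleton_subset_iff.2 hj
  refine ⟨fun x a y b => h.δ_eq x (Res_mono s a) y (Res_mono s b), fun y hy => ?_, fun v hv => h.c_eq v (R.WJ_mono s hv)⟩
  obtain ⟨y, a, rfl⟩ := h.surj y (Res_mono s hy)
  rw [Res, WD.res, Set.mem_ofPred_eq, ← h.c_eq 1 (one_mem _), h.δ_eq _ (B.self_mem_res _ J) _ a] at hy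
  exact ⟨y, hy, rfl⟩
theorem Full.restrict {J : Set κ} {Ψ : Ω → Ω'} (h : B.Full B' J Ψ) {j : κ} (hj : j ∈ J) : B.Full B' {j} Ψ := fun r hr => by
  have s : {j} ⊆ J := Set.singleton_subset_iff.2 hj
  obtain ⟨a, b⟩ := h r (R.sub_mono s hr)
  exact ⟨fun x hx => (a x hx).imp fun _ k => ⟨k.1, Cmp_sub s k.2 (X_le_L hr hx)⟩,
    fun x hx => (b x hx).imp fun _ k => ⟨k.1, Cmp_sub s k.2 (X_le_L hr k.1)⟩⟩
theorem Iso.congr {J : Set κ} {Ψ Ψ' : Ω → Ω'} (h : B.Iso B' J Ψ) (e : Set.EqOn Ψ Ψ' (B.Res J)) : B.Iso B' J Ψ' :=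
  ⟨fun x a y b => by rw [← e a, ← e b, h.δ_eq x a y b], fun y hy => (h.surj y hy).imp fun _ k => ⟨k.1, (e k.1).symm.trans k.2⟩,
    fun v hv => (e (B.c_mem_Res.2 hv)).symm.trans (h.c_eq v hv)⟩
theorem Cmp_congr {J : Set κ} {Ψ Ψ' : Ω → Ω'} (e : Set.EqOn Ψ Ψ' (B.Res J)) : B.Cmp G' J Ψ = B.Cmp G' J Ψ' :=
  Subgroup.ext fun d => and_congr_right fun k => forall₂_congr fun y hy => by rw [e hy, e ((k y).2 hy)]
/-- the graph defined by `Ψ` -/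
theorem Full.gr {J : Set κ} {Ψ : Ω → Ω'} (h0 : B.Iso B' J Ψ) (h : B.Full B' J Ψ) {r : ι} (hr : r ∈ R.sub J) :
    B.Gr B' r (B.Cmp G' J Ψ ⊓ (B.X r).prod (B'.X r)) := by
  refine ⟨fun _ k => k.2, fun x hx => ((h r hr).1 x hx).imp fun _ k => ⟨k.2, hx, k.1⟩,
    fun x hx => ((h r hr).2 x hx).imp fun _ k => ⟨k.2, k.1, hx⟩, fun y hy => ?_⟩
  obtain ⟨w, k, hw, hk, rfl⟩ := exists_simple_sub hr
  have ha : (w * R.sW k).1 ∈ R.WJ J := mul_mem hw (R.sp_mem_WJ hk)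
  have := h0.c_iff (g := y.1) (g' := y.2) hy.1 ha ha
  exact ⟨fun e => X_free hy.2.2 (B'.δ_c_sW w k) (this.1 (by rw [e, one_smul])),
    fun e => X_free hy.2.1 (B.δ_c_sW w k) (this.2 (by rw [e, one_smul]))⟩

/-- root elements that are compatible on one panel of the wall are compatible on the residue -/
theorem Iso.mem_Cmp_pan {J : Set κ} {Ψ : Ω → Ω'} (h : B.Iso B' J Ψ) {w : R.W} (hw : w.1 ∈ R.WJ J) {k : κ} (hk : k ∈ J)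
    {x : G} {x' : G'} (hx : x ∈ B.X (w.1 (R.simple k))) (hx' : x' ∈ B'.X (w.1 (R.simple k)))
    (h1 : ∀ y ∈ B.pan (B.c w) k, Ψ (x • y) = x' • Ψ y) : (x, x') ∈ B.Cmp G' J Ψ := by
  have hr := (RootSys.WJ_mem_sub hw).2 (R.simple_mem_sub.2 hk)
  refine h.mem_Cmp hr hx hx' hw (ps_simple w k) (fun j _ e => R.simple_injective (w.1.injective e) ▸ h1) ?_
  obtain ⟨m, hm, e⟩ := exists_opp (R := R) hk
  obtain ⟨i1, i2⟩ := h.isom (X_le_L hr hx) x'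
  have hb : (w * wl R J).1 ∈ R.WJ J := mul_mem hw (wl_mem J)
  have q : Ps R (w * wl R J * R.sW m) (w.1 (R.simple k)) := by_contra fun n => not_ps_mul_sW (w * wl R J) m (by
    rw [show (w * wl R J).1 (R.simple m) = R.neg (w.1 (R.simple k)) from (congrArg w.1 e).trans (RootSys.W_neg w.2 _)]
    exact ps_neg.2 n)
  refine B.par_agree B'.toWD (f := fun y => Ψ (x • y)) (f' := fun y => x' • Ψ y) i1 i2 (x := B.c (w * R.sW k)) (i := k)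
    (B.pan_subset_res (B.c_mem_Res.2 (mul_mem hw (R.sp_mem_WJ hk))) hk) (B.pan_subset_res (B.c_mem_Res.2 hb) hm) ?_
    (B.pan_c_sW w k ▸ h1) (B.c_mem_pan _ m) ?_ _ (B.self_mem_pan _ m)
  · rw [B.δ_c, show (w * R.sW k)⁻¹ * (w * wl R J) = R.sW k * wl R J by rw [mul_inv_rev, WD.sW_inv]; group]
    exact (congrArg (R.σ k) e).trans (R.σ_neg_simple k)
  · rw [(B.mem_X.1 hx).1 _ q, h.c_eq _ (mul_mem hb (R.sp_mem_WJ hm)), (B'.mem_X.1 hx').1 _ q]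

theorem mem_sub_zero {i j : κ} (hA : R.A i j = 0) {r : ι} (hr : r ∈ R.sub {i, j}) :
    ∃ k ∈ ({i, j} : Set κ), r = R.simple k ∨ r = R.neg (R.simple k) := by
  obtain ⟨w, k, hw, hk, rfl⟩ := exists_simple_sub hr
  refine ⟨k, hk, WD.WJ_ind (P := fun w _ => w.1 (R.simple k) = R.simple k ∨ w.1 (R.simple k) = R.neg (R.simple k)) (.inl rfl)
    (fun w _ m hm _ ih => ?_) w hw⟩
  by_cases e : m = k
  · rw [e, mul_sW_simple]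
    exact ih.symm.imp (fun e => by rw [e, R.neg_neg]) (congrArg _)
  have : R.A m k = 0 := by
    rcases hm with rfl | rfl <;> rcases hk with rfl | rfl
    exacts [absurd rfl e, hA, (R.A_eq_zero_comm ..).1 hA, absurd rfl e]
  rwa [show (w * R.sW m).1 (R.simple k) = w.1 (R.simple k) from
    congrArg w.1 (R.rt_inj (by rw [R.sW_val, R.sp_apply, R.rt_σ', R.wt_simple, this, zero_smul, sub_zero]))]

theorem ext_zero' (hM : ∀ i, B.Mouf i) (hM' : ∀ i, B'.Mouf i) {i j : κ} (hA : R.A i j = 0) {ψ : κ → Ω → Ω'}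
    (h : ∀ k ∈ ({i, j} : Set κ), B.Iso B' {k} (ψ k) ∧ B.Full B' {k} (ψ k)) :
    ∃ Ψ, B.Iso B' {i, j} Ψ ∧ ∀ k ∈ ({i, j} : Set κ), Set.EqOn Ψ (ψ k) (B.Res {k}) := by
  have pos : ∀ r ∈ R.sub {i, j}, R.IsPos r → ∃ k ∈ ({i, j} : Set κ), r = R.simple k := fun r a b =>
    (mem_sub_zero hA a).imp fun k c => ⟨c.1, c.2.resolve_right fun e => (R.isPos_neg _).1 (e ▸ b) (R.isPos_simple k)⟩
  obtain ⟨Y, hY⟩ : ∃ Y : ι → Subgroup (G × G'), ∀ k,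
      Y (R.simple k) = B.Cmp G' {k} (ψ k) ⊓ (B.X (R.simple k)).prod (B'.X (R.simple k)) :=
    ⟨Function.extend R.simple (fun k => B.Cmp G' {k} (ψ k) ⊓ (B.X (R.simple k)).prod (B'.X (R.simple k))) ⊥, fun k =>
      R.simple_injective.extend_apply _ _ k⟩
  have gr : ∀ k ∈ ({i, j} : Set κ), B.Gr B' (R.simple k) (Y (R.simple k)) := fun k hk => by
    rw [hY]
    exact (h k hk).2.gr (h k hk).1 (R.simple_mem_sub.2 rfl)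
  obtain ⟨Ψ, a, b⟩ := exists_iso_of_gr hM hM' (J := {i, j}) (Y := Y) (fun r a b => by
    obtain ⟨k, hk, rfl⟩ := pos r a b
    exact gr k hk) fun r a b s c d n y hy z hz => by
    have n' : s ≠ R.neg r := fun e => (R.isPos_neg r).1 (e ▸ d) b
    have q : ∀ k, ¬ QC R r s k := fun k hk => by
      obtain ⟨m, -, e⟩ := pos k (hk.sub a c) (ps_one.1 (hk.ps (ps_one.2 b) (ps_one.2 d)))
      exact hk.ne_simple n.symm (ps_one.2 b) (ps_one.2 d) m e.symm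
    obtain ⟨k, hk, rfl⟩ := pos r a b
    obtain ⟨m, hm, rfl⟩ := pos s c d
    have : Commute y z := Prod.ext (commute_of_qc hM n n' q ((gr k hk).le y hy).1 ((gr m hm).le z hz).1).eq
      (commute_of_qc hM' n n' q ((gr k hk).le y hy).2 ((gr m hm).le z hz).2).eq
    rw [commutatorElement_eq_one_iff_commute.2 this]
    exact one_mem _
  refine ⟨Ψ, a, fun k hk y hy => ?_⟩
  rcases (B.Res_singleton k).le hy with rfl | hy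
  · rw [a.c_eq 1 (one_mem _), (h k hk).1.c_eq 1 (one_mem _)]
  obtain ⟨x, hx, rfl⟩ := hM k y hy
  obtain ⟨x', hx'⟩ := (gr k hk).onto x hx
  have s1 : (R.sW k).1 ∈ R.WJ {k} := R.sp_mem_WJ rfl
  have s2 : (R.sW k).1 ∈ R.WJ {i, j} := R.sp_mem_WJ hk
  have t1 : (x, x') ∈ B.Cmp G' {i, j} Ψ := b _ (R.simple_mem_sub.2 hk) (R.isPos_simple k) hx'
  have t2 : (x, x') ∈ B.Cmp G' {k} (ψ k) := (Subgroup.mem_inf.1 ((hY k).le hx')).1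
  rw [t1.2 _ (B.c_mem_Res.2 s2), t2.2 _ (B.c_mem_Res.2 s1), a.c_eq _ s2, (h k hk).1.c_eq _ s1]

theorem Iso.up {J : Set κ} {Ψ : Ω → Ω'} (a : B.Iso B' J Ψ) {k : κ} (hk : k ∈ J) {r : ι}
    (e : r = R.simple k ∨ r = R.neg (R.simple k)) {x : G} (hx : x ∈ B.X r) {x' : G'} (hx' : x' ∈ B'.X r)
    (c : (x, x') ∈ B.Cmp G' {k} Ψ) : (x, x') ∈ B.Cmp G' J Ψ := by
  have c2 := c.2
  rw [B.Res_singleton] at c2
  rcases e with rfl | rfl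
  · exact a.mem_Cmp_pan (w := 1) (one_mem _) hk hx hx' c2
  · rw [← R.σ_simple] at hx hx'
    refine a.mem_Cmp_pan (w := R.sW k) (R.sp_mem_WJ hk) hk hx hx' ?_
    rwa [← one_mul (R.sW k), B.pan_c_sW]

/-- Orthogonal nodes. -/
theorem ext_zero (hM : ∀ i, B.Mouf i) (hM' : ∀ i, B'.Mouf i) {i j : κ} (hij : i ≠ j) (hA : R.A i j = 0)
    {ψ₁ ψ₂ : Ω → Ω'} (h1 : B.Iso B' {i} ψ₁) (f1 : B.Full B' {i} ψ₁) (h2 : B.Iso B' {j} ψ₂) (f2 : B.Full B' {j} ψ₂) :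
    ∃ Ψ, B.Iso B' {i, j} Ψ ∧ B.Full B' {i, j} Ψ ∧ Set.EqOn Ψ ψ₁ (B.Res {i}) ∧ Set.EqOn Ψ ψ₂ (B.Res {j}) := by
  obtain ⟨ψ, e1, e2⟩ : ∃ ψ : κ → Ω → Ω', ψ i = ψ₁ ∧ ψ j = ψ₂ := ⟨fun k => if k = i then ψ₁ else ψ₂, if_pos rfl, if_neg hij.symm⟩
  subst e1 e2
  have h : ∀ k ∈ ({i, j} : Set κ), B.Iso B' {k} (ψ k) ∧ B.Full B' {k} (ψ k) := by
    rintro _ (rfl | rfl)
    exacts [⟨h1, f1⟩, ⟨h2, f2⟩]
  obtain ⟨Ψ, a, eq⟩ := ext_zero' hM hM' hA h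
  refine ⟨Ψ, a, fun r hr => ?_, eq i (.inl rfl), eq j (.inr rfl)⟩
  obtain ⟨k, hk, e⟩ := mem_sub_zero hA hr
  obtain ⟨c, d⟩ := (h k hk).2 r (by
    rcases e with rfl | rfl
    exacts [R.simple_mem_sub.2 rfl, R.neg_mem_sub.2 (R.simple_mem_sub.2 rfl)])
  rw [← Cmp_congr (eq k hk)] at c d
  exact ⟨fun x hx => (c x hx).imp fun _ t => ⟨t.1, a.up hk e hx t.1 t.2⟩,
    fun x hx => (d x hx).imp fun _ t => ⟨t.1, a.up hk e t.1 hx t.2⟩⟩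

end Bld

end CL.TB
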