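/-
S1143 (Tits), GCT: a Curtis-Tits theorem for two Moufang buildings.  Templates: CHEV/CT.lean, SPOR/E6U/RG.lean.
-/
import Cfsg.Agent.CHEV.TB.Psi
import Cfsg.Agent.CHEV.TB.GCT1

set_option autoImplicit false
set_option linter.unusedSectionVars false
set_option maxHeartbeats 200000

namespace CL.TB

open CL.Chev
open scoped MatrixGroups commutatorElement

namespace Bld

variable {ι κ G Ω G' Ω' : Type*} [Fintype κ] [DecidableEq κ] [Finite ι] {R : RootSys ι κ}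
  [Group G] [MulAction G Ω] [Finite G] [Finite Ω] [FaithfulSMul G Ω] {B : Bld R G Ω}
  [Group G'] [MulAction G' Ω'] [Finite G'] [Finite Ω'] [FaithfulSMul G' Ω'] {B' : Bld R G' Ω'}

theorem Gr.eq_of_le {r : ι} {Y Y' : Subgroup (G × G')} (h : B.Gr B' r Y) (h' : B.Gr B' r Y') (e : Y ≤ Y') : Y = Y' :=
  e.antisymm fun y hy => by
    obtain ⟨x, hx⟩ := h.onto _ (h'.le y hy).1
    have := (h'.inj _ (mul_mem (inv_mem (e hx)) hy)).1 (inv_mul_cancel y.1)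
    rwa [show x = y.2 from inv_mul_eq_one.1 this] at hx

theorem Gr.conj {r : ι} {Y Y' : Subgroup (G × G')} (h : B.Gr B' r Y) {m : G × G'} {w : R.W} (h1 : B.IsN m.1 w)
    (h2 : B'.IsN m.2 w) (e : ∀ g, m * g * m⁻¹ ∈ Y' ↔ g ∈ Y) : B.Gr B' (w.1 r) Y' := by
  refine ⟨fun y hy => ?_, fun x hx => ?_, fun x hx => ?_, fun y hy => ?_⟩
  · obtain ⟨g, rfl⟩ := (MulAut.conj m).surjective y
    exact ⟨h1.conj_X.2 (h.le g ((e g).1 hy)).1, h2.conj_X.2 (h.le g ((e g).1 hy)).2⟩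
  · obtain ⟨g, rfl⟩ := (MulAut.conj m.1).surjective x
    obtain ⟨g', k⟩ := h.onto g (h1.conj_X.1 hx)
    exact ⟨_, (e _).2 k⟩
  · obtain ⟨g, rfl⟩ := (MulAut.conj m.2).surjective x
    obtain ⟨g', k⟩ := h.onto' g (h2.conj_X.1 hx)
    exact ⟨_, (e _).2 k⟩
  · obtain ⟨g, rfl⟩ := (MulAut.conj m).surjective y
    exact conj_eq_one_iff.trans ((h.inj g ((e g).1 hy)).trans conj_eq_one_iff.symm)

theorem Iso.isN {J : Set κ} {Ψ : Ω → Ω'} (h : B.Iso B' J Ψ) {d : G × G'} (hd : d ∈ B.Cmp G' J Ψ) (hL : d.2 ∈ B'.L J)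
    {w : R.W} (hw : w.1 ∈ R.WJ J) (hN : B.IsN d.1 w) : B'.IsN d.2 w :=
  isN_of_L hL hw fun v hv => (h.c_iff hd (mul_mem hw hv) hv).1 (hN v)

/-- the commutator relations for the graphs defined by an isomorphism of residues -/
theorem Full.comm (hM : ∀ i, B.Mouf i) (hM' : ∀ i, B'.Mouf i) {J : Set κ} {Ψ : Ω → Ω'} (h0 : B.Iso B' J Ψ) (h : B.Full B' J Ψ)
    {r s : ι} (hr : r ∈ R.sub J) (hs : s ∈ R.sub J) (h1 : s ≠ r) (h2 : s ≠ R.neg r) {y z : G × G'}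
    (hy : y ∈ B.Cmp G' J Ψ ⊓ (B.X r).prod (B'.X r)) (hz : z ∈ B.Cmp G' J Ψ ⊓ (B.X s).prod (B'.X s)) :
    ⁅y, z⁆ ∈ ⨆ (k) (_ : QC R r s k), B.Cmp G' J Ψ ⊓ (B.X k).prod (B'.X k) := by
  obtain ⟨e, he, e1⟩ := (iSup₂_le fun k hk x hx => by
    obtain ⟨x', a⟩ := (h.gr h0 (hk.sub hr hs)).onto x hx
    exact ⟨_, le_sup2 (fun k => B.Cmp G' J Ψ ⊓ (B.X k).prod (B'.X k)) hk a, rfl⟩ :
    _ ≤ (⨆ (k) (_ : QC R r s k), B.Cmp G' J Ψ ⊓ (B.X k).prod (B'.X k)).map (MonoidHom.fst G G')) (comm_mem hM h1 h2 hy.2.1 hz.2.1)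
  have c1 : e⁻¹ * ⁅y, z⁆ ∈ B.Cmp G' J Ψ := mul_mem (inv_mem ((iSup₂_le fun _ _ => inf_le_left : _ ≤ B.Cmp G' J Ψ) he))
    (mul_mem (mul_mem (mul_mem hy.1 hz.1) (inv_mem hy.1)) (inv_mem hz.1))
  have c2 : (e⁻¹ * ⁅y, z⁆).2 ∈ ⨆ (k) (_ : QC R r s k), B'.X k := mul_mem (inv_mem ((iSup₂_le fun k hk x hx =>
    by exact le_sup2 B'.X hk hx.2.2 : _ ≤ (⨆ (k) (_ : QC R r s k), B'.X k).comap (MonoidHom.snd G G')) he)) (comm_mem hM' h1 h2 hy.2.2 hz.2.2)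
  have c3 : (e⁻¹ * ⁅y, z⁆).1 = 1 := inv_mul_eq_one.2 e1
  have c4 := h0.isN c1 ((iSup₂_le fun k hk => X_le_L (hk.sub hr hs) : _ ≤ B'.L J) c2) (one_mem _) (by
    rw [c3]; exact isN_one_iff.2 (one_mem _))
  obtain ⟨w, hw, p, q⟩ := RootSys.exists_W_isPos_pair h2
  have c5 := eq_one_of_mem_U hM' (w := (⟨w, hw⟩ : R.W)⁻¹) ((iSup₂_le fun k hk => le_sup2 B'.X (hk.ps p q) : _ ≤ _) c2)
    (B'.mem_H.1 (isN_one_iff.1 c4) _)
  exact inv_mul_eq_one.1 (Prod.ext c3 c5) ▸ he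

theorem Full.exists_n (hM : ∀ i, B.Mouf i) {k : κ} {Ψ : Ω → Ω'} (h0 : B.Iso B' {k} Ψ) (h : B.Full B' {k} Ψ) :
    ∃ n ∈ ⨆ (r) (_ : r ∈ R.sub {k}), B.Cmp G' {k} Ψ ⊓ (B.X r).prod (B'.X r), B.IsN n.1 (R.sW k) ∧ B'.IsN n.2 (R.sW k) := by
  have p : R.simple k ∈ R.sub {k} := R.simple_mem_sub.2 rfl
  have q := R.neg_mem_sub.2 p
  obtain ⟨x, hx, n⟩ := (hM k).exists_ne_one 1
  obtain ⟨a, ha, b, hb, e⟩ := exists_mu hM hx n
  obtain ⟨x', hx'⟩ := (h.gr h0 p).onto x hx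
  obtain ⟨a', ha'⟩ := (h.gr h0 q).onto a ha
  obtain ⟨b', hb'⟩ := (h.gr h0 q).onto b hb
  have l := fun r (hr : r ∈ R.sub {k}) => le_sup2 (p := (· ∈ R.sub {k})) (fun r => B.Cmp G' {k} Ψ ⊓ (B.X r).prod (B'.X r)) hr
  replace e : B.IsN (a * x * b) (R.sW k) := rf_simple (R := R) k ▸ e
  exact ⟨(a, a') * (x, x') * (b, b'), mul_mem (mul_mem (l _ q ha') (l _ p hx')) (l _ q hb'), e,
    h0.isN (mul_mem (mul_mem ha'.1 hx'.1) hb'.1) (mul_mem (mul_mem (X_le_L q ha'.2.2) (X_le_L p hx'.2.2)) (X_le_L q hb'.2.2))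
      (R.sp_mem_WJ rfl) e⟩

/-- isomorphic buildings have isomorphic groups -/
theorem Iso.equiv [IsSimpleGroup G] [IsSimpleGroup G'] [Nonempty κ] (hM : ∀ i, B.Mouf i) (hM' : ∀ i, B'.Mouf i) {Ψ : Ω → Ω'}
    (h : B.Iso B' Set.univ Ψ) : Nonempty (G ≃* G') := by
  have f := h.full' hM hM' fun i _ => (B.noiso i).imp fun j a => ⟨trivial, a⟩
  have u : ∀ y, y ∈ B.Res Set.univ := fun y => (B.res_univ _).ge trivial
  have u' : ∀ y, y ∈ B'.Res Set.univ := fun y => (B'.res_univ _).ge trivial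
  have s : ∀ r, r ∈ R.sub Set.univ := fun r i a => absurd trivial a
  refine (Subgroup.exists_mulEquiv_eq_graph (G := B.Cmp G' Set.univ Ψ) ⟨fun a b e => Subtype.ext (Prod.ext e ?_), fun x => ?_⟩
    ⟨fun a b e => Subtype.ext (Prod.ext ?_ e), fun x => ?_⟩).nonempty
  · refine eq_of_smul_eq_smul (α := Ω') fun y => ?_
    obtain ⟨y, -, rfl⟩ := h.surj y (u' y)
    rw [← a.2.2 y (u y), ← b.2.2 y (u y)]
    exact congrArg (fun g => Ψ (g • y)) e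
  · obtain ⟨d, hd, e⟩ := (iSup_le fun r x hx => let ⟨_, _, a⟩ := (f r (s r)).1 x hx; ⟨_, a, rfl⟩ :
      _ ≤ (B.Cmp G' Set.univ Ψ).map (MonoidHom.fst G G')) ((iSup_X_eq_top hM).ge (Subgroup.mem_top x))
    exact ⟨⟨d, hd⟩, e⟩
  · refine eq_of_smul_eq_smul (α := Ω) fun y => h.injOn (u _) (u _) ?_
    rw [a.2.2 y (u y), b.2.2 y (u y)]
    exact congrArg (· • Ψ y) e
  · obtain ⟨d, hd, e⟩ := (iSup_le fun r x hx => let ⟨_, _, a⟩ := (f r (s r)).2 x hx; ⟨_, a, rfl⟩ :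
      _ ≤ (B.Cmp G' Set.univ Ψ).map (MonoidHom.snd G G')) ((iSup_X_eq_top hM').ge (Subgroup.mem_top x))
    exact ⟨⟨d, hd⟩, e⟩

/-- Curtis–Tits: glue the graphs of root groups (`GD.exists_Z`), build an isomorphism of buildings. -/
theorem gct [IsSimpleGroup G] [IsSimpleGroup G'] [Nonempty κ] (hM : ∀ i, B.Mouf i) (hM' : ∀ i, B'.Mouf i)
    (ψ : κ → Ω → Ω') (h : ∀ i j, i ≠ j → ∃ Ψ, B.Iso B' {i, j} Ψ ∧ B.Full B' {i, j} Ψ ∧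
      Set.EqOn Ψ (ψ i) (B.Res {i}) ∧ Set.EqOn Ψ (ψ j) (B.Res {j})) : Nonempty (G ≃* G') := by
  have h1 : ∀ i, B.Iso B' {i} (ψ i) ∧ B.Full B' {i} (ψ i) := fun i => by
    obtain ⟨j, n, -⟩ := B.noiso i
    obtain ⟨Ψ, a, b, c, -⟩ := h i j n.symm
    have := b.restrict (.inl rfl : i ∈ ({i, j} : Set κ))
    rw [Full, Cmp_congr c] at this
    exact ⟨(a.restrict (.inl rfl)).congr c, this⟩
  have h2 : ∀ i j, ∃ Ψ, B.Iso B' {i, j} Ψ ∧ B.Full B' {i, j} Ψ ∧ (∀ k ∈ ({i, j} : Set κ), Set.EqOn Ψ (ψ k) (B.Res {k})) :=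
    fun i j => by
    by_cases e : i = j
    · rw [← e, Set.pair_eq_singleton]
      exact ⟨_, (h1 i).1, (h1 i).2, by rintro _ rfl; exact Set.eqOn_refl _ _⟩
    · obtain ⟨Ψ, a, b, c, d⟩ := h i j e
      exact ⟨Ψ, a, b, by rintro _ (rfl | rfl); exacts [c, d]⟩
  choose Ψ a b c using h2
  choose n n1 n2 using fun k => (h1 k).2.exists_n hM (h1 k).1
  have e : ∀ i j, ∀ k ∈ ({i, j} : Set κ), ∀ r ∈ R.sub {k}, B.Cmp G' {i, j} (Ψ i j) ⊓ (B.X r).prod (B'.X r) =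
      B.Cmp G' {k} (ψ k) ⊓ (B.X r).prod (B'.X r) := fun i j k hk r hr => by
    have s : {k} ⊆ ({i, j} : Set κ) := Set.singleton_subset_iff.2 hk
    refine ((b i j).gr (a i j) (R.sub_mono s hr)).eq_of_le ((h1 k).2.gr (h1 k).1 hr) fun d hd => ⟨?_, hd.2⟩
    rw [← Cmp_congr (c i j k hk)]
    exact Cmp_sub s hd.1 (X_le_L hr hd.2.1)
  obtain ⟨Z, z1, z2⟩ := GD.exists_Z (R := R) ⟨fun r => (B.X r).prod (B'.X r), fun m w => B.IsN m.1 w ∧ B'.IsN m.2 w,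
    fun i j => B.Cmp G' {i, j} (Ψ i j), n, ⟨isN_one_iff.2 (one_mem _), isN_one_iff.2 (one_mem _)⟩,
    fun x y => ⟨x.1.mul y.1, x.2.mul y.2⟩, fun x => ⟨x.1.inv, x.2.inv⟩, fun x y => ⟨x.1.conj_X.2 y.1, x.2.conj_X.2 y.2⟩, n2,
    fun i j k hk r hr => (e i j k hk r hr).trans (e k k k (.inl rfl) r hr).symm, fun k =>
      (iSup₂_mono fun r hr => (e k k k (.inl rfl) r hr).ge : _ ≤ _) (n1 k)⟩
  obtain ⟨Φ, f, -⟩ := exists_iso_of_gr hM hM' (J := Set.univ) (Y := Z) (fun r _ _ => by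
    obtain ⟨w, i, rfl⟩ := exists_simple (R := R) r
    obtain ⟨m, t, u⟩ := z2 w
    have s : R.simple i ∈ R.sub {i, i} := R.simple_mem_sub.2 (.inl rfl)
    exact Gr.conj (z1 i i _ s ▸ (b i i).gr (a i i) s) t.1 t.2 (u _)) fun r _ p s _ q ne y hy z hz => by
    obtain ⟨w, hw, i, j, hr, hs⟩ := R.exists_W_sub_pair r s
    obtain ⟨m, -, u⟩ := z2 ⟨w, hw⟩
    have := (b i j).comm hM hM' (a i j) hr hs (w.injective.ne ne) (fun e => (R.isPos_neg r).1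
      (w.injective (e.trans (RootSys.W_neg hw r).symm) ▸ q) p) (z1 i j _ hr ▸ (u r y).2 hy :) (z1 i j _ hs ▸ (u s z).2 hz :)
    have := (iSup₂_le fun k hk g hg => by
      obtain ⟨k, rfl⟩ := w.surjective k
      exact le_sup2 Z (by simpa using hk.W (⟨w, hw⟩ : R.W)⁻¹) ((u k _).1 (by simpa [mul_assoc, z1 i j _ (hk.sub hr hs)] using hg)) :
      _ ≤ (⨆ (k) (_ : QC R r s k), Z k).comap (MulAut.conj m⁻¹).toMonoidHom) this
    simpa [commutatorElement_def, mul_assoc] using this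
  exact f.equiv hM hM'

end Bld

end CL.TB
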