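/-
S1143 (Tits), Plane1: coordinates on a finite projective plane with a doubly transitive collineation group.
-/
import Cfsg.Agent.PERM.Plane4

set_option autoImplicit false
set_option linter.unusedSectionVars false

namespace CL.TB.Pln

open CL.SymDes Projectivization
open scoped MatrixGroups LinearAlgebra.Projectivization

variable {G P Y : Type*} [Group G] [Fintype P] [Fintype Y] [MulAction G P] [MulAction G Y] [Finite G]

theorem le_sup_iff {K V : Type*} [Field K] [AddCommGroup V] [Module K V] {u v w : V} (hu : u ≠ 0) (hv : v ≠ 0) (hw : w ≠ 0) :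
    (mk K w hw).submodule ≤ (mk K u hu).submodule ⊔ (mk K v hv).submodule ↔ ∃ a b : K, a • u + b • v = w := by
  simp only [submodule_mk]
  rw [Submodule.span_singleton_le_iff_mem, ← Submodule.span_insert, Submodule.mem_span_pair]

theorem card_PSL {F F' : Type*} [Field F] [Field F'] [Fintype F] [Fintype F'] (h : Nat.card F = Nat.card F') :
    Nat.card PSL(3, F) = Nat.card PSL(3, F') := by
  have h2 := CL.SL.card_SL_mul (F := F') 3 (by norm_num)
  have h3 := CL.SL.card_SL_mul (F := F) 3 (by norm_num)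
  rw [← Nat.card_eq_fintype_card] at h2 h3
  rw [h, ← h2, mul_right_inj' (by have : 1 < Nat.card F' := Finite.one_lt_card; omega), ← CL.SL.card_center_mul_card_PSL,
    ← CL.SL.card_center_mul_card_PSL, CL.SL.card_center_SL, CL.SL.card_center_SL, h] at h3
  exact mul_left_cancel₀ (by simp) h3

open scoped Classical in
theorem ow (π : Pl G P Y) (two : ∀ {a b c d : P}, a ≠ b → c ≠ d → ∃ g : G, g • a = c ∧ g • b = d) (x0 : P) :
    ∃ (F : Type) (_ : Field F) (_ : Fintype F) (e : P ≃ ℙ F (Fin 3 → F)),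
      (∀ {x y C}, x ≠ y → π.I x C → π.I y C → ∀ z, π.I z C ↔ (e z).submodule ≤ (e x).submodule ⊔ (e y).submodule) ∧
      (⨆ z, π.EC z).Normal ∧ ∃ φ : (⨆ z, π.EC z : Subgroup G) ≃* PSL(3, F), ∀ (a : (⨆ z, π.EC z : Subgroup G)) x, e ((a : G) • x) = φ a • e x := by
  have : FaithfulSMul G P := faithfulSMul_iff.2 π.faith
  obtain ⟨p, hp, S, hA, hL⟩ := Pl.exists_sys (π := π) two x0
  have := Fact.mk hp
  obtain ⟨F, _, _, n, e, hn, he, hφ⟩ := S.main
  have key : ∀ {x y C}, x ≠ y → π.I x C → π.I y C →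
      ∀ z, π.I z C ↔ (e z).submodule ≤ (e x).submodule ⊔ (e y).submodule :=
    fun h hx hy z => (hL h hx hy z).symm.trans (he _ _ _ h)
  obtain rfl : n = 3 := by
    by_contra h3
    obtain ⟨m, rfl⟩ : ∃ m, n = m + 4 := ⟨n - 4, by omega⟩
    let Q : Fin (m + 4) → P := fun i => e.symm (mk F (Pi.single i 1) (by simp))
    have h1 : ∀ i j, i ≠ j → ∃ C, ∀ z, π.I z C → ∀ k, k ≠ i → k ≠ j → (e z).rep k = 0 := by
      intro i j hij
      have h2 : Q i ≠ Q j := fun h => by
        obtain ⟨a, ha⟩ := (mk_eq_mk_iff' _ _ _ _ _).1 (e.symm.injective h)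
        simpa [hij] using congrFun ha i
      obtain ⟨C, h4, h5⟩ := π.exists_join h2
      refine ⟨C, fun z hz k hi hj => ?_⟩
      have := (key h2 h4 h5 z).1 hz
      simp only [Q, Equiv.apply_symm_apply] at this
      rw [← mk_rep (e z), le_sup_iff] at this
      obtain ⟨a, b, h6⟩ := this
      simp [← h6, hi, hj]
    obtain ⟨B, hB⟩ := h1 0 1 (by simp)
    obtain ⟨C, hC⟩ := h1 ⟨2, by omega⟩ ⟨3, by omega⟩ (by simp)
    obtain ⟨z, h4, h5⟩ : ∃ z, π.I z B ∧ π.I z C := by
      by_cases h : B = C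
      · obtain ⟨z, hz, -⟩ := π.exists_pt B x0 x0
        exact ⟨z, hz, h ▸ hz⟩
      · exact π.exists_meet h
    refine (e z).rep_nonzero (funext fun k => ?_)
    by_cases hk : k = 0 ∨ k = 1
    · refine hC z h5 k ?_ ?_ <;> rcases hk with rfl | rfl <;> simp [Fin.ext_iff]
    · exact hB z h4 k (not_or.1 hk).1 (not_or.1 hk).2
  have hn := S.normal_iSup
  rw [show S.A = π.EC from funext hA] at hn hφ
  exact ⟨F, inferInstance, inferInstance, e, key, hn, hφ⟩

/-- the plane with a smaller group -/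
def sub (π : Pl G P Y) (Γ : Subgroup G) : Pl Γ P Y :=
  { π with hI := fun g => π.hI g, faith := fun g h => Subtype.ext (π.faith g h) }

theorem coord (π : Pl G P Y) (Γ : Subgroup G) (two : ∀ {a b c d : P}, a ≠ b → c ≠ d → ∃ g ∈ Γ, g • a = c ∧ g • b = d)
    (p : Fin 3 → P) {l : Y} (h01 : p 0 ≠ p 1) (h0 : π.I (p 0) l) (h1 : π.I (p 1) l) (h2 : ¬ π.I (p 2) l) :
    ∃ (F : Type) (_ : Field F) (_ : Finite F) (e : P ≃ ℙ F (Fin 3 → F)) (ψ : SL(3, F) →* G),
      (∀ {x y C}, x ≠ y → π.I x C → π.I y C → ∀ z, π.I z C ↔ (e z).submodule ≤ (e x).submodule ⊔ (e y).submodule) ∧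
      (∀ A, ψ A ∈ Γ) ∧ ψ.range.Normal ∧ (∀ A x, e (ψ A • x) = A • e x) ∧ ∀ a, e (p a) = mk F (Pi.single a 1) (by simp) := by
  obtain ⟨F, _, _, e, he, hn, φ, hφ⟩ := ow π (fun h h' => (two h h').imp fun _ h => h.2) (p 0)
  obtain ⟨F', _, _, e', -, -, φ', -⟩ := ow (sub π Γ) (fun h h' => let ⟨g, hg, h⟩ := two h h'; ⟨⟨g, hg⟩, h⟩) (p 0)
  have hc : Nat.card F = Nat.card F' := by
    have := (Nat.card_congr e).symm.trans (Nat.card_congr e')
    rw [card_of_finrank F _ (n := 3) (by simp), card_of_finrank F' _ (n := 3) (by simp)] at this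
    simp only [Finset.sum_range_succ, Finset.range_zero, Finset.sum_empty] at this
    rcases lt_trichotomy (Nat.card F) (Nat.card F') with h | h | h
    · nlinarith
    · exact h
    · nlinarith
  have hΓ : (⨆ z, π.EC z) ≤ Γ := by
    have : (⨆ z, (sub π Γ).EC z).map Γ.subtype = ⨆ z, π.EC z := Subgroup.eq_of_le_of_card_ge
      (Subgroup.map_le_iff_le_comap.2 (iSup_le fun z g ⟨h, a, ha, h'⟩ => Subgroup.mem_iSup_of_mem z
        ⟨Pl.mem_Cen.2 (Pl.mem_Cen.1 h), a, ha, Pl.mem_Ax.2 (Pl.mem_Ax.1 h')⟩))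
      (by rw [Subgroup.card_subtype, Nat.card_congr φ.toEquiv, Nat.card_congr φ'.toEquiv, card_PSL hc])
    exact this ▸ Subgroup.map_subtype_le _
  let ψ : SL(3, F) →* G := (⨆ z, π.EC z).subtype.comp (φ.symm.toMonoidHom.comp (QuotientGroup.mk' _))
  have hψ : ∀ A x, e (ψ A • x) = A • e x := fun A x => (hφ _ x).trans (by simp; rfl)
  have hr : ψ.range = ⨆ z, π.EC z := by
    rw [MonoidHom.range_comp, MonoidHom.range_eq_top.2 (φ.symm.surjective.comp (QuotientGroup.mk'_surjective _)), ← MonoidHom.range_eq_map,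
      Subgroup.range_subtype]
  let M : Matrix (Fin 3) (Fin 3) F := Matrix.of fun i a => (e (p a)).rep i
  have hM : M.det ≠ 0 := fun h => by
    obtain ⟨v, hv, h⟩ := Matrix.exists_mulVec_eq_zero_iff.2 h
    replace h : v 0 • (e (p 0)).rep + v 1 • (e (p 1)).rep + v 2 • (e (p 2)).rep = 0 := by
      rw [← h]
      ext i
      simp [M, Matrix.mulVec, dotProduct, Fin.sum_univ_three, mul_comm]
    have v2 : v 2 = 0 := by
      by_contra k
      refine h2 ((he h01 h0 h1 _).2 ?_)
      rw [← mk_rep (e (p 2)), ← mk_rep (e (p 0)), ← mk_rep (e (p 1)), le_sup_iff]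
      exact ⟨-v 0 / v 2, -v 1 / v 2, smul_right_injective _ k (by
        simp only [smul_add, smul_smul, mul_div_cancel₀ _ k]
        linear_combination (norm := module) -h)⟩
    rw [v2, zero_smul, add_zero] at h
    by_cases v0 : v 0 = 0
    · rw [v0, zero_smul, zero_add, smul_eq_zero_iff_left (rep_nonzero _)] at h
      exact hv (funext fun i => by fin_cases i <;> assumption)
    · refine h01 (e.injective ?_)
      rw [← mk_rep (e (p 0)), ← mk_rep (e (p 1)), mk_eq_mk_iff']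
      exact ⟨-v 1 / v 0, smul_right_injective _ v0 (by
        simp only [smul_smul, mul_div_cancel₀ _ v0]
        linear_combination (norm := module) -h)⟩
  let T : SL(3, F) := ⟨M * Matrix.diagonal ![M.det⁻¹, 1, 1], by simp [Fin.prod_univ_three, hM]⟩
  refine ⟨F, inferInstance, inferInstance, (MulAction.toPerm (ψ T)⁻¹).trans e, (MulAut.conj (ψ T)).toMonoidHom.comp ψ,
    fun h hx hy z => ?_, fun A => hΓ (hr ▸ ⟨T * A * T⁻¹, by simp⟩), ?_, fun A x => by simp [mul_smul, hψ], fun a => ?_⟩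
  · exact (π.hI _ _ _).symm.trans (he ((MulAction.injective _).ne h) (π.smul_I _ hx) (π.smul_I _ hy) _)
  · rw [MonoidHom.range_comp, hr]
    exact hn.map _ (MulAut.conj _).surjective
  · simp only [Equiv.trans_apply, MulAction.toPerm_apply, ← map_inv, hψ, inv_smul_eq_iff, smul_mk]
    rw [← mk_rep (e (p a)), eq_comm, mk_eq_mk_iff']
    refine ⟨![M.det⁻¹, 1, 1] a, funext fun i => ?_⟩
    change _ = Matrix.mulVec T.1 _ i
    simp [T, M, mul_comm]

omit [Finite G] in
/-- the action on the flags -/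
theorem flags (π : Pl G P Y) {C : Type*} (pt : C → P) (ln : C → Y) (hI : ∀ x L, π.I x L ↔ ∃ y, pt y = x ∧ ln y = L)
    (inj : ∀ y z, pt y = pt z → ln y = ln z → y = z) :
    ∃ ρ : G →* Equiv.Perm C, ∀ a y, pt (ρ a y) = a • pt y ∧ ln (ρ a y) = a • ln y := by
  choose f h1 h2 using fun (a : G) y => (hI _ _).1 (π.smul_I a ((hI _ _).2 ⟨y, rfl, rfl⟩))
  let _ : MulAction G C :=
    { smul := f
      one_smul := fun y => inj _ _ ((h1 1 y).trans (one_smul _ _)) ((h2 1 y).trans (one_smul _ _))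
      mul_smul := fun a b y => inj (f _ _) (f _ (f _ _)) (by rw [h1, h1, h1, mul_smul]) (by rw [h2, h2, h2, mul_smul]) }
  exact ⟨MulAction.toPermHom G C, fun a y => ⟨h1 a y, h2 a y⟩⟩

end CL.TB.Pln
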