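/-
S1143 (Tits), Plane: the residue of a simple edge is a Desarguesian plane.
-/
import Cfsg.Agent.CHEV.TB.Levi
import Cfsg.Agent.CHEV.TB.Plane1

set_option autoImplicit false
set_option linter.unusedSectionVars false

namespace CL.TB

open CL.Chev
open scoped MatrixGroups commutatorElement

namespace Pln

open CL.SymDes
open Projectivization hiding ind
open scoped Pointwise LinearAlgebra.Projectivization Classical

variable {ι κ G Ω : Type*} [Fintype κ] [DecidableEq κ] [Finite ι] {R : RootSys ι κ} [Group G] [MulAction G Ω]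
  [Finite G] [Finite Ω] (B : Bld R G Ω) (J : Set κ) {i j : κ}

/-- the `k`-panels of the residue -/
def Pn (k : κ) : Type _ := {S : Set Ω // ∃ y ∈ B.Res J, B.pan y k = S}

noncomputable instance instFintypePn (k : κ) : Fintype (Pn B J k) := @Fintype.ofFinite _ Subtype.finite

variable {B J}

/-- the `k`-panel of a chamber -/
def pn (k : κ) (y : B.Res J) : Pn B J k := ⟨B.pan y k, y, y.2, rfl⟩

theorem pn_eq {k : κ} {y z : B.Res J} : pn k y = pn k z ↔ z.1 ∈ B.pan y k :=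
  ⟨fun e => (show B.pan y k = B.pan z k from congrArg Subtype.val e) ▸ B.self_mem_pan _ k, fun h => Subtype.ext (B.pan_eq h).symm⟩

theorem pn_surj {k : κ} (x : Pn B J k) : ∃ y, pn k y = x := let ⟨_, y, h, e⟩ := x; ⟨⟨y, h⟩, Subtype.ext e⟩

theorem pn_inj (h : i ≠ j) (y z : B.Res J) (h1 : pn j y = pn j z) (h2 : pn i y = pn i z) : y = z := by
  rcases pn_eq.1 h1 with e | e
  · exact (Subtype.ext e).symm
  · exact ((pn_eq.1 h2).elim Subtype.ext fun e' => (h (R.sW_injective (e'.symm.trans e))).elim).symm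

theorem count (h : i ≠ j) (hi : i ∈ J) (L : Pn B J i) : ∑ x, ind (∃ y, pn j y = x ∧ pn i y = L) = B.q i + 1 := by
  obtain ⟨y, rfl⟩ := pn_surj L
  rw [sum_ind_card, ← Nat.cast_add_one, ← B.ncard_pan y i, ← Nat.card_coe_set_eq, eq_comm, Nat.cast_inj]
  refine Nat.card_eq_of_bijective (fun z => ⟨pn j ⟨z, B.pan_subset_res y.2 hi z.2⟩, _, rfl, (pn_eq.2 z.2).symm⟩)
    ⟨fun a b e => Subtype.ext (congrArg Subtype.val (pn_inj h _ _ (congrArg Subtype.val e)
      ((pn_eq.2 a.2).symm.trans ((pn_eq (z := ⟨b.1, B.pan_subset_res y.2 hi b.2⟩)).2 b.2))) :), ?_⟩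
  rintro ⟨_, z, rfl, e⟩
  exact ⟨⟨z, pn_eq.1 e.symm⟩, rfl⟩

theorem ne4 (h : E3 R i j) {w : R.W} (h1 : w = R.sW i * R.sW j ∨ w = R.sW i) (h2 : w = R.sW j * R.sW i ∨ w = R.sW j) : False := by
  have n : R.sW i ≠ R.sW j := R.sW_injective.ne h.ne
  rcases h1 with rfl | rfl <;> rcases h2 with e | e
  · have := h.braid
    rw [e, WD.mul_sW_sW, mul_assoc, e, ← mul_assoc, sW_mul_self, one_mul] at this
    exact n this.symm
  · exact sW_ne_one i (mul_eq_right.1 e)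
  · exact sW_ne_one j (right_eq_mul.1 e)
  · exact n e

theorem join (h : E3 R i j) (x y : Pn B {i, j} j) : ∃ a b, pn j a = x ∧ pn j b = y ∧ pn i a = pn i b := by
  obtain ⟨a, rfl⟩ := pn_surj x
  obtain ⟨b, rfl⟩ := pn_surj y
  obtain ⟨b', b1, b2⟩ := B.wd3 a b j
  obtain ⟨a', a1, a2⟩ := B.wd3L a b j
  obtain ⟨a'', a3, a4⟩ := B.wd3L a b' j
  have m : ∀ {a : B.Res {i, j}} {b}, B.δ a b = R.sW j → b ∈ B.Res {i, j} := fun {a b} e => B.pan_subset_res a.2 (.inr rfl) (.inr e)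
  rcases h.mem_WJ.1 (B.δ_mem_of_res a.2 b.2) with e | e | e | e | e | e
  · exact ⟨a, a, rfl, pn_eq.2 (.inl ((B.δ_eq_one _ _).1 e).symm), rfl⟩
  · exact ⟨a, b, rfl, rfl, pn_eq.2 (.inr e)⟩
  · exact ⟨a, a, rfl, pn_eq.2 (.inr e), rfl⟩
  · exact ⟨a, ⟨b', m b1⟩, rfl, (pn_eq.2 (.inr b1)).symm, pn_eq.2 (.inr (by rw [b2, e, WD.mul_sW_sW]))⟩
  · exact ⟨⟨a', m a1⟩, b, (pn_eq.2 (.inr a1)).symm, rfl, pn_eq.2 (.inr (by rw [a2, e, ← mul_assoc, sW_mul_self, one_mul]))⟩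
  · exact ⟨⟨a'', m a3⟩, ⟨b', m b1⟩, (pn_eq.2 (.inr a3)).symm, (pn_eq.2 (.inr b1)).symm, pn_eq.2 (.inr (by
      rw [a4, b2, e, h.braid, WD.mul_sW_sW, ← mul_assoc, sW_mul_self, one_mul]))⟩

variable (B) in
/-- the plane -/
noncomputable def des (h : E3 R i j) : Des (Pn B {i, j} j) (Pn B {i, j} i) where
  I x L := ∃ y, pn j y = x ∧ pn i y = L
  k := B.q i + 1
  l := 1
  hk := count h.ne (Set.mem_insert _ _)
  hr x := by
    simp only [and_comm (a := pn j _ = x)]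
    rw [count h.ne.symm (.inr rfl), B.q_conj h.conj]
  hl {x y} hxy := by
    obtain ⟨a, b, rfl, rfl, e⟩ := join h x y
    rw [← sum_ind_eq' (pn i a)]
    refine Finset.sum_congr rfl fun C _ => congrArg ind (propext ⟨?_, by rintro rfl; exact ⟨⟨a, rfl, rfl⟩, b, rfl, e.symm⟩⟩)
    rintro ⟨⟨a', h1, rfl⟩, b', h2, h3⟩
    by_contra n
    have k : ∀ {k l} {a b : B.Res {i, j}}, pn k a = pn k b → pn l a ≠ pn l b → B.δ a b = R.sW k := fun e n =>
      (pn_eq.1 e).resolve_left fun e => n (congrArg _ (Subtype.ext e.symm))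
    have k1 := B.wd2 a b b' j (k h2.symm fun e' => n (h3.symm.trans (e'.symm.trans e.symm)))
    have k2 := B.wd2 a a' b' i (k h3.symm fun e' => hxy (h1.symm.trans (e'.trans h2)))
    rw [k e hxy] at k1
    rw [k h1.symm (Ne.symm n)] at k2
    exact ne4 h k1 k2
  card := by
    have h1 := Finset.sum_congr rfl fun L (_ : L ∈ Finset.univ) => count (B := B) (J := {i, j}) h.ne (.inl rfl) L
    have h2 := Finset.sum_congr rfl fun L (_ : L ∈ Finset.univ) => count (B := B) (J := {i, j}) h.ne.symm (.inr rfl) L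
    simp only [fun L (x : Pn B {i, j} i) y => and_comm (a := pn i y = x) (b := pn j y = L)] at h2
    rw [Finset.sum_comm, h1, B.q_conj h.conj] at h2
    simpa [show (B.q i : ℤ) + 1 ≠ 0 by omega] using h2
  lt := by have := B.two_le_q i; omega

/-- `g` induces the collineation `a` -/
def Ind (h : E3 R i j) (g : G) (a : (des B h).Aut) : Prop :=
  ∀ y z : B.Res {i, j}, g • y.1 = z.1 → a • pn j y = pn j z ∧ a • pn i y = pn i z

theorem exists_ind (h : E3 R i j) {g : G} (hg : ∀ y, g • y ∈ B.Res {i, j} ↔ y ∈ B.Res {i, j}) : ∃ a, Ind (B := B) h g a := by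
  have h1 : ∀ (g : G) y k, g • B.pan y k = B.pan (g • y) k := fun g y k => Set.ext fun z => by
    rw [Set.mem_smul_set_iff_inv_smul_mem, ← B.smul_mem_pan g, smul_inv_smul]
  let f : ∀ k, Equiv.Perm (Pn B {i, j} k) := fun k => (MulAction.toPerm g : Equiv.Perm (Set Ω)).subtypePerm fun S =>
    ⟨fun ⟨y, hy, e⟩ => ⟨g⁻¹ • y, (hg _).1 (by rwa [smul_inv_smul]), by rw [← h1, e]; exact inv_smul_smul _ _⟩,
      fun ⟨y, hy, e⟩ => ⟨g • y, (hg _).2 hy, by rw [← h1, e]; rfl⟩⟩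
  have h2 : ∀ k (y z : B.Res {i, j}), g • y.1 = z.1 → f k (pn k y) = pn k z := fun k y z e => Subtype.ext ((h1 g y k).trans (by rw [e]; rfl))
  refine ⟨⟨(f j, f i), fun x C => ⟨?_, ?_⟩⟩, fun y z e => ⟨h2 j y z e, h2 i y z e⟩⟩
  · rintro ⟨z, e1, e2⟩
    have k := fun k => h2 k ⟨g⁻¹ • z.1, (hg _).1 (by rw [smul_inv_smul]; exact z.2)⟩ z (smul_inv_smul _ _)
    exact ⟨_, (f j).injective ((k j).trans e1), (f i).injective ((k i).trans e2)⟩
  · rintro ⟨y, rfl, rfl⟩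
    exact ⟨⟨g • y.1, (hg _).2 y.2⟩, (h2 j _ _ rfl).symm, (h2 i _ _ rfl).symm⟩

/-- the collineations induced by the Levi subgroup -/
def Gam (h : E3 R i j) : Subgroup (des B h).Aut where
  carrier := {a | ∃ g ∈ B.L {i, j}, Ind h g a}
  one_mem' := ⟨1, one_mem _, fun y z e => by rw [one_smul] at e; simp [Subtype.ext e]⟩
  mul_mem' := fun ⟨g, hg, e⟩ ⟨g', hg', e'⟩ => ⟨g * g', mul_mem hg hg', fun y z k => by
    have k1 := e' y ⟨_, (Bld.L_res hg').2 y.2⟩ rfl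
    rw [mul_smul, mul_smul, k1.1, k1.2]
    exact e _ z (by rw [← k, mul_smul])⟩
  inv_mem' := fun ⟨g, hg, e⟩ => ⟨g⁻¹, inv_mem hg, fun y z k => by
    have k1 := e z y (by rw [← k, smul_inv_smul])
    rw [← k1.1, ← k1.2, inv_smul_smul, inv_smul_smul]
    exact ⟨rfl, rfl⟩⟩

theorem two (h : E3 R i j) {a b c d : Pn B {i, j} j} (h1 : a ≠ b) (h2 : c ≠ d) : ∃ g ∈ Gam (B := B) h, g • a = c ∧ g • b = d := by
  obtain ⟨a, b, rfl, rfl, e⟩ := join h a b
  obtain ⟨c, d, rfl, rfl, e'⟩ := join h c d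
  obtain ⟨g, hg, k1, k2⟩ := Bld.L_trans a.2 b.2 c.2 d.2 (((pn_eq.1 e).resolve_left fun e => h1 (congrArg _ (Subtype.ext e.symm))).trans
    ((pn_eq.1 e').resolve_left fun e => h2 (congrArg _ (Subtype.ext e.symm))).symm)
  obtain ⟨t, ht⟩ := exists_ind h fun _ => Bld.L_res hg
  exact ⟨t, ⟨g, hg, ht⟩, (ht _ _ k1).1, (ht _ _ k2).1⟩

theorem El_smul {K : Type*} [Field K] {a b : Fin 3} (h : a ≠ b) (t : K) (v : Fin 3 → K) : El a b t • v = v + Pi.single a (t * v b) := by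
  change Matrix.mulVec (El a b t).1 v = _
  rw [show (El a b t).1 = Matrix.transvection a b t from congrArg Subtype.val (dif_neg h), Matrix.transvection, Matrix.add_mulVec, Matrix.one_mulVec, Matrix.single_mulVec]
  rfl

theorem smul_single {K : Type*} [Field K] (A : SL(3, K)) (a l : Fin 3) : (A • (Pi.single a 1 : Fin 3 → K)) l = A l a := by
  change Matrix.mulVec A.1 _ l = _
  simp

theorem nEl_smul {K : Type*} [Field K] {a b : Fin 3} (h : a ≠ b) (c : Fin 3) :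
    ∃ t : K, t • Pi.single (Equiv.swap a b c) 1 = nEl a b (1 : K) • (Pi.single c 1 : Fin 3 → K) := by
  refine ⟨if c = a then -1 else 1, ?_⟩
  simp only [nEl, mul_smul, El_smul h, El_smul h.symm]
  ext k
  fin_cases a <;> fin_cases b <;> fin_cases c <;> fin_cases k <;> simp [Equiv.swap_apply_def] at h ⊢

end Pln

namespace Bld

variable {ι κ G Ω : Type*} [Fintype κ] [DecidableEq κ] [Finite ι] {R : RootSys ι κ} [Group G] [MulAction G Ω]
  [Finite G] [Finite Ω] [FaithfulSMul G Ω] {B : Bld R G Ω}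

open Pln CL.SymDes Projectivization Classical in
/-- `J = {i, j}`.  Points = `j`-panels, lines = `i`-panels in `Res J` (subtypes of `Set Ω`), incident iff they meet (in exactly one
chamber, as `s_i ≠ s_j`); `E3.mem_WJ` lists the distances: two distinct points have chambers at distance `s_i`
(for `δ x y = w`, change `x`, `y` inside their `j`-panels by `wd3`/`wd3L`: the double cosets of `⟨s_j⟩` are `{1, s_j}` and that of `s_i`),
so they lie on a line, which is unique; `q i = q j` (`q_conj`, `E3.conj`), `k = q + 1 ≥ 3`: a `CL.SymDes.Des` with `l = 1`, `π = D.pl`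
with the full group `D.Aut` (PERM/Plane3; it is faithful on points).  The stabiliser of `Res J` maps to `D.Aut` (`τ`); `Γ = τ (L J)` is
2-transitive on points (`L_trans`).  `Pl.exists_sys` + `ONan.Sys.main` for `D.Aut` give `K`, `e : points ≃ ℙ K (Fin n → K)`,
`φ : ⨆ A z ≃* PSL n K` equivariant, `n = 3` (as in `ostrom_wagner`), `S = ⨆ A z` normal in `D.Aut` (`normal_iSup`).  The same for the
subgroup `Γ` (a `Pl Γ ..` with the same `Des`) gives `S_Γ ≤ S` (elations of `Γ` are elations) isomorphic to `PSL 3 K'` with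
`|K'| = |K|` (number of points), so `|S_Γ| = |S|` and `S ≤ Γ`: this is `lift`; normality is `norm`.
The points `p₀ = pan (c 1) j`, `p₁ = pan (c s_i) j`, `p₂ = pan (c (s_j s_i)) j` are not collinear; compose `e` with `T ∈ GL₃(K)` (and `φ`
with conjugation by `T`) so that `e p_a = ⟨e_a⟩`.  A chamber of `Res J` is determined by (point, line) = (`pan y j`, `pan y i`), and a line
by two of its points; `ρ A` acts on `Res J` through `φ⁻¹ (mk A) ∈ D.Aut` and trivially elsewhere.  `c 1 = (p₀, p₀p₁)`,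
`c s_i = (p₁, p₀p₁)`, `c s_j = (p₀, p₀p₂)`, `c (s_i s_j) = (p₁, p₁p₂)`, `c (s_j s_i) = (p₂, p₀p₂)`, `c w_J = (p₂, p₁p₂)`. -/
theorem exists_A2 {i j : κ} (h : E3 R i j) : ∃ (K : Type) (_ : Field K) (_ : Finite K), Nonempty (A2 B i j K) := by
  let π := (des B h).pl rfl (by have := B.two_le_q i; change (3 : ℤ) ≤ B.q i + 1; omega)
  have mi : (R.sW i).1 ∈ R.WJ {i, j} := R.sp_mem_WJ (.inl rfl)
  have mj : (R.sW j).1 ∈ R.WJ {i, j} := R.sp_mem_WJ (.inr rfl)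
  let c : ∀ v : R.W, v.1 ∈ R.WJ {i, j} → B.Res {i, j} := fun v hv => ⟨B.c v, B.c_mem_Res.2 hv⟩
  have cs : ∀ k v hv hk, pn k (c v hv) = pn k (c (v * R.sW k) (mul_mem hv hk)) := fun k v _ _ => pn_eq.2 (B.c_mem_pan v k)
  let p : Fin 3 → Pn B {i, j} j := ![pn j (c 1 (one_mem _)), pn j (c _ mi), pn j (c (R.sW j * R.sW i) (mul_mem mj mi))]
  have I : ∀ y, π.I (pn j y) (pn i y) := fun y => ⟨y, rfl, rfl⟩
  have δ1 : ∀ v, B.δ (B.c 1) (B.c v) = v := fun v => by rw [B.δ_c, inv_one, one_mul]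
  have c1 : ∀ k hv, pn k (c 1 (one_mem _)) = pn k (c (R.sW k) hv) := fun k _ => pn_eq.2 (.inr (δ1 _))
  have I1 : π.I (p 1) (pn i (c 1 (one_mem _))) := ⟨_, rfl, (c1 i mi).symm⟩
  obtain ⟨K, _, _, e, ψ, he, hΓ, hn, hψ, hp⟩ := coord π (Gam h) (two h) p (l := pn i (c 1 (one_mem _))) (fun e => by
      rcases pn_eq.1 e with e | e
      exacts [sW_ne_one i (B.c_injective e), h.ne (R.sW_injective ((δ1 _).symm.trans e))]) (I _) I1 (by
    rintro ⟨z, e1, e2⟩
    have k : B.δ (B.c 1) (B.c (R.sW j * R.sW i)) = B.δ (B.c 1) z * R.sW j ∨ _ = B.δ (B.c 1) z :=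
      (pn_eq.1 e1).elim (fun e => .inr (congrArg _ e)) (B.wd2 _ _ _ j)
    rw [δ1] at k
    rcases pn_eq.1 e2.symm with e | e
    · rw [e, δ1] at k
      exact k.elim (fun k => sW_ne_one i (by simpa using k)) fun k => ne4 h (.inr rfl) (.inr
        ((eq_inv_of_mul_eq_one_right k).trans (WD.sW_inv j)))
    · rw [show B.δ (B.c 1) z = _ from e] at k
      exact ne4 h k (.inl rfl))
  obtain ⟨ρ, hρ⟩ := flags π (pn j) (pn i) (fun _ _ => Iff.rfl) (pn_inj h.ne)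
  have pne : ∀ {a b}, a ≠ b → p a ≠ p b := fun {a b} n k => by
    obtain ⟨t, ht⟩ := (mk_eq_mk_iff' _ _ _ _ _).1 ((hp a).symm.trans ((congrArg e k).trans (hp b)))
    simpa [n] using congrFun ht a
  have act : ∀ A (y y' : B.Res {i, j}) x, ψ A • pn j y = pn j y' → x ≠ pn j y → π.I x (pn i y) → π.I (ψ A • x) (pn i y') →
      Equiv.Perm.ofSubtype (ρ (ψ A)) y.1 = y'.1 := fun A y y' x h1 h2 h3 h4 => by
    rw [Equiv.Perm.ofSubtype_apply_coe, pn_inj h.ne _ y' ((hρ _ _).1.trans h1) ((hρ _ _).2.trans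
      (π.join_eq ((MulAction.injective _).ne h2) (π.smul_I _ h3) (π.smul_I _ (I y)) h4 (h1 ▸ I y')))]
  have ind : ∀ g a, Ind h g a → (∀ y, g • y ∈ B.Res {i, j} ↔ y ∈ B.Res {i, j}) → ∀ y : B.Res {i, j}, g • y.1 = (ρ a y).1 :=
    fun g a k hg y => congrArg Subtype.val (pn_inj h.ne ⟨_, (hg _).2 y.2⟩ _ ((k y _ rfl).1.symm.trans (hρ a y).1.symm)
      ((k y _ rfl).2.symm.trans (hρ a y).2.symm))
  have sm : ∀ A a x, ψ A • p a = x ↔ ∃ t : K, t • (e x).rep = A • (Pi.single a 1 : Fin 3 → K) := fun A a x => by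
    rw [← e.injective.eq_iff, hψ, hp, smul_mk, ← mk_rep (e x), mk_eq_mk_iff', mk_rep]
  have sm' : ∀ A a b, ψ A • p a = p b ↔ ∃ t : K, t • Pi.single b 1 = A • (Pi.single a 1 : Fin 3 → K) := fun A a b => by
    rw [← e.injective.eq_iff, hψ, hp, hp, smul_mk, mk_eq_mk_iff']
  have l01 : ∀ z v hv, e z = .mk K v hv → (π.I z (pn i (c 1 (one_mem _))) ↔ v 2 = 0) := fun z v hv k => by
    rw [he (pne zero_ne_one) (I _) I1, hp, hp, k, Pln.le_sup_iff]
    exact ⟨by rintro ⟨a, b, rfl⟩; simp, fun k => ⟨v 0, v 1, by ext l; fin_cases l <;> simp [k]⟩⟩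
  let Ch : R.W → Fin 3 → Fin 3 → Prop := fun v a b => ∃ hv, pn j (c v hv) = p a ∧ π.I (p b) (pn i (c v hv)) ∧ a ≠ b
  have nn : ∀ {a b a' b' v v'} (k l), k ≠ l → Ch v a b → Ch v' a' b' → Equiv.swap k l a = a' → Equiv.swap k l b = b' →
      Equiv.Perm.ofSubtype (ρ (ψ (nEl k l 1))) (B.c v) = B.c v' := by
    rintro a b _ _ v v' k l kl ⟨hv, h1, h2, n⟩ ⟨hv', h3, h4, -⟩ rfl rfl
    exact act _ (c v hv) (c v' hv') (p b) (by rw [h1, h3, sm']; exact nEl_smul kl a) (h1 ▸ pne n.symm) h2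
      (((sm' _ _ _).2 (nEl_smul kl b)).symm ▸ h4)
  have C1 : Ch 1 0 1 := ⟨one_mem _, rfl, I1, by decide⟩
  have C2 : Ch (R.sW i) 1 0 := ⟨mi, rfl, ⟨_, rfl, c1 i mi⟩, by decide⟩
  have C3 : Ch (R.sW j) 0 2 := ⟨mj, (c1 j mj).symm, ⟨_, rfl, (cs i _ mj mi).symm⟩, by decide⟩
  have C5 : Ch (R.sW j * R.sW i) 2 0 := ⟨mul_mem mj mi, rfl, ⟨c _ mj, (c1 j mj).symm, cs i _ mj mi⟩, by decide⟩
  have p2 : pn j (c (R.sW i * R.sW j * R.sW i) (mul_mem (mul_mem mi mj) mi)) = p 2 :=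
    (pn_eq.2 (show B.c _ ∈ _ from h.braid ▸ B.c_mem_pan _ j)).symm
  have C4 : Ch (R.sW i * R.sW j) 1 2 := ⟨mul_mem mi mj, (cs j _ mi mj).symm, ⟨_, p2, (cs i _ (mul_mem mi mj) mi).symm⟩, by decide⟩
  have C6 : Ch (R.sW i * R.sW j * R.sW i) 2 1 := ⟨mul_mem (mul_mem mi mj) mi, p2, ⟨_, (cs j _ mi mj).symm, cs i _ (mul_mem mi mj) mi⟩, by decide⟩
  refine ⟨K, inferInstance, inferInstance, ⟨⟨Equiv.Perm.ofSubtype.comp (ρ.comp ψ), fun A => ?_, fun g hg A => ?_, fun A => ?_,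
    fun v hv => ?_, fun v hv => ?_, fun y hy => ?_, fun y hy => ?_⟩⟩⟩
  · obtain ⟨g, hg, k⟩ := hΓ A
    exact ⟨g, hg, fun y hy => (ind g _ k (fun _ => L_res hg) ⟨y, hy⟩).trans (Equiv.Perm.ofSubtype_apply_coe _ _).symm⟩
  · have hg' : ∀ y, g • y ∈ B.Res {i, j} ↔ y ∈ B.Res {i, j} := fun y =>
      B.smul_mem_Res_of (B.self_mem_res _ _) (hg.symm ▸ B.self_mem_res _ _)
    obtain ⟨t, ht⟩ := exists_ind h hg'
    obtain ⟨A', hA⟩ := hn.conj_mem _ ⟨A, rfl⟩ t
    refine ⟨A', fun y hy => ?_⟩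
    have k := ind g t ht hg'
    simp only [MonoidHom.comp_apply]
    rw [Equiv.Perm.ofSubtype_apply_coe _ ⟨y, hy⟩, k, show g • y = _ from k ⟨y, hy⟩, Equiv.Perm.ofSubtype_apply_coe, hA]
    simp
  · constructor
    · intro k
      replace k : ρ (ψ A) (c 1 (one_mem _)) = c 1 (one_mem _) := Subtype.ext ((Equiv.Perm.ofSubtype_apply_coe _ _).symm.trans k)
      obtain ⟨k1, k2⟩ := hρ (ψ A) (c 1 (one_mem _))
      rw [k] at k1 k2
      obtain ⟨t, ht⟩ := (sm' A 0 0).1 k1.symm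
      have := (l01 (ψ A • p 1) _ _ (by rw [hψ, hp, smul_mk])).1 (k2 ▸ π.smul_I (ψ A) I1)
      exact ⟨by simpa [smul_single] using (congrFun ht 1).symm, by simpa [smul_single] using (congrFun ht 2).symm,
        smul_single A 1 2 ▸ this⟩
    · rintro ⟨k1, k2, k3⟩
      exact act A (c 1 (one_mem _)) (c 1 (one_mem _)) (p 1) ((sm' A 0 0).2 ⟨A 0 0, by ext l; fin_cases l <;> simp [smul_single, k1, k2]⟩)
        (pne one_ne_zero) I1 ((l01 _ _ _ (by rw [hψ, hp, smul_mk])).2 ((smul_single A 1 2).trans k3))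
  · rcases h.mem_WJ.1 hv with rfl | rfl | rfl | rfl | rfl | rfl <;> try simp only [← mul_assoc, sW_mul_self, one_mul, mul_one]
    exacts [nn 0 1 (by decide) C1 C2 (by decide) (by decide), nn 0 1 (by decide) C2 C1 (by decide) (by decide),
      nn 0 1 (by decide) C3 C4 (by decide) (by decide), nn 0 1 (by decide) C4 C3 (by decide) (by decide),
      nn 0 1 (by decide) C5 C6 (by decide) (by decide), nn 0 1 (by decide) C6 C5 (by decide) (by decide)]
  · rcases h.mem_WJ.1 hv with rfl | rfl | rfl | rfl | rfl | rfl <;>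
      try simp only [← mul_assoc, sW_mul_self, one_mul, mul_one, ← h.braid, WD.mul_sW_sW]
    exacts [nn 1 2 (by decide) C1 C3 (by decide) (by decide), nn 1 2 (by decide) C2 C5 (by decide) (by decide),
      nn 1 2 (by decide) C3 C1 (by decide) (by decide), nn 1 2 (by decide) C4 C6 (by decide) (by decide),
      nn 1 2 (by decide) C5 C2 (by decide) (by decide), nn 1 2 (by decide) C6 C4 (by decide) (by decide)]
  · let y' : B.Res {i, j} := ⟨y, B.pan_subset_res (B.self_mem_res _ _) (.inl rfl) (.inr hy)⟩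
    have k : pn i (c 1 (one_mem _)) = pn i y' := pn_eq.2 (.inr hy)
    have k2 := (l01 _ _ _ (mk_rep _).symm).1 (k ▸ I y')
    have k1 : (e (pn j y')).rep 1 ≠ 0 := fun k1 => B.ne_of_δ hy (congrArg Subtype.val (pn_inj h.ne _ y' ((one_smul _ _).symm.trans (by
      rw [← map_one ψ]
      refine (sm 1 0 _).2 ⟨((e (pn j y')).rep 0)⁻¹, ?_⟩
      have : (e (pn j y')).rep 0 ≠ 0 := fun k0 => rep_nonzero (e (pn j y')) (funext fun l => by fin_cases l <;> assumption)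
      ext l
      fin_cases l <;> simp [*])) k))
    refine ⟨(e (pn j y')).rep 0 / (e (pn j y')).rep 1, (act _ (c _ mi) y' (p 0) ((sm _ 1 _).2 ⟨((e (pn j y')).rep 1)⁻¹, ?_⟩)
      (pne zero_ne_one) ⟨_, rfl, c1 i mi⟩ ?_).symm⟩
    · ext l
      fin_cases l <;> simp [El_smul, k1, k2, div_eq_inv_mul]
    · rw [(sm' _ 0 0).2 ⟨1, by simp [El_smul]⟩]
      exact ⟨_, rfl, k⟩
  · let y' : B.Res {i, j} := ⟨y, B.pan_subset_res (B.self_mem_res _ _) (.inr rfl) (.inr hy)⟩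
    have k : p 0 = pn j y' := pn_eq.2 (.inr hy)
    obtain ⟨x, hx, n, -⟩ := π.exists_pt (pn i y') (p 0) (p 0)
    have k2 : (e x).rep 2 ≠ 0 := fun k2 => B.ne_of_δ hy (congrArg Subtype.val (pn_inj h.ne _ y' k
      (π.join_eq n ((l01 _ _ _ (mk_rep _).symm).2 k2) (I _) hx (k ▸ I y'))))
    refine ⟨(e x).rep 1 / (e x).rep 2, (act _ (c _ mj) y' (p 2) ((c1 j mj) ▸ ((sm' _ 0 0).2 ⟨1, by simp [El_smul]⟩).trans k)
      ((c1 j mj) ▸ pne (show (2 : Fin 3) ≠ 0 by decide)) ⟨_, rfl, (cs i _ mj mi).symm⟩ ?_).symm⟩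
    rw [he n hx (k ▸ I y'), hψ, hp, hp, smul_mk, ← mk_rep (e x), Pln.le_sup_iff]
    refine ⟨((e x).rep 2)⁻¹, -((e x).rep 0 / (e x).rep 2), ?_⟩
    ext l
    fin_cases l <;> simp [El_smul, k2, div_eq_inv_mul]

end Bld

end CL.TB
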