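/-
S1143 (Tits), Asm: extension along simple edges and assembly.
-/
import Cfsg.Agent.CHEV.TB.GCT
import Cfsg.Agent.CHEV.TB.A2F
import Cfsg.Agent.CHEV.TB.Plane
import Cfsg.Agent.CHEV.TB.Hua
import Cfsg.Agent.CHEV.CTProd

set_option autoImplicit false
set_option linter.unusedSectionVars false
set_option maxHeartbeats 200000

namespace CL.TB

open CL.Chev
open scoped MatrixGroups commutatorElement

namespace Bld

variable {ι κ G Ω G' Ω' : Type*} [Fintype κ] [DecidableEq κ] [Finite ι] {R : RootSys ι κ}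
  [Group G] [MulAction G Ω] [Finite G] [Finite Ω] [FaithfulSMul G Ω] {B : Bld R G Ω}
  [Group G'] [MulAction G' Ω'] [Finite G'] [Finite Ω'] [FaithfulSMul G' Ω'] {B' : Bld R G' Ω'}

theorem _root_.CL.TB.E3.qc3 {i j : κ} (h : E3 R i j) {a b c : Fin 3} (h1 : a ≠ b) (h2 : b ≠ c) (h3 : a ≠ c) :
    QC R (rt3 R i j a b) (rt3 R i j b c) (rt3 R i j a c) :=
  ⟨1, 1, 1, one_pos, one_pos, one_pos, by rw [h.rt_rt3 h1, h.rt_rt3 h2, h.rt_rt3 h3]; module⟩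

theorem _root_.CL.TB.Par.inj' {i j : κ} {K : Type*} [Field K] {S : St3 K G} (hS : Par B i j S) {a b : Fin 3} (h : a ≠ b) :
    Function.Injective (S.x a b) := fun t u e =>
  sub_eq_zero.1 (hS.inj a b h _ (by rw [sub_eq_add_neg, S.x_add a b h, S.x_neg h, e, mul_inv_cancel]))

theorem Iso.eqOn_pan (hM : ∀ i, B.Mouf i) {J : Set κ} {Ψ ψ : Ω → Ω'} (a : B.Iso B' J Ψ) {k : κ} (hk : k ∈ J) (b : B.Iso B' {k} ψ)
    (h : ∀ x ∈ B.X (R.simple k), ∃ x', (x, x') ∈ B.Cmp G' J Ψ ∧ (x, x') ∈ B.Cmp G' {k} ψ) : Set.EqOn Ψ ψ (B.Res {k}) := fun y hy => by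
  rcases (B.Res_singleton k).le hy with rfl | hy
  · rw [a.c_eq 1 (one_mem _), b.c_eq 1 (one_mem _)]
  obtain ⟨x, hx, rfl⟩ := hM k y hy
  obtain ⟨x', t1, t2⟩ := h x hx
  have s1 : (R.sW k).1 ∈ R.WJ {k} := R.sp_mem_WJ rfl
  have s2 : (R.sW k).1 ∈ R.WJ J := R.sp_mem_WJ hk
  rw [t1.2 _ (B.c_mem_Res.2 s2), t2.2 _ (B.c_mem_Res.2 s1), a.c_eq _ s2, b.c_eq _ s1]

theorem exists_theta {i j : κ} {K K' : Type*} [Field K] [Field K'] {S : St3 K G} {S' : St3 K' G'} (hS : Par B i j S)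
    (hS' : Par B' i j S') {a b : Fin 3} (h : a ≠ b) {Y : Subgroup (G × G')} (hY : B.Gr B' (rt3 R i j a b) Y) :
    ∃ θ : K →+ K', Function.Bijective θ ∧ ∀ t, (S.x a b t, S'.x a b (θ t)) ∈ Y := by
  have : ∀ t, ∃ u, (S.x a b t, S'.x a b u) ∈ Y := fun t => by
    obtain ⟨x, hx⟩ := hY.onto _ ((hS.mem a b h _).2 ⟨t, rfl⟩)
    obtain ⟨u, rfl⟩ := (hS'.mem a b h x).1 (hY.le _ hx).2
    exact ⟨u, hx⟩
  choose θ hθ using this
  have k : ∀ {t t' u u'}, (S.x a b t, S'.x a b u) ∈ Y → (S.x a b t', S'.x a b u') ∈ Y → (t = t' ↔ u = u') := fun x y =>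
    ((hS.inj' h).eq_iff.symm.trans inv_mul_eq_one.symm).trans ((hY.inj _ (mul_mem (inv_mem x) y)).trans
      (inv_mul_eq_one.trans (hS'.inj' h).eq_iff))
  refine ⟨AddMonoidHom.mk' θ fun t u => (k (hθ (t + u)) ?_).1 rfl, ⟨fun t u => (k (hθ t) (hθ u)).2, fun u => ?_⟩, hθ⟩
  · rw [S.x_add a b h, S'.x_add a b h]
    exact mul_mem (hθ t) (hθ u)
  · obtain ⟨x, hx⟩ := hY.onto' _ ((hS'.mem a b h _).2 ⟨u, rfl⟩)
    obtain ⟨t, rfl⟩ := (hS.mem a b h x).1 (hY.le _ hx).1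
    exact ⟨t, (k (hθ t) hx).1 rfl⟩

theorem _root_.CL.TB.Par.swap {i j : κ} {K : Type*} [Field K] {S : St3 K G} (hS : Par B i j S) {t : K} (ht : t ≠ 0) :
    S.x 0 1 t • B.c (R.sW i) = S.x 1 0 t⁻¹ • B.c 1 := by
  have e := hS.isN 0 1 (by decide) t ht (R.sW i)
  have p : Ps R (R.sW i) (R.neg (R.simple i)) := R.σ_simple i ▸ ps_simple (R.sW i) i
  rw [show rf R (rt3 R i j 0 1) = R.sW i from rf_simple i, sW_mul_self, St3.n, S.n_sym 0 1 (by decide) t ht, mul_smul, mul_smul,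
    (B.mem_X.1 ((hS.mem 1 0 (by decide) _).2 ⟨_, rfl⟩)).1 _ p, S.x_neg (by decide), inv_smul_eq_iff] at e
  exact e

theorem iso_of_par (hM : ∀ i, B.Mouf i) (hM' : ∀ i, B'.Mouf i) {i j : κ} (h : E3 R i j) {K K' : Type*} [Field K] [Field K']
    {S : St3 K G} {S' : St3 K' G'} (hS : Par B i j S) (hS' : Par B' i j S') (ρ : K ≃+* K') {c : K'} (hc : c ≠ 0) :
    ∃ Ψ, B.Iso B' {i, j} Ψ ∧ ∀ t, (S.x 0 1 t, S'.x 0 1 (c * ρ t)) ∈ B.Cmp G' {i, j} Ψ := by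
  obtain ⟨d, d0, d1, d2⟩ : ∃ d : Fin 3 → K', (∀ a, d a ≠ 0) ∧ d 0 = c ∧ d 1 = 1 := ⟨![c, 1, 1], by simp [Fin.forall_fin_succ, hc], rfl, rfl⟩
  let z : Fin 3 → Fin 3 → K → G × G' := fun a b t => (S.x a b t, S'.x a b (d a / d b * ρ t))
  obtain ⟨Y, hY⟩ : ∃ Y : ι → Subgroup (G × G'), ∀ a b, a ≠ b → ∀ g, g ∈ Y (rt3 R i j a b) ↔ ∃ t, z a b t = g :=
    ⟨Function.extend (fun p : {p : Fin 3 × Fin 3 // p.1 ≠ p.2} => rt3 R i j p.1.1 p.1.2) (fun p => (MonoidHom.mk'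
      (fun t : Multiplicative K => z p.1.1 p.1.2 t.toAdd) fun t u => Prod.ext (S.x_add _ _ p.2 _ _) (by
        rw [Prod.snd_mul, ← S'.x_add _ _ p.2, ← mul_add, ← map_add]; rfl)).range) ⊥, fun a b n g => by
      rw [Function.Injective.extend_apply (fun p q e => Subtype.ext (Prod.ext_iff.2 (h.rt3_inj p.2 q.2 e))) _ _ ⟨(a, b), n⟩]
      rfl⟩
  have cm : ∀ a b e, a ≠ b → a ≠ e → b ≠ e → ∀ t u, ⁅z a b t, z b e u⁆ ∈ Y (rt3 R i j a e) := fun a b e x y w t u =>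
    (hY a e y _).2 ⟨t * u, by
      rw [commutatorElement_def, eq_comm, mul_inv_eq_iff_eq_mul, mul_inv_eq_iff_eq_mul]
      refine Prod.ext (S.x_comm a b e x y w t u) ((S'.x_comm a b e x y w _ _).trans ?_)
      rw [show d a / d b * ρ t * (d b / d e * ρ u) = d a / d e * ρ (t * u) by rw [map_mul]; field_simp [d0 b, d0 e]]
      rfl⟩
  obtain ⟨Ψ, a, b⟩ := exists_iso_of_gr hM hM' (J := {i, j}) (Y := Y) (fun r hr _ => by
    obtain ⟨a, b, n, rfl⟩ := h.mem_sub.1 hr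
    have m : d a / d b ≠ 0 := div_ne_zero (d0 a) (d0 b)
    refine ⟨fun y hy => ?_, fun x hx => ?_, fun x hx => ?_, fun y hy => ?_⟩
    · obtain ⟨t, rfl⟩ := (hY a b n y).1 hy
      exact ⟨(hS.mem a b n _).2 ⟨_, rfl⟩, (hS'.mem a b n _).2 ⟨_, rfl⟩⟩
    · obtain ⟨t, rfl⟩ := (hS.mem a b n x).1 hx
      exact ⟨_, (hY a b n _).2 ⟨t, rfl⟩⟩
    · obtain ⟨t, rfl⟩ := (hS'.mem a b n x).1 hx
      exact ⟨_, (hY a b n _).2 ⟨ρ.symm ((d a / d b)⁻¹ * t), by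
        simp only [z, RingEquiv.apply_symm_apply, mul_inv_cancel_left₀ m]; rfl⟩⟩
    · obtain ⟨t, rfl⟩ := (hY a b n y).1 hy
      simp only [z, ← S.x_zero n, ← S'.x_zero n, (hS.inj' n).eq_iff, (hS'.inj' n).eq_iff, mul_eq_zero, m, false_or, map_eq_zero])
    fun r hr p s hs q ne y hy w hw => by
    obtain ⟨a, b, n, rfl⟩ := h.mem_sub.1 hr
    obtain ⟨e, f, m, rfl⟩ := h.mem_sub.1 hs
    obtain ⟨t, rfl⟩ := (hY a b n y).1 hy
    obtain ⟨u, rfl⟩ := (hY e f m w).1 hw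
    rcases (by decide : ∀ a b e f : Fin 3, a < b → e < f → (b = e ∧ a ≠ f) ∨ (f = a ∧ e ≠ b) ∨ a = e ∨ b = f) a b e f
      ((h.isPos_rt3 n).1 p) ((h.isPos_rt3 m).1 q) with ⟨rfl, k⟩ | ⟨rfl, k⟩ | rfl | rfl
    · exact le_sup2 Y (h.qc3 n m k) (cm _ _ _ n k m t u)
    · rw [← commutatorElement_inv]
      exact inv_mem (le_sup2 Y (h.qc3 m n k).symm (cm _ _ _ m k n u t))
    · rw [commutatorElement_eq_one_iff_commute.2 (show Commute (z _ _ _) (z _ _ _) from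
        Prod.ext (S.x_row _ _ _ n m _ _).eq (S'.x_row _ _ _ n m _ _).eq)]
      exact one_mem _
    · rw [commutatorElement_eq_one_iff_commute.2 (show Commute (z _ _ _) (z _ _ _) from
        Prod.ext (S.x_col _ _ _ n m _ _).eq (S'.x_col _ _ _ n m _ _).eq)]
      exact one_mem _
  exact ⟨Ψ, a, fun t => b (rt3 R i j 0 1) (R.simple_mem_sub.2 (.inl rfl)) (R.isPos_simple i)
    ((hY 0 1 (by decide) _).2 ⟨t, by simp only [z, d1, d2, div_one]⟩)⟩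

theorem start_A2 (hM : ∀ i, B.Mouf i) (hM' : ∀ i, B'.Mouf i) {i j : κ} (h : E3 R i j) (hq : B.q i = B'.q i) :
    ∃ Ψ, B.Iso B' {i, j} Ψ := by
  obtain ⟨K, _, _, ⟨P⟩⟩ := exists_A2 (B := B) h
  obtain ⟨K', _, _, ⟨P'⟩⟩ := exists_A2 (B := B') h
  obtain ⟨S, hS⟩ := P.exists_par h hM
  obtain ⟨S', hS'⟩ := P'.exists_par h hM'
  have := Fintype.ofFinite K
  have := Fintype.ofFinite K'
  exact (iso_of_par hM hM' h hS hS' (FiniteField.ringEquivOfCardEq (by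
    rw [← Nat.card_eq_fintype_card, ← Nat.card_eq_fintype_card, (P.card_K h).1, (P'.card_K h).1, hq])) one_ne_zero).imp fun _ k => k.1

theorem ext_A2 (hM : ∀ i, B.Mouf i) (hM' : ∀ i, B'.Mouf i) {i j : κ} (h : E3 R i j) {ψ : Ω → Ω'} (h1 : B.Iso B' {i} ψ)
    (f1 : B.Full B' {i} ψ) : ∃ Ψ, B.Iso B' {i, j} Ψ ∧ Set.EqOn Ψ ψ (B.Res {i}) := by
  obtain ⟨K, _, _, ⟨P⟩⟩ := exists_A2 (B := B) h
  obtain ⟨K', _, _, ⟨P'⟩⟩ := exists_A2 (B := B') h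
  obtain ⟨S, hS⟩ := P.exists_par h hM
  obtain ⟨S', hS'⟩ := P'.exists_par h hM'
  have p : R.simple i ∈ R.sub {i} := R.simple_mem_sub.2 rfl
  have s : (R.sW i).1 ∈ R.WJ {i} := R.sp_mem_WJ rfl
  obtain ⟨θ, b, e⟩ := exists_theta hS hS' (a := 0) (b := 1) (by decide) (f1.gr h1 p)
  obtain ⟨η, -, e'⟩ := exists_theta hS hS' (a := 1) (b := 0) (by decide) (f1.gr h1 (R.neg_mem_sub.2 p))
  have n : ∀ t, t ≠ 0 → θ t ≠ 0 := fun t => (map_ne_zero_iff θ b.1).2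
  have k : ∀ t, t ≠ 0 → η t⁻¹ = (θ t)⁻¹ := fun t ht => by
    have a := (e t).1.2 _ (B.c_mem_Res.2 s)
    rw [hS.swap ht, (e' _).1.2 _ (B.c_mem_Res.2 (one_mem _)), h1.c_eq _ s, h1.c_eq _ (one_mem _), hS'.swap (n t ht)] at a
    have m : ∀ t, S'.x 1 0 t ∈ B'.X (R.σ i (R.simple i)) := fun t => (R.σ_simple i).symm ▸ (hS'.mem 1 0 (by decide) _).2 ⟨t, rfl⟩
    exact hS'.inj' (by decide) (X_eq (w := R.sW i) (i := i) (m _) (m _) (by rw [B'.δ_c, mul_one, WD.sW_inv]) a)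
  have c := n 1 one_ne_zero
  have m := hua ((AddMonoidHom.mulLeft (θ 1)⁻¹).comp θ) ((AddMonoidHom.mulLeft (θ 1)).comp η) (inv_mul_cancel₀ c) fun t ht => by
    have := n t ht
    simp only [AddMonoidHom.comp_apply, AddMonoidHom.coe_mulLeft, k t ht]
    constructor <;> field_simp
  obtain ⟨Ψ, a, q⟩ := iso_of_par hM hM' h hS hS' { AddEquiv.ofBijective ((AddMonoidHom.mulLeft (θ 1)⁻¹).comp θ)
    ((mulLeft_bijective₀ _ (inv_ne_zero c)).comp b) with map_mul' := m } c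
  refine ⟨Ψ, a, a.eqOn_pan hM (.inl rfl) h1 fun x hx => ?_⟩
  obtain ⟨t, rfl⟩ := (hS.mem 0 1 (by decide) x).1 hx
  exact ⟨_, (mul_inv_cancel_left₀ c (θ t) ▸ q t :), (e t).1⟩

theorem assemble [IsSimpleGroup G] [IsSimpleGroup G'] (hM : ∀ i, B.Mouf i) (hM' : ∀ i, B'.Mouf i) {root a : κ}
    {par : κ → κ} {rk : κ → ℕ} (hT : Tree R root a par rk) {Ψ₀ : Ω → Ω'} (h0 : B.Iso B' {a, root} Ψ₀) :
    Nonempty (G ≃* G') := by
  have f0 := h0.full hM hM' hT.ne hT.A_a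
  obtain ⟨f, h1, h2⟩ := tree_choice (X := κ × (Ω → Ω'))
    (fun i x => x.1 = i ∧ B.Iso B' {i} x.2 ∧ B.Full B' {i} x.2 ∧ (i = root → x.2 = Ψ₀))
    (fun x y => ∃ Ψ, B.Iso B' {x.1, y.1} Ψ ∧ B.Full B' {x.1, y.1} Ψ ∧ Set.EqOn Ψ x.2 (B.Res {x.1}) ∧ Set.EqOn Ψ y.2 (B.Res {y.1}))
    root par rk hT.lt ⟨(root, Ψ₀), rfl, h0.restrict (.inr rfl), f0.restrict (.inr rfl), fun _ => rfl⟩ (by
    rintro i n ⟨_, ψ⟩ ⟨rfl, b, c, d⟩
    by_cases e : i = a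
    · subst e
      obtain rfl : ψ = Ψ₀ := d hT.par_a
      refine ⟨(i, ψ), ⟨rfl, h0.restrict (.inl rfl), f0.restrict (.inl rfl), fun _ => rfl⟩, ψ, ?_⟩
      rw [hT.par_a, Set.pair_comm]
      exact ⟨h0, f0, Set.eqOn_refl _ _, Set.eqOn_refl _ _⟩
    · have t := hT.edge i n e
      obtain ⟨Ψ, p, q⟩ := ext_A2 hM hM' t b c
      have r := p.full hM hM' t.ne (by rw [t.1]; decide)
      exact ⟨(i, Ψ), ⟨rfl, p.restrict (.inr rfl), r.restrict (.inr rfl), fun e => absurd e n⟩, Ψ, p, r, q, Set.eqOn_refl _ _⟩)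
  have : Nonempty κ := ⟨root⟩
  refine gct hM hM' (fun i => (f i).2) fun i j n => ?_
  by_cases e : R.A i j = 0
  · exact ext_zero hM hM' n e (h1 i).2.1 (h1 i).2.2.1 (h1 j).2.1 (h1 j).2.2.1
  rcases hT.adj i j n e with ⟨p, rfl⟩ | ⟨p, rfl⟩
  · obtain ⟨Ψ, k⟩ := h2 i p
    rw [(h1 _).1, (h1 _).1, Set.pair_comm] at k
    exact ⟨Ψ, k.1, k.2.1, k.2.2.2, k.2.2.1⟩
  · have k := h2 j p
    rwa [(h1 _).1, (h1 _).1] at k

end Bld

end CL.TB
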