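/-
S1143 (Tits), C3b: the C3 structure of a Moufang building.
-/
import Cfsg.Agent.CHEV.TB.A2F
import Cfsg.Agent.CHEV.TB.Plane
import Cfsg.Agent.CHEV.TB.Hua

set_option autoImplicit false
set_option linter.unusedSectionVars false
set_option maxHeartbeats 400000

namespace CL.TB

open CL.Chev
open scoped MatrixGroups commutatorElement

section roots
variable {ι κ : Type*} [Fintype κ] [DecidableEq κ] (R : RootSys ι κ) (a1 a2 b : κ)
/-- the roots `e_0, e_1, e_2` -/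
def eS : Fin 3 → ι := ![R.σ a1 (R.σ a2 (R.simple b)), R.σ a2 (R.simple b), R.simple b]
/-- the roots `e_a + e_b` -/
def eL : Fin 3 → Fin 3 → ι :=
  ![![R.simple b, R.σ a2 (R.σ a1 (R.σ b (R.simple a2))), R.σ a1 (R.σ b (R.simple a2))],
    ![R.σ a2 (R.σ a1 (R.σ b (R.simple a2))), R.simple b, R.σ b (R.simple a2)],
    ![R.σ a1 (R.σ b (R.simple a2)), R.σ b (R.simple a2), R.simple b]]
end roots

namespace C3b

/-- the unit vectors -/
def dl (a : Fin 3) : Fin 3 → ℤ := fun i => if i = a then 1 else 0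

/-- the roots of type `B₃` -/
def rts : List (Fin 3 → ℤ) := [![1, 0, 0], ![0, 1, 0], ![0, 0, 1], ![-1, 0, 0], ![0, -1, 0], ![0, 0, -1],
  ![1, 1, 0], ![1, -1, 0], ![-1, 1, 0], ![-1, -1, 0], ![1, 0, 1], ![1, 0, -1], ![-1, 0, 1], ![-1, 0, -1],
  ![0, 1, 1], ![0, 1, -1], ![0, -1, 1], ![0, -1, -1]]

/-- sign conditions for the open cone -/
def Cn (u v k : Fin 3 → ℤ) : Prop := k ≠ u ∧ k ≠ v ∧ ∀ i,
  (0 ≤ u i → 0 ≤ v i → 0 ≤ k i ∧ (k i = 0 → u i = 0 ∧ v i = 0)) ∧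
  (u i ≤ 0 → v i ≤ 0 → k i ≤ 0 ∧ (k i = 0 → u i = 0 ∧ v i = 0))

instance (u v k : Fin 3 → ℤ) : Decidable (Cn u v k) := by unfold Cn; infer_instance

variable {ι κ : Type*} [Fintype κ] [DecidableEq κ] [Finite ι] {R : RootSys ι κ} {a1 a2 b : κ}

variable (R a1 a2 b) in
/-- `r` is a root of the subsystem with coordinates `u` -/
structure Is (r : ι) (u : Fin 3 → ℤ) : Prop where
  mem : r ∈ R.sub {a1, a2, b}
  e0 : u 0 = R.rt r a1
  e1 : u 1 = R.rt r a2 - R.rt r a1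
  e2 : u 2 = R.rt r b - R.rt r a2

theorem Is.eq {r s : ι} {u : Fin 3 → ℤ} (h : Is R a1 a2 b r u) (h' : Is R a1 a2 b s u) : r = s := by
  refine R.rt_inj (funext fun i => ?_)
  have := h.e0; have := h.e1; have := h.e2; have := h'.e0; have := h'.e1; have := h'.e2
  by_cases hi : i ∈ ({a1, a2, b} : Set κ)
  · rcases hi with rfl | rfl | rfl <;> omega
  · rw [h.mem i hi, h'.mem i hi]

theorem Is.eq' {r : ι} {u v : Fin 3 → ℤ} (h : Is R a1 a2 b r u) (h' : Is R a1 a2 b r v) : u = v := by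
  funext i
  fin_cases i
  exacts [h.e0.trans h'.e0.symm, h.e1.trans h'.e1.symm, h.e2.trans h'.e2.symm]

theorem Is.ne {r s : ι} {u v : Fin 3 → ℤ} (h : Is R a1 a2 b r u) (h' : Is R a1 a2 b s v) (huv : u ≠ v) : r ≠ s :=
  fun e => huv (h.eq' (e ▸ h'))

theorem Is.of_eq {r : ι} {u v : Fin 3 → ℤ} (h : Is R a1 a2 b r u) (e : u = v) : Is R a1 a2 b r v := e ▸ h

theorem Is.neg {r : ι} {u : Fin 3 → ℤ} (h : Is R a1 a2 b r u) : Is R a1 a2 b (R.neg r) (-u) := by
  refine ⟨R.neg_mem_sub.2 h.mem, ?_, ?_, ?_⟩ <;> simp only [R.rt_neg, Pi.neg_apply, h.e0, h.e1, h.e2] <;> ring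

theorem exists_is {r : ι} (h : r ∈ R.sub {a1, a2, b}) : ∃ u, Is R a1 a2 b r u :=
  ⟨![R.rt r a1, R.rt r a2 - R.rt r a1, R.rt r b - R.rt r a2], h, rfl, rfl, rfl⟩

theorem Is.pos {r : ι} {u : Fin 3 → ℤ} (h : Is R a1 a2 b r u) (hu : 0 < u 0 + u 1 ∨ 0 < u 0 + u 1 + u 2) : Ps R 1 r := by
  have := h.e0; have := h.e1; have := h.e2
  rw [ps_one]
  rcases hu with hu | hu
  · exact R.isPos_of_pos (i := a2) (by omega)
  · exact R.isPos_of_pos (i := b) (by omega)

theorem eL_cases {a c : Fin 3} (hac : a ≠ c) : eL R a1 a2 b a c = R.σ a2 (R.σ a1 (R.σ b (R.simple a2))) ∨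
    eL R a1 a2 b a c = R.σ a1 (R.σ b (R.simple a2)) ∨ eL R a1 a2 b a c = R.σ b (R.simple a2) := by
  fin_cases a <;> fin_cases c <;> first | exact absurd rfl hac | skip
  exacts [.inl rfl, .inr (.inl rfl), .inl rfl, .inr (.inr rfl), .inr (.inl rfl), .inr (.inr rfl)]

theorem eL_symm (a c : Fin 3) : eL R a1 a2 b a c = eL R a1 a2 b c a := by
  fin_cases a <;> fin_cases c <;> rfl

variable (h : B3 R a1 a2 b)
include h

theorem n12 : a1 ≠ a2 := h.e12.ne

theorem n2b : a2 ≠ b := fun e => by have := h.h2b; rw [e, R.A_self] at this; omega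

theorem n1b : a1 ≠ b := fun e => by have := h.h1b; rw [e, R.A_self] at this; omega

theorem wt_eq {r : ι} (hr : r ∈ R.sub {a1, a2, b}) (i : κ) :
    R.wt r i = R.rt r a1 * R.A i a1 + R.rt r a2 * R.A i a2 + R.rt r b * R.A i b := by
  have e : R.rt r = R.rt r a1 • R.rt (R.simple a1) + R.rt r a2 • R.rt (R.simple a2) + R.rt r b • R.rt (R.simple b) := by
    funext j
    have e1 := n12 h; have e2 := n2b h; have e3 := n1b h
    simp only [R.rt_simple, Pi.add_apply, Pi.smul_apply, smul_eq_mul, Pi.single_apply]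
    by_cases hj : j ∈ ({a1, a2, b} : Set κ)
    · rcases hj with rfl | rfl | rfl <;> simp [e1, e2, e3, e1.symm, e2.symm, e3.symm]
    · rw [hr j hj]
      simp only [Set.mem_insert_iff, Set.mem_singleton_iff, not_or] at hj
      simp [hj]
  have := congrArg (R.wtL i) e
  simpa only [map_add, map_smul, R.wtL_rt, R.wt_simple, smul_eq_mul] using this

theorem rt_σ_self (i : κ) (r : ι) : R.rt (R.σ i r) i = R.rt r i - R.wt r i := by
  rw [R.rt_σ']; simp [R.rt_simple]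

theorem Is.σ1 {r : ι} {u : Fin 3 → ℤ} (hr : Is R a1 a2 b r u) : Is R a1 a2 b (R.σ a1 r) ![u 1, u 0, u 2] := by
  have := hr.e0; have := hr.e1; have := hr.e2
  have e := rt_σ_self h a1 r
  rw [wt_eq h hr.mem, R.A_self, h.e12.1, h.h1b] at e
  refine ⟨(R.σ_mem_sub (by simp)).2 hr.mem, ?_, ?_, ?_⟩ <;>
    simp only [e, R.rt_σ_of_ne a1 r (n12 h).symm, R.rt_σ_of_ne a1 r (n1b h).symm, Matrix.cons_val] <;> omega

theorem Is.σ2 {r : ι} {u : Fin 3 → ℤ} (hr : Is R a1 a2 b r u) : Is R a1 a2 b (R.σ a2 r) ![u 0, u 2, u 1] := by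
  have := hr.e0; have := hr.e1; have := hr.e2
  have e := rt_σ_self h a2 r
  rw [wt_eq h hr.mem, R.A_self, h.e12.2, h.h2b] at e
  refine ⟨(R.σ_mem_sub (by simp)).2 hr.mem, ?_, ?_, ?_⟩ <;>
    simp only [e, R.rt_σ_of_ne a2 r (n12 h), R.rt_σ_of_ne a2 r (n2b h).symm, Matrix.cons_val] <;> omega

theorem Is.σb {r : ι} {u : Fin 3 → ℤ} (hr : Is R a1 a2 b r u) : Is R a1 a2 b (R.σ b r) ![u 0, u 1, -u 2] := by
  have := hr.e0; have := hr.e1; have := hr.e2
  have e := rt_σ_self h b r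
  rw [wt_eq h hr.mem, R.A_self, h.hb2, (R.A_eq_zero_comm _ _).1 h.h1b] at e
  refine ⟨(R.σ_mem_sub (by simp)).2 hr.mem, ?_, ?_, ?_⟩ <;>
    simp only [e, R.rt_σ_of_ne b r (n1b h), R.rt_σ_of_ne b r (n2b h), Matrix.cons_val] <;> omega

theorem is_a1 : Is R a1 a2 b (R.simple a1) ![1, -1, 0] := by
  refine ⟨R.simple_mem_sub.2 (by simp), ?_, ?_, ?_⟩ <;> simp [R.rt_simple, (n12 h).symm, (n1b h).symm]

theorem is_a2 : Is R a1 a2 b (R.simple a2) ![0, 1, -1] := by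
  refine ⟨R.simple_mem_sub.2 (by simp), ?_, ?_, ?_⟩ <;> simp [R.rt_simple, n12 h, (n2b h).symm]

theorem is_b : Is R a1 a2 b (R.simple b) ![0, 0, 1] := by
  refine ⟨R.simple_mem_sub.2 (by simp), ?_, ?_, ?_⟩ <;> simp [R.rt_simple, n1b h, n2b h]

theorem Is.mem_rts {r : ι} {u : Fin 3 → ℤ} (hr : Is R a1 a2 b r u) : u ∈ rts := by
  obtain ⟨w, hw, j, hj, rfl⟩ := R.exists_WJ_simple hr.mem
  have hm := hr.mem
  induction hw using R.WJ_induction_left generalizing u with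
  | h1 =>
    rcases hj with rfl | rfl | rfl
    · rw [hr.eq' (is_a1 h)]; decide
    · rw [hr.eq' (is_a2 h)]; decide
    · rw [hr.eq' (is_b h)]; decide
  | hs i hi w hw ih =>
    have hm' : w (R.simple j) ∈ R.sub {a1, a2, b} := (R.σ_mem_sub hi).1 hm
    obtain ⟨v, hv⟩ := exists_is hm'
    have := ih hv hm'
    rcases hi with rfl | rfl | rfl
    · rw [hr.eq' (hv.σ1 h)]; clear * - this; revert v; decide
    · rw [hr.eq' (hv.σ2 h)]; clear * - this; revert v; decide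
    · rw [hr.eq' (hv.σb h)]; clear * - this; revert v; decide

theorem is_rt3 {a c : Fin 3} (hac : a ≠ c) : Is R a1 a2 b (rt3 R a1 a2 a c) (dl a - dl c) := by
  fin_cases a <;> fin_cases c <;> first | exact absurd rfl hac | skip
  · exact (is_a1 h).of_eq (by decide)
  · exact ((is_a2 h).σ1 h).of_eq (by decide)
  · exact (is_a1 h).neg.of_eq (by decide)
  · exact (is_a2 h).of_eq (by decide)
  · exact ((is_a2 h).σ1 h).neg.of_eq (by decide)
  · exact (is_a2 h).neg.of_eq (by decide)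

theorem is_eS (a : Fin 3) : Is R a1 a2 b (eS R a1 a2 b a) (dl a) := by
  fin_cases a
  · exact (((is_b h).σ2 h).σ1 h).of_eq (by decide)
  · exact ((is_b h).σ2 h).of_eq (by decide)
  · exact (is_b h).of_eq (by decide)

theorem is_eL {a c : Fin 3} (hac : a ≠ c) : Is R a1 a2 b (eL R a1 a2 b a c) (dl a + dl c) := by
  fin_cases a <;> fin_cases c <;> first | exact absurd rfl hac | skip
  · exact ((((is_a2 h).σb h).σ1 h).σ2 h).of_eq (by decide)
  · exact (((is_a2 h).σb h).σ1 h).of_eq (by decide)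
  · exact ((((is_a2 h).σb h).σ1 h).σ2 h).of_eq (by decide)
  · exact ((is_a2 h).σb h).of_eq (by decide)
  · exact (((is_a2 h).σb h).σ1 h).of_eq (by decide)
  · exact ((is_a2 h).σb h).of_eq (by decide)

theorem Is.refl {a c : Fin 3} (hac : a ≠ c) {r : ι} {u : Fin 3 → ℤ} (hr : Is R a1 a2 b r u) :
    Is R a1 a2 b (R.refl (rt3 R a1 a2 a c) r) (u ∘ Equiv.swap a c) := by
  have e1 : Is R a1 a2 b (R.refl (R.simple a1) r) ![u 1, u 0, u 2] := by rw [R.refl_simple]; exact hr.σ1 h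
  have e2 : Is R a1 a2 b (R.refl (R.simple a2) r) ![u 0, u 2, u 1] := by rw [R.refl_simple]; exact hr.σ2 h
  have e3 : Is R a1 a2 b (R.refl (R.σ a1 (R.simple a2)) r) ![u 2, u 1, u 0] := by
    rw [← R.sp_apply, R.refl_W (R.sp_mem_W a1), R.refl_simple, R.sp_inv]
    exact ((hr.σ1 h).σ2 h).σ1 h
  have e1' := e1
  have e2' := e2
  have e3' := e3
  rw [← R.refl_neg] at e1' e2' e3'
  fin_cases a <;> fin_cases c <;> first | exact absurd rfl hac | skip
  · exact e1.of_eq (by funext i; fin_cases i <;> rfl)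
  · exact e3.of_eq (by funext i; fin_cases i <;> rfl)
  · exact e1'.of_eq (by funext i; fin_cases i <;> rfl)
  · exact e2.of_eq (by funext i; fin_cases i <;> rfl)
  · exact e3'.of_eq (by funext i; fin_cases i <;> rfl)
  · exact e2'.of_eq (by funext i; fin_cases i <;> rfl)

theorem qc {r s k : ι} {u v : Fin 3 → ℤ} (hr : Is R a1 a2 b r u) (hs : Is R a1 a2 b s v) (h1 : v ≠ u) (h2 : v ≠ -u)
    (hk : QC R r s k) : ∃ w ∈ rts, Is R a1 a2 b k w ∧ Cn u v w := by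
  obtain ⟨w, hw⟩ := exists_is (hk.sub hr.mem hs.mem)
  have n1 := hs.ne hr h1
  have n2 := hs.ne hr.neg h2
  refine ⟨w, hw.mem_rts h, hw, fun e => hk.ne_left n1 n2 ((hw.of_eq e).eq hr), fun e =>
    hk.symm.ne_left n1.symm (fun e' => n2 (R.neg_eq_iff.1 e'.symm)) ((hw.of_eq e).eq hs), fun i => ?_⟩
  obtain ⟨x, y, z, hx, hy, hz, e⟩ := hk.coord
  have : z * w i = x * u i + y * v i := by
    have := e a1; have := e a2; have := e b
    fin_cases i
    · simp only [Fin.zero_eta, hw.e0, hr.e0, hs.e0]; linarith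
    · simp only [Fin.mk_one, hw.e1, hr.e1, hs.e1]; linarith
    · simp only [Fin.reduceFinMk, hw.e2, hr.e2, hs.e2]; linarith
  refine ⟨fun p q => ⟨?_, fun e => ?_⟩, fun p q => ⟨?_, fun e => ?_⟩⟩
  · nlinarith [mul_nonneg hx.le p, mul_nonneg hy.le q]
  · rw [e] at this; constructor <;> nlinarith [mul_nonneg hx.le p, mul_nonneg hy.le q]
  · nlinarith [mul_nonneg hx.le (neg_nonneg.2 p), mul_nonneg hy.le (neg_nonneg.2 q)]
  · rw [e] at this; constructor <;> nlinarith [mul_nonneg hx.le (neg_nonneg.2 p), mul_nonneg hy.le (neg_nonneg.2 q)]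

variable {G Ω : Type*} [Group G] [MulAction G Ω] [Finite G] [Finite Ω] [FaithfulSMul G Ω] {B : Bld R G Ω}
  (hM : ∀ i, B.Mouf i)
include hM

theorem c0 {r s : ι} {u v : Fin 3 → ℤ} (hr : Is R a1 a2 b r u) (hs : Is R a1 a2 b s v)
    (hc : v ≠ u ∧ v ≠ -u ∧ ∀ k ∈ rts, ¬ Cn u v k) {x y : G} (hx : x ∈ B.X r) (hy : y ∈ B.X s) : Commute x y :=
  Bld.commute_of_qc hM (hs.ne hr hc.1) (hs.ne hr.neg hc.2.1) (fun k hk => by
    obtain ⟨w, h1, -, h2⟩ := qc h hr hs hc.1 hc.2.1 hk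
    exact hc.2.2 w h1 h2) hx hy

theorem c1 {r s t : ι} {u v w : Fin 3 → ℤ} (hr : Is R a1 a2 b r u) (hs : Is R a1 a2 b s v) (ht : Is R a1 a2 b t w)
    (hc : v ≠ u ∧ v ≠ -u ∧ ∀ k ∈ rts, Cn u v k → k = w) {x y : G} (hx : x ∈ B.X r) (hy : y ∈ B.X s) :
    ⁅x, y⁆ ∈ B.X t :=
  Bld.comm_mem_one hM (hs.ne hr hc.1) (hs.ne hr.neg hc.2.1) (fun k hk => by
    obtain ⟨w, h1, h3, h2⟩ := qc h hr hs hc.1 hc.2.1 hk
    exact (h3.of_eq (hc.2.2 w h1 h2)).eq ht) hx hy

theorem c2 {r s t t' : ι} {u v w w' : Fin 3 → ℤ} (hr : Is R a1 a2 b r u) (hs : Is R a1 a2 b s v) (ht : Is R a1 a2 b t w)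
    (ht' : Is R a1 a2 b t' w') (hc : v ≠ u ∧ v ≠ -u ∧ ∀ k ∈ rts, Cn u v k → k = w ∨ k = w')
    (hc' : w' ≠ w ∧ w' ≠ -w ∧ ∀ k ∈ rts, ¬ Cn w w' k) {x y : G} (hx : x ∈ B.X r) (hy : y ∈ B.X s) :
    ∃ l ∈ B.X t, ∃ k ∈ B.X t', ⁅x, y⁆ = l * k := by
  have h1 : ⁅x, y⁆ ∈ B.X t ⊔ B.X t' := by
    refine (iSup₂_le fun k hk => ?_ : _ ≤ B.X t ⊔ B.X t') (Bld.comm_mem hM (hs.ne hr hc.1) (hs.ne hr.neg hc.2.1) hx hy)
    obtain ⟨w, h1, h3, h2⟩ := qc h hr hs hc.1 hc.2.1 hk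
    rcases hc.2.2 w h1 h2 with e | e
    · rw [(h3.of_eq e).eq ht]; exact le_sup_left
    · rw [(h3.of_eq e).eq ht']; exact le_sup_right
  rw [← SetLike.mem_coe, Subgroup.coe_mul_of_right_le_normalizer_left _ _ (le_trans (fun g hg =>
    Subgroup.mem_centralizer_iff.2 fun z hz => c0 h hM ht ht' hc' hz hg) (Subgroup.centralizer_le_normalizer _))] at h1
  obtain ⟨l, hl, k, hk, e⟩ := h1
  exact ⟨l, hl, k, hk, e.symm⟩

omit h hM in
theorem ab_σ {r : ι} (hr : ∀ x ∈ B.X r, ∀ y ∈ B.X r, Commute x y) (i : κ) :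
    ∀ x ∈ B.X (R.σ i r), ∀ y ∈ B.X (R.σ i r), Commute x y := by
  obtain ⟨n, hn⟩ := B.exists_n (R.sW i)
  have hn' : B.IsN n (R.sW i) := hn
  intro x hx y hy
  have e : ∀ x ∈ B.X (R.σ i r), n⁻¹ * x * n ∈ B.X r := fun x hx =>
    hn'.conj_X.1 (by rw [show n * (n⁻¹ * x * n) * n⁻¹ = x by group]; exact hx)
  have := (hr _ (e x hx) _ (e y hy)).eq
  rw [commute_iff_eq, show x * y = n * (n⁻¹ * x * n * (n⁻¹ * y * n)) * n⁻¹ by group, this]
  group

end C3b

namespace Bld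

open C3b

variable {ι κ G Ω : Type*} [Fintype κ] [DecidableEq κ] [Finite ι] {R : RootSys ι κ} [Group G] [MulAction G Ω]
  [Finite G] [Finite Ω] [FaithfulSMul G Ω] {B : Bld R G Ω}

/-- `V a = X (eS a)`, `Y a b = X (eL a b)`, `S` from `exists_A2`, `exists_par`.  Coordinates: with `ε a = rt (eS a)` (`ε 2 = α_b`, `ε 1 = α_{a2} + α_b`, `ε 0 = α_{a1} + α_{a2} + α_b`)
one has `rt (rt3 a b) = ε a - ε b`, `rt (eL a b) = ε a + ε b`, and the roots in `sub {a1, a2, b}` are `± ε a`, `± ε a ± ε b` (`root_induction`-type closure under `σ a1, σ a2, σ b`,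
`exists_WJ_simple`), which determines the cones `QC` (`QC.sub`, `QC.coord`).  `nV, nY, nY'`: `Par.isN`, `IsN.conj_X`, `rt_refl`.  `xV .. YY`: `comm_mem`, `comm_mem_one`,
`commute_of_qc`; for `xV` the commutator lies in `X (eS a) ⊔ X (eL a b)`, two commuting groups; `Y a b` is abelian, being conjugate to `X α_{a2}` (`x_row`).
`ind`: `prod_eq_one` at `w = 1`.  `cardY`: `Mouf.card_X`, `card_K`.  `nondeg`: for `1 ≠ v`, `μ = α v β` (`exists_mu`, `α, β ∈ X (-ε 2)`), `x = x 1 2 1` commutes with `X (-ε 2)`,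
`y = μ x μ⁻¹ ∈ Y 1 2`, `α⁻¹ y α = v x v⁻¹ ∈ x V 1` if the commutator has no `Y`-part, and `α⁻¹ y α ∈ y · (V 1 ⊔ X (ε 1 - ε 2))` (commuting groups); `prod_eq_one` forces `y = 1`. -/
theorem exists_C3 {a1 a2 b : κ} (h : B3 R a1 a2 b) (hM : ∀ i, B.Mouf i) :
    ∃ (K : Type) (_ : Field K) (_ : Finite K) (C : C3 K G), Nat.card K = B.q a2 ∧
      (∀ g, g ∈ B.X (R.simple a2) ↔ ∃ t, g = C.x 1 2 t) ∧ (∀ t, C.x 1 2 t = 1 → t = 0) ∧
      C.V 1 = B.X (R.σ a2 (R.simple b)) ∧ C.Y 1 2 = B.X (R.σ b (R.simple a2)) ∧ C.V 2 = B.X (R.simple b) := by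
  obtain ⟨K, _, _, ⟨P⟩⟩ := exists_A2 (B := B) h.e12
  obtain ⟨S, hS⟩ := P.exists_par h.e12 hM
  have hx : ∀ {a c : Fin 3}, a ≠ c → ∀ t, S.x a c t ∈ B.X (rt3 R a1 a2 a c) := fun hac t => (hS.mem _ _ hac _).2 ⟨t, rfl⟩
  have hn : ∀ {a c : Fin 3}, a ≠ c → ∀ {r s : ι} {u v : Fin 3 → ℤ}, Is R a1 a2 b r u → Is R a1 a2 b s v →
      u ∘ Equiv.swap a c = v → ∀ t, t ≠ 0 → ∀ g ∈ B.X r, S.n a c t * g * (S.n a c t)⁻¹ ∈ B.X s :=
    fun hac r s u v hr hs e t ht g hg => by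
      rw [← ((hr.refl h hac).of_eq e).eq hs]
      exact (hS.isN _ _ hac t ht).conj_X.2 hg
  have hK : Nat.card K = B.q a2 := by
    refine Eq.trans (b := Nat.card (B.X (R.simple a2))) ?_ ((hM a2).card_X 1)
    refine Nat.card_congr (Equiv.ofBijective (fun t => ⟨S.x 1 2 t, hx (a := 1) (c := 2) (by decide) t⟩)
      ⟨fun t u e => ?_, fun g => ?_⟩)
    · have e' : S.x 1 2 t = S.x 1 2 u := congrArg Subtype.val e
      refine sub_eq_zero.1 (hS.inj 1 2 (by decide) _ ?_)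
      rw [sub_eq_add_neg, S.x_add _ _ (by decide), S.x_neg (by decide), e', mul_inv_cancel]
    · obtain ⟨t, ht⟩ := (hS.mem 1 2 (by decide) g.1).1 g.2
      exact ⟨t, Subtype.ext ht.symm⟩
  have a0 : ∀ x ∈ B.X (R.simple a2), ∀ y ∈ B.X (R.simple a2), Commute x y := fun x hx y hy => by
    obtain ⟨t, rfl⟩ := (hS.mem 1 2 (by decide) x).1 hx
    obtain ⟨u, rfl⟩ := (hS.mem 1 2 (by decide) y).1 hy
    exact S.x_row 1 2 2 (by decide) (by decide) t u
  have hab : ∀ {a c : Fin 3}, a ≠ c → ∀ x ∈ B.X (eL R a1 a2 b a c), ∀ y ∈ B.X (eL R a1 a2 b a c), Commute x y := by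
    intro a c hac
    rcases eL_cases (R := R) (a1 := a1) (a2 := a2) (b := b) hac with e | e | e <;> rw [e]
    exacts [ab_σ (ab_σ (ab_σ a0 b) a1) a2, ab_σ (ab_σ a0 b) a1, ab_σ a0 b]
  refine ⟨K, inferInstance, inferInstance,
    { S with
      V := fun a => B.X (eS R a1 a2 b a)
      Y := fun a c => B.X (eL R a1 a2 b a c)
      Y_symm := fun a c => by rw [eL_symm]
      nV := fun a c hac => hn hac (is_eS h c) (is_eS h a) (by revert a c; decide)
      nY := fun a c d hac had hcd => hn hac (is_eL h hcd) (is_eL h had) (by revert a c d; decide)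
      nY' := fun a c hac => hn hac (is_eL h hac) (is_eL h hac) (by revert a c; decide)
      xV := fun a c hac t v hv => ?_
      xV0 := fun a c d hac hdc t v hv => c0 h hM (is_rt3 h hac) (is_eS h d) (by clear hv; revert a c d; decide) (hx hac t) hv
      xY := fun a c d hac had hcd t y hy => ⟨_, c1 h hM (is_eL h hcd) (is_rt3 h hac) (is_eL h had)
        (by clear hy; revert a c d; decide) (inv_mem hy) (hx hac t), by rw [commutatorElement_def]; group⟩
      xY0 := fun a c d hac had hcd t y hy => c0 h hM (is_rt3 h hac) (is_eL h had) (by clear hy; revert a c d; decide)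
        (hx hac t) hy
      xY1 := fun a c hac t y hy => ⟨_, c1 h hM (is_eL h hac) (is_rt3 h hac) (is_eS h a)
        (by clear hy; revert a c; decide) (inv_mem hy) (hx hac t), by rw [commutatorElement_def]; group⟩
      VV := fun a c hac v hv w hw => ⟨_, c1 h hM (is_eS h a) (is_eS h c) (is_eL h hac)
        (by clear hv hw; revert a c; decide) (inv_mem hv) (inv_mem hw), by rw [commutatorElement_def]; group⟩
      VY := fun a c d hac v hv y hy => c0 h hM (is_eS h d) (is_eL h hac) (by clear hv hy; revert a c d; decide) hv hy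
      YY := fun a c d e hac hde y hy z hz => ?_
      ind := fun a c d hac had hcd u hu v hv w hw y₁ h₁ y₂ h₂ y₃ h₃ e => ?_
      cardY := ((hM a2).card_X (R.sW b)).trans hK.symm
      nondeg := fun v hv l hl e => ?_
      V_ne := ?_ }, hK, hS.mem 1 2 (by decide), hS.inj 1 2 (by decide), rfl, rfl, rfl⟩
  · obtain ⟨l, hl, k, hk, e⟩ := c2 h hM (is_eS h c) (is_rt3 h hac) (is_eS h a) (is_eL h hac)
      (by clear hv; revert a c; decide) (by clear hv; revert a c; decide) (inv_mem hv) (hx hac t)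
    exact ⟨l, hl, k, hk, by rw [mul_assoc v, ← e, commutatorElement_def]; group⟩
  · by_cases e1 : dl d + dl e = dl a + dl c
    · rw [((is_eL h hde).of_eq e1).eq (is_eL h hac)] at hz
      exact hab hac y hy z hz
    · exact c0 h hM (is_eL h hac) (is_eL h hde) (by clear hy hz; revert a c d e; decide) hy hz
  · have hd : ([dl a, dl c, dl d, dl a + dl c, dl a + dl d, dl c + dl d]).Nodup := by
      clear hu hv hw h₁ h₂ h₃; revert a c d; decide
    have hp : ∀ u ∈ [dl a, dl c, dl d, dl a + dl c, dl a + dl d, dl c + dl d], 0 < u 0 + u 1 ∨ 0 < u 0 + u 1 + u 2 := by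
      clear hu hv hw h₁ h₂ h₃ hd; revert a c d; decide
    simp only [List.nodup_cons, List.mem_cons, List.not_mem_nil, or_false, not_or, forall_eq_or_imp, forall_eq] at hd hp
    have i1 := is_eS h a
    have i2 := is_eS h c
    have i3 := is_eS h d
    have i4 := is_eL h hac
    have i5 := is_eL h had
    have i6 := is_eL h hcd
    have := prod_eq_one (B := B) (w := 1) [(eS R a1 a2 b a, u), (eS R a1 a2 b c, v), (eS R a1 a2 b d, w),
      (eL R a1 a2 b a c, y₁), (eL R a1 a2 b a d, y₂), (eL R a1 a2 b c d, y₃)] (by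
        simp only [List.map_cons, List.map_nil, List.nodup_cons, List.mem_cons, List.not_mem_nil, or_false, not_or]
        obtain ⟨⟨_, _, _, _, _⟩, ⟨_, _, _, _⟩, ⟨_, _, _⟩, ⟨_, _⟩, _, _⟩ := hd
        refine ⟨⟨i1.ne i2 ‹_›, i1.ne i3 ‹_›, i1.ne i4 ‹_›, i1.ne i5 ‹_›, i1.ne i6 ‹_›⟩,
          ⟨i2.ne i3 ‹_›, i2.ne i4 ‹_›, i2.ne i5 ‹_›, i2.ne i6 ‹_›⟩, ⟨i3.ne i4 ‹_›, i3.ne i5 ‹_›, i3.ne i6 ‹_›⟩,
          ⟨i4.ne i5 ‹_›, i4.ne i6 ‹_›⟩, i5.ne i6 ‹_›, not_false, List.nodup_nil⟩)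
      (by
        simp only [List.mem_cons, List.not_mem_nil, or_false, forall_eq_or_imp, forall_eq]
        exact ⟨i1.pos hp.1, i2.pos hp.2.1, i3.pos hp.2.2.1, i4.pos hp.2.2.2.1, i5.pos hp.2.2.2.2.1, i6.pos hp.2.2.2.2.2⟩)
      (by
        simp only [List.mem_cons, List.not_mem_nil, or_false, forall_eq_or_imp, forall_eq]
        exact ⟨hu, hv, hw, h₁, h₂, h₃⟩)
      (by simpa [mul_assoc] using e)
    simpa using this
  · by_contra h1
    obtain ⟨α, hα, β, hβ, hμ⟩ := exists_mu hM (r := R.simple b) (inv_mem hv) (inv_ne_one.2 h1)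
    have hx1 : S.x 1 2 1 ∈ B.X (R.simple a2) := hx (a := 1) (c := 2) (by decide) 1
    have hne : S.x 1 2 1 ≠ 1 := fun e => one_ne_zero (hS.inj 1 2 (by decide) 1 e)
    change S.x 1 2 1 * v * (S.x 1 2 1)⁻¹ = v * l at e
    generalize S.x 1 2 1 = x at e hx1 hne
    have hy := hμ.conj_X.2 hx1
    rw [rf_simple] at hy
    have i1 := (is_a2 h).σb h
    have i2 := (is_b h).σ2 h
    have i3 := is_a2 h
    have k1 := (c0 h hM i3 (is_b h).neg (by decide) hx1 hβ).eq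
    obtain ⟨l', hl', x', hx', e'⟩ := c2 h hM i1 (is_b h).neg i2 i3 (by decide) (by decide) (inv_mem hy) (inv_mem hα)
    have k2 := (c0 h hM i2 i3 (by decide) (inv_mem hl) (mul_mem hx' (inv_mem hx1))).eq
    have e1 : α * v⁻¹ * β * x * (α * v⁻¹ * β)⁻¹ = α * (l * x) * α⁻¹ := by
      rw [mul_assoc _ β, ← k1, show l = v⁻¹ * (x * v * x⁻¹) by rw [e]; group]; group
    rw [e1] at hy e'
    have := prod_eq_one (B := B) (w := 1) [(R.σ b (R.simple a2), α * (l * x) * α⁻¹), (R.σ a2 (R.simple b), l' * l⁻¹),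
      (R.simple a2, x' * x⁻¹)] (by
        simp only [List.map_cons, List.map_nil, List.nodup_cons, List.mem_cons, List.not_mem_nil, or_false, not_or]
        exact ⟨⟨i1.ne i2 (by decide), i1.ne i3 (by decide)⟩, i2.ne i3 (by decide), not_false, List.nodup_nil⟩)
      (by
        simp only [List.mem_cons, List.not_mem_nil, or_false, forall_eq_or_imp, forall_eq]
        exact ⟨i1.pos (by decide), i2.pos (by decide), i3.pos (by decide)⟩)
      (by
        simp only [List.mem_cons, List.not_mem_nil, or_false, forall_eq_or_imp, forall_eq]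
        exact ⟨hy, mul_mem hl' (inv_mem hl), mul_mem hx' (inv_mem hx1)⟩)
      (by
        simp only [List.map_cons, List.map_nil, List.prod_cons, List.prod_nil, mul_one]
        rw [mul_assoc l', k2, ← mul_assoc l', ← mul_assoc l', ← e', commutatorElement_def]
        group)
      _ (List.mem_cons_self ..)
    apply hne
    have e2 : x = (α * v⁻¹ * β)⁻¹ * (α * (l * x) * α⁻¹) * (α * v⁻¹ * β) := by rw [← e1]; group
    rw [e2, show α * (l * x) * α⁻¹ = 1 from this]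
    group
  · obtain ⟨x, hx, h1⟩ := (hM b).exists_ne_one 1
    exact fun e => h1 (Subgroup.mem_bot.1 (e ▸ hx))

end Bld

end CL.TB
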