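/-
S1143 (Tits), C3x1: the action of the Steinberg elements on the groups `V a`, `Y a b` of a `C3` structure.
-/
import Cfsg.Agent.CHEV.TB.Hua

set_option autoImplicit false
set_option linter.unusedSectionVars false

namespace CL.TB.C3

variable {K G : Type*} [Field K] [Group G] (C : C3 K G) {a b c : Fin 3} {t u : K} {y z v w g : G}

local notation "cj[" g "]" => MulAut.conj g

theorem third (h : a ≠ b) : ∃ c, a ≠ c ∧ b ≠ c := by revert a b; decide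

/-- `y⁻¹ · x y x⁻¹` -/
def γ (a b : Fin 3) (t : K) (y : G) : G := y⁻¹ * cj[C.x a b t] y

theorem cj_x (a b : Fin 3) (t : K) (y : G) : cj[C.x a b t] y = y * C.γ a b t y := by simp [γ]

theorem cj_γ {d e : Fin 3} (h : cj[g] (C.x a b t) = C.x d e u) (y : G) :
    cj[g] (C.γ a b t y) = C.γ d e u (cj[g] y) := by
  simp only [γ, ← h, MulAut.conj_apply]; group

theorem cj_of_comm (h : Commute g y) : cj[g] y = y := by simp [h.eq]

theorem symm_mem (h : y ∈ C.Y a b) : y ∈ C.Y b a := C.Y_symm a b ▸ h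

theorem γ_mem (h1 : a ≠ b) (h2 : a ≠ c) (h3 : b ≠ c) (t : K) (hy : y ∈ C.Y b c) : C.γ a b t y ∈ C.Y a c := by
  obtain ⟨g, hg, e⟩ := C.xY a b c h1 h2 h3 t y hy
  simpa [γ, e] using hg

theorem γ_memV (h1 : a ≠ b) (t : K) (hy : y ∈ C.Y a b) : C.γ a b t y ∈ C.V a := by
  obtain ⟨g, hg, e⟩ := C.xY1 a b h1 t y hy
  simpa [γ, e] using hg

theorem γ_zero (h1 : a ≠ b) (y : G) : C.γ a b 0 y = 1 := by simp [γ, C.x_zero h1]

theorem γ_one (a b : Fin 3) (t : K) : C.γ a b t 1 = 1 := by simp [γ]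

theorem γ_mul (h1 : a ≠ b) (h2 : a ≠ c) (h3 : b ≠ c) (t : K) (hy : y ∈ C.Y b c) (hz : z ∈ C.Y b c) :
    C.γ a b t (y * z) = C.γ a b t y * C.γ a b t z := by
  have h := (C.YY _ _ _ _ h2 h3 _ (C.γ_mem h1 h2 h3 t hy) _ hz).eq
  rw [γ, map_mul, cj_x, cj_x, mul_inv_rev, mul_assoc, ← mul_assoc y⁻¹, inv_mul_cancel_left, ← mul_assoc _ z, h]; group

theorem γ_add (h1 : a ≠ b) (h2 : a ≠ c) (h3 : b ≠ c) (t u : K) (hy : y ∈ C.Y b c) :
    C.γ a b (t + u) y = C.γ a b t y * C.γ a b u y := by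
  rw [γ, C.x_add a b h1, map_mul, MulAut.mul_apply, C.cj_x a b u y, map_mul, cj_x,
    cj_of_comm (C.xY0 a b c h1 h2 h3 t _ (C.γ_mem h1 h2 h3 u hy))]; group

theorem γ_neg (h1 : a ≠ b) (h2 : a ≠ c) (h3 : b ≠ c) (t : K) (hy : y ∈ C.Y b c) :
    C.γ a b (-t) y = (C.γ a b t y)⁻¹ := by
  rw [eq_inv_iff_mul_eq_one, ← C.γ_add h1 h2 h3 _ _ hy, neg_add_cancel, C.γ_zero h1]

theorem indY (h1 : a ≠ b) (h2 : a ≠ c) (h3 : b ≠ c) (hy : y ∈ C.Y b c) (hz : z ∈ C.Y a c) (h : y * z = 1) : y = 1 :=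
  (C.ind c b a h3.symm h2.symm h1.symm 1 (one_mem _) 1 (one_mem _) 1 (one_mem _) y (C.symm_mem hy) z (C.symm_mem hz) 1
    (one_mem _) (by simpa using h)).2.2.2.1

theorem indV (h : a ≠ b) {l : G} (hl : l ∈ C.V a) (hv : v ∈ C.V b) (hy : y ∈ C.Y a b) (e : l * v * y = 1) :
    l = 1 ∧ v = 1 ∧ y = 1 := by
  obtain ⟨c, h2, h3⟩ := third h
  have := C.ind a b c h h2 h3 l hl v hv 1 (one_mem _) y hy 1 (one_mem _) 1 (one_mem _) (by simpa using e)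
  exact ⟨this.1, this.2.1, this.2.2.2.1⟩

theorem uniq (h : a ≠ b) (hv : v ∈ C.V a) (hw : w ∈ C.V a) (hy : y ∈ C.Y a b) (hz : z ∈ C.Y a b) (e : v * y = w * z) :
    v = w ∧ y = z := by
  obtain ⟨h1, -, h2⟩ := C.indV h (mul_mem (inv_mem hw) hv) (one_mem _) (mul_mem hy (inv_mem hz))
    (by rw [mul_one, mul_assoc, ← mul_assoc v, e]; group)
  exact ⟨(inv_mul_eq_one.1 h1).symm, mul_inv_eq_one.1 h2⟩

theorem cj_n_and (h1 : a ≠ b) (h2 : a ≠ c) (h3 : b ≠ c) (ht : t ≠ 0) (hy : y ∈ C.Y b c) :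
    cj[C.n a b t] y = C.γ a b t y ∧ C.γ b a t⁻¹ (C.γ a b t y) = y := by
  have m1 := C.γ_mem h1 h2 h3 t hy
  have m2 := C.γ_mem h1.symm h3 h2 (-t⁻¹) m1
  have m3 := mul_mem hy m2
  have e : cj[C.n a b t] y = y * C.γ b a (-t⁻¹) (C.γ a b t y) *
      (C.γ a b t (y * C.γ b a (-t⁻¹) (C.γ a b t y)) * C.γ a b t y) := by
    rw [St3.n, map_mul, map_mul, MulAut.mul_apply, MulAut.mul_apply, C.cj_x a b t y, map_mul,
      cj_of_comm (C.xY0 b a c h1.symm h3 h2 _ _ hy), C.cj_x b a, (C.YY _ _ _ _ h2 h3 _ m1 _ m2).eq, ← mul_assoc, map_mul,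
      cj_of_comm (C.xY0 a b c h1 h2 h3 _ _ m1), cj_x, mul_assoc _ _ (C.γ a b t y)]
  have h0 : y * C.γ b a (-t⁻¹) (C.γ a b t y) = 1 :=
    C.indY h1 h2 h3 m3 (mul_mem (mul_mem (C.γ_mem h1 h2 h3 t m3) m1) (inv_mem (C.nY a b c h1 h2 h3 t ht y hy)))
      (by rw [← mul_assoc, ← e]; simp)
  refine ⟨by rw [e, h0, γ_one]; simp, ?_⟩
  rw [C.γ_neg h1.symm h3 h2 _ m1, mul_inv_eq_one] at h0
  exact h0.symm

theorem cj_n (h1 : a ≠ b) (h2 : a ≠ c) (h3 : b ≠ c) (ht : t ≠ 0) (hy : y ∈ C.Y b c) :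
    cj[C.n a b t] y = C.γ a b t y := (C.cj_n_and h1 h2 h3 ht hy).1

theorem γγ (h1 : a ≠ b) (h2 : a ≠ c) (h3 : b ≠ c) (ht : t ≠ 0) (hy : y ∈ C.Y b c) :
    C.γ b a t⁻¹ (C.γ a b t y) = y := (C.cj_n_and h1 h2 h3 ht hy).2

theorem γγ1 (h1 : a ≠ b) (h2 : a ≠ c) (h3 : b ≠ c) (hy : y ∈ C.Y b c) : C.γ b a 1 (C.γ a b 1 y) = y := by
  simpa using C.γγ h1 h2 h3 one_ne_zero hy

theorem n_memV (h : a ≠ b) (ht : t ≠ 0) (hv : v ∈ C.V b) : cj[C.n a b t] v ∈ C.V a := C.nV a b h t ht v hv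

theorem n_inv1 (h : a ≠ b) : (C.n a b 1)⁻¹ = C.n b a 1 := by
  rw [← C.n_neg h, C.n_swap h (by simp)]; simp

theorem n_commV (h1 : a ≠ b) (h2 : a ≠ c) (h3 : b ≠ c) (t : K) (hv : v ∈ C.V c) : cj[C.n a b t] v = v :=
  cj_of_comm (((C.xV0 a b c h1 h3.symm _ v hv).mul_left (C.xV0 b a c h1.symm h2.symm _ v hv)).mul_left
    (C.xV0 a b c h1 h3.symm _ v hv))

theorem cj_xV (h : a ≠ b) (ht : t ≠ 0) (hv : v ∈ C.V b) :
    ∃ k ∈ C.Y a b, cj[C.x a b t] v = v * cj[C.n a b t] v * k := by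
  obtain ⟨l, hl, k, hk, e⟩ := C.xV a b h t v hv
  obtain ⟨l', hl', k', hk', e'⟩ := C.xV b a h.symm (-t⁻¹) l hl
  obtain ⟨y, hy, e''⟩ := C.VV b a h.symm v hv l hl
  have hz := C.γ_memV h.symm (-t⁻¹) (C.symm_mem hk)
  have hr := C.n_memV h ht hv
  have c0 := cj_of_comm (C.xV0 b a b h.symm h.symm (-t⁻¹) v hv)
  have e1 : cj[C.n a b t] v = v * (l * l' * k') * (k * C.γ b a (-t⁻¹) k) := by
    rw [St3.n, C.n_sym a b h t ht, map_mul, map_mul, MulAut.mul_apply, MulAut.mul_apply, c0, MulAut.conj_apply (C.x a b t), e,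
      map_mul, map_mul, c0, MulAut.conj_apply _ l, e', cj_x]
  refine ⟨k, hk, ?_⟩
  have := (C.indV h (mul_mem (inv_mem hr) hl) (mul_mem (mul_mem hv hl') hz)
    (mul_mem (mul_mem (C.symm_mem hy) (C.symm_mem hk')) hk) ?_).1
  · rw [inv_mul_eq_one.1 this]; exact e
  · have c1 := (C.VY _ _ _ h.symm _ hl' _ hy).eq
    have c2 := (C.VY _ _ _ h _ hz _ (mul_mem (mul_mem (C.symm_mem hy) (C.symm_mem hk')) hk)).eq
    rw [mul_assoc, mul_assoc, inv_mul_eq_one, e1, mul_assoc (v * l'), c2, ← mul_assoc v, ← mul_assoc v, e'', mul_assoc _ y, ← c1]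
    group

variable [Finite K]

/-- the scalar action through the first index -/
theorem s_mul (h1 : a ≠ b) (h2 : a ≠ c) (h3 : b ≠ c) (t u : K) (hy : y ∈ C.Y b c) :
    C.γ b a 1 (C.γ a b (t * u) y) = C.γ b a 1 (C.γ a b t (C.γ b a 1 (C.γ a b u y))) := by
  let : CommGroup (C.Y b c) := { (inferInstance : Group _) with
    mul_comm := fun y z => Subtype.ext (C.YY _ _ _ _ h3 h3 _ y.2 _ z.2).eq }
  let F : K → K → AddMonoid.End (Additive (C.Y b c)) := fun r s => MonoidHom.toAdditive (MonoidHom.mk'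
    (fun y => ⟨C.γ b a r (C.γ a b s y), C.γ_mem h1.symm h3 h2 r (C.γ_mem h1 h2 h3 s y.2)⟩) fun y z => Subtype.ext (by
      simp only [Subgroup.coe_mul]
      rw [C.γ_mul h1 h2 h3 s y.2 z.2, C.γ_mul h1.symm h3 h2 r (C.γ_mem h1 h2 h3 s y.2) (C.γ_mem h1 h2 h3 s z.2)]))
  have ext : ∀ {f g : AddMonoid.End (Additive (C.Y b c))},
      (∀ y : C.Y b c, ((f (.ofMul y)).toMul : G) = (g (.ofMul y)).toMul) → f = g := fun h =>
    AddMonoidHom.ext fun y => Additive.toMul.injective (Subtype.ext (h y.toMul))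
  have := hua (AddMonoidHom.mk' (F 1) fun r s => ext fun y => ?_) (AddMonoidHom.mk' (F · 1) fun r s => ext fun y => ?_)
    (ext fun y => C.γγ1 h1 h2 h3 y.2) (fun r hr => ⟨ext fun y => ?_, ext fun y => ?_⟩) t u
  · exact congrArg (fun f : AddMonoid.End (Additive (C.Y b c)) => ((f (.ofMul ⟨y, hy⟩)).toMul : G)) this
  · change C.γ b a 1 (C.γ a b (r + s) y) = C.γ b a 1 (C.γ a b r y) * C.γ b a 1 (C.γ a b s y)
    rw [C.γ_add h1 h2 h3 _ _ y.2, C.γ_mul h1.symm h3 h2 _ (C.γ_mem h1 h2 h3 _ y.2) (C.γ_mem h1 h2 h3 _ y.2)]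
  · exact C.γ_add h1.symm h3 h2 _ _ (C.γ_mem h1 h2 h3 _ y.2)
  · change C.γ b a 1 (C.γ a b r (C.γ b a r⁻¹ (C.γ a b 1 y))) = y
    have := C.γγ h1.symm h3 h2 (inv_ne_zero hr) (C.γ_mem h1 h2 h3 1 y.2)
    rw [inv_inv] at this
    rw [this, C.γγ1 h1 h2 h3 y.2]
  · change C.γ b a r⁻¹ (C.γ a b 1 (C.γ b a 1 (C.γ a b r y))) = y
    rw [C.γγ1 h1.symm h3 h2 (C.γ_mem h1 h2 h3 _ y.2), C.γγ h1 h2 h3 hr y.2]

/-- a parametrisation of `Y 1 2` -/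
theorem exists_y : ∃ y : K → G, (∀ g, g ∈ C.Y 1 2 ↔ ∃ d, g = y d) ∧ Function.Injective y ∧
    (∀ d e, y (d + e) = y d * y e) ∧ ∀ t d, C.γ 1 0 1 (C.γ 0 1 t (y d)) = y (t * d) := by
  have h1 : (0 : Fin 3) ≠ 1 := by decide
  have h2 : (0 : Fin 3) ≠ 2 := by decide
  have h3 : (1 : Fin 3) ≠ 2 := by decide
  have : Finite (C.Y 1 2) := Nat.finite_of_card_ne_zero (by rw [C.cardY]; exact Nat.card_pos.ne')
  have : Nontrivial (C.Y 1 2) := Finite.one_lt_card_iff_nontrivial.1 (by rw [C.cardY]; exact Finite.one_lt_card)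
  obtain ⟨⟨y₀, hy⟩, h0⟩ := exists_ne (1 : C.Y 1 2)
  have m := fun t => C.γ_mem h1.symm h3 h2 1 (C.γ_mem h1 h2 h3 t hy)
  have add : ∀ d e, C.γ 1 0 1 (C.γ 0 1 (d + e) y₀) = C.γ 1 0 1 (C.γ 0 1 d y₀) * C.γ 1 0 1 (C.γ 0 1 e y₀) := fun d e => by
    rw [C.γ_add h1 h2 h3 _ _ hy, C.γ_mul h1.symm h3 h2 _ (C.γ_mem h1 h2 h3 _ hy) (C.γ_mem h1 h2 h3 _ hy)]
  have inj : Function.Injective fun d => C.γ 1 0 1 (C.γ 0 1 d y₀) := fun d e h => by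
    by_contra hde
    have e1 : C.γ 1 0 1 (C.γ 0 1 (d - e) y₀) = 1 := by
      have := add (d - e) e
      rw [sub_add_cancel, show C.γ 1 0 1 (C.γ 0 1 d y₀) = _ from h] at this
      exact right_eq_mul.1 this
    have := C.s_mul h1 h2 h3 (d - e)⁻¹ (d - e) hy
    rw [inv_mul_cancel₀ (sub_ne_zero.2 hde), C.γγ1 h1 h2 h3 hy, e1, γ_one, γ_one] at this
    exact h0 (Subtype.ext this)
  refine ⟨_, fun g => ⟨fun hg => ?_, ?_⟩, inj, add, fun t d => (C.s_mul h1 h2 h3 t d hy).symm⟩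
  · obtain ⟨d, e⟩ := ((Nat.bijective_iff_injective_and_card (fun d => (⟨_, m d⟩ : C.Y 1 2))).2
      ⟨fun d e h => inj (congrArg Subtype.val h), C.cardY.symm⟩).2 ⟨g, hg⟩
    exact ⟨d, (congrArg Subtype.val e).symm⟩
  · rintro ⟨d, rfl⟩; exact m d

end CL.TB.C3
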