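/-
S1143 (Tits), C3x2: the involution `σ` and the map `Δ` of a `C3` structure.
-/
import Cfsg.Agent.CHEV.TB.C3x1

set_option autoImplicit false
set_option linter.unusedSectionVars false

namespace CL.TB.C3

variable {K G : Type*} [Field K] [Finite K] [Group G] (C : C3 K G) {t u d : K} {g : G}

local notation "cj[" g "]" => MulAut.conj g

theorem h01 : (0 : Fin 3) ≠ 1 := by decide
theorem h02 : (0 : Fin 3) ≠ 2 := by decide
theorem h12 : (1 : Fin 3) ≠ 2 := by decide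

/-- the parametrisation of `Y 1 2` -/
noncomputable def y : K → G := C.exists_y.choose

theorem y_iff (g : G) : g ∈ C.Y 1 2 ↔ ∃ d, g = C.y d := C.exists_y.choose_spec.1 g
theorem y_inj : Function.Injective C.y := C.exists_y.choose_spec.2.1
theorem y_add (d e : K) : C.y (d + e) = C.y d * C.y e := C.exists_y.choose_spec.2.2.1 d e
theorem y_sc (t d : K) : C.γ 1 0 1 (C.γ 0 1 t (C.y d)) = C.y (t * d) := C.exists_y.choose_spec.2.2.2 t d
theorem y_mem (d : K) : C.y d ∈ C.Y 1 2 := (C.y_iff _).2 ⟨d, rfl⟩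
theorem y_mem' (d : K) : C.y d ∈ C.Y 2 1 := C.symm_mem (C.y_mem d)
theorem y_zero : C.y 0 = 1 := by simpa using C.y_add 0 0
theorem y_neg (d : K) : C.y (-d) = (C.y d)⁻¹ := by rw [eq_inv_iff_mul_eq_one, ← y_add, neg_add_cancel, y_zero]

/-- the inverse of `y` -/
noncomputable def yi (g : G) : K := Function.invFun C.y g

theorem y_yi (h : g ∈ C.Y 1 2) : C.y (C.yi g) = g := by
  obtain ⟨d, rfl⟩ := (C.y_iff g).1 h
  rw [yi, Function.leftInverse_invFun C.y_inj]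

/-- the parametrisation of `Y 0 2` -/
noncomputable def y02 (d : K) : G := cj[C.n 0 1 1] (C.y d)
/-- a parametrisation of `Y 0 1` -/
noncomputable def y10 (d : K) : G := cj[C.n 0 2 1] (C.y d)
/-- a parametrisation of `Y 0 1` -/
noncomputable def y01 (d : K) : G := cj[C.n 1 2 1] (C.y02 d)

theorem y02_eq (d : K) : C.y02 d = C.γ 0 1 1 (C.y d) := C.cj_n h01 h02 h12 one_ne_zero (C.y_mem d)
theorem y10_eq (d : K) : C.y10 d = C.γ 0 2 1 (C.y d) := C.cj_n h02 h01 h12.symm one_ne_zero (C.y_mem' d)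
theorem y02_mem (d : K) : C.y02 d ∈ C.Y 0 2 := C.y02_eq d ▸ C.γ_mem h01 h02 h12 1 (C.y_mem d)
theorem y10_mem (d : K) : C.y10 d ∈ C.Y 0 1 := C.y10_eq d ▸ C.γ_mem h02 h01 h12.symm 1 (C.y_mem' d)
theorem y01_eq (d : K) : C.y01 d = C.γ 1 2 1 (C.y02 d) :=
  C.cj_n h12 h01.symm h02.symm one_ne_zero (C.symm_mem (C.y02_mem d))
theorem y01_mem (d : K) : C.y01 d ∈ C.Y 0 1 :=
  C.symm_mem (C.y01_eq d ▸ C.γ_mem h12 h01.symm h02.symm 1 (C.symm_mem (C.y02_mem d)))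
theorem y01_add (d e : K) : C.y01 (d + e) = C.y01 d * C.y01 e := by simp only [y01, y02, y_add, map_mul]
theorem y01_neg (d : K) : C.y01 (-d) = (C.y01 d)⁻¹ := by simp only [y01, y02, y_neg, map_inv]
theorem y10_neg (d : K) : C.y10 (-d) = (C.y10 d)⁻¹ := by simp only [y10, y_neg, map_inv]
theorem y01_inj : Function.Injective C.y01 := fun _ _ h => C.y_inj ((MulAut.conj _).injective ((MulAut.conj _).injective h))

theorem γ01_y (u d : K) : C.γ 0 1 u (C.y d) = C.y02 (u * d) := by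
  rw [y02_eq, ← y_sc, C.γγ1 h01.symm h12 h02 (C.γ_mem h01 h02 h12 u (C.y_mem d))]

theorem γ10_y02 (u d : K) : C.γ 1 0 u (C.y02 d) = C.y (u * d) := by
  by_cases hu : u = 0
  · rw [hu, C.γ_zero h01.symm, zero_mul, y_zero]
  have := C.γγ h01 h02 h12 (inv_ne_zero hu) (C.y_mem (u * d))
  rwa [inv_inv, γ01_y, inv_mul_cancel_left₀ hu] at this

/-- the torus element `n₀₁(1)⁻¹ n₀₁(t)` -/
def h (t : K) : G := (C.n 0 1 1)⁻¹ * C.n 0 1 t
/-- the torus element `n₀₂(1)⁻¹ n₀₂(t)` -/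
def k (t : K) : G := (C.n 0 2 1)⁻¹ * C.n 0 2 t

theorem h_y (ht : t ≠ 0) (d : K) : cj[C.h t] (C.y d) = C.y (t * d) := by
  rw [h, map_mul, MulAut.mul_apply, C.cj_n h01 h02 h12 ht (C.y_mem d), γ01_y, y02, ← MulAut.mul_apply, ← map_mul]; simp

theorem h_x12 (ht : t ≠ 0) (u : K) : cj[C.h t] (C.x 1 2 u) = C.x 1 2 (t * u) := by
  rw [h, map_mul, MulAut.mul_apply, MulAut.conj_apply (C.n 0 1 t), C.n_conj_bc h01 h02 h12 ht, C.n_inv1 h01,
    MulAut.conj_apply, C.n_conj_bc h01.symm h12 h02 one_ne_zero, one_mul]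

theorem h_V2 (t : K) (hg : g ∈ C.V 2) : cj[C.h t] g = g := by
  rw [h, map_mul, MulAut.mul_apply, C.n_commV h01 h02 h12 t hg, C.n_inv1 h01, C.n_commV h01.symm h12 h02 1 hg]

theorem h_V1 (ht : t ≠ 0) (hg : g ∈ C.V 1) : cj[C.h t] g ∈ C.V 1 := by
  rw [h, map_mul, MulAut.mul_apply, C.n_inv1 h01]
  exact C.n_memV h01.symm one_ne_zero (C.n_memV h01 ht hg)

theorem k_x12 (ht : t ≠ 0) (u : K) : cj[C.k t] (C.x 1 2 u) = C.x 1 2 (t⁻¹ * u) := by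
  rw [k, map_mul, MulAut.mul_apply, MulAut.conj_apply (C.n 0 2 t), C.n_conj_cb h02 h01 h12.symm ht, C.n_inv1 h02,
    MulAut.conj_apply, C.n_conj_cb h02.symm h12.symm h01 one_ne_zero, inv_one, one_mul]

theorem k_x01 (ht : t ≠ 0) (u : K) : cj[C.k t] (C.x 0 1 u) = C.x 0 1 (t⁻¹ * u) := by
  rw [k, map_mul, MulAut.mul_apply, MulAut.conj_apply (C.n 0 2 t), C.n_conj_ac h02 h01 h12.symm ht, C.n_inv1 h02,
    MulAut.conj_apply, C.n_conj_ac h02.symm h12.symm h01 one_ne_zero, inv_one, one_mul, neg_neg]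

theorem k_x10 (ht : t ≠ 0) (u : K) : cj[C.k t] (C.x 1 0 u) = C.x 1 0 (t * u) := by
  rw [k, map_mul, MulAut.mul_apply, MulAut.conj_apply (C.n 0 2 t), C.n_conj_ca h02 h01 h12.symm ht, C.n_inv1 h02,
    MulAut.conj_apply, C.n_conj_ca h02.symm h12.symm h01 one_ne_zero, one_mul, neg_neg]

theorem k_V1 (t : K) (hg : g ∈ C.V 1) : cj[C.k t] g = g := by
  rw [k, map_mul, MulAut.mul_apply, C.n_commV h02 h01 h12.symm t hg, C.n_inv1 h02, C.n_commV h02.symm h12.symm h01 1 hg]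

theorem k_V2 (ht : t ≠ 0) (hg : g ∈ C.V 2) : cj[C.k t] g ∈ C.V 2 := by
  rw [k, map_mul, MulAut.mul_apply, C.n_inv1 h02]
  exact C.n_memV h02.symm one_ne_zero (C.n_memV h02 ht hg)

theorem k_Y (ht : t ≠ 0) (hg : g ∈ C.Y 2 1) : cj[C.k t] g = C.γ 2 0 1 (C.γ 0 2 t g) := by
  rw [k, map_mul, MulAut.mul_apply, C.cj_n h02 h01 h12.symm ht hg, C.n_inv1 h02,
    C.cj_n h02.symm h12.symm h01 one_ne_zero (C.γ_mem h02 h01 h12.symm t hg)]

theorem s'_mem (t : K) (hg : g ∈ C.Y 2 1) : C.γ 2 0 1 (C.γ 0 2 t g) ∈ C.Y 1 2 :=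
  C.symm_mem (C.γ_mem h02.symm h12.symm h01 1 (C.γ_mem h02 h01 h12.symm t hg))

/-- the function underlying `σ` -/
noncomputable def σ₀ (t : K) : K := C.yi (C.γ 2 0 1 (C.γ 0 2 t (C.y 1)))

theorem s'_y (t d : K) : C.γ 2 0 1 (C.γ 0 2 t (C.y d)) = C.y (C.σ₀ t * d) := by
  have e : C.y (C.σ₀ t) = _ := C.y_yi (C.s'_mem t (C.y_mem' 1))
  by_cases ht : t = 0
  · rw [ht, C.γ_zero h02, γ_one] at e ⊢
    rw [C.y_inj (e.trans C.y_zero.symm), zero_mul, y_zero]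
  have := C.y_sc d 1
  rw [mul_one] at this
  rw [← C.k_Y ht (C.y_mem' _)] at e ⊢
  rw [← this, C.cj_γ (C.k_x10 ht 1), C.cj_γ (C.k_x01 ht d), ← e, γ01_y, γ10_y02]
  congr 1; field_simp

/-- the involution -/
noncomputable def σ : K →+* K where
  toFun := C.σ₀
  map_one' := C.y_inj (by rw [← mul_one (C.σ₀ 1), ← s'_y, C.γγ1 h02 h01 h12.symm (C.y_mem' 1)])
  map_mul' t u := C.y_inj (by
    rw [← mul_one (C.σ₀ (t * u)), ← s'_y, C.s_mul h02 h01 h12.symm t u (C.y_mem' 1), s'_y, s'_y, mul_one])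
  map_zero' := C.y_inj (by rw [← mul_one (C.σ₀ 0), ← s'_y, C.γ_zero h02, γ_one, y_zero])
  map_add' t u := C.y_inj (by
    rw [← mul_one (C.σ₀ (t + u)), ← s'_y, C.γ_add h02 h01 h12.symm t u (C.y_mem' 1),
      C.γ_mul h02.symm h12.symm h01 1 (C.γ_mem h02 h01 h12.symm t (C.y_mem' 1)) (C.γ_mem h02 h01 h12.symm u (C.y_mem' 1)),
      s'_y, s'_y, mul_one, mul_one, y_add])

theorem k_y (ht : t ≠ 0) (d : K) : cj[C.k t] (C.y d) = C.y (C.σ t * d) := by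
  rw [C.k_Y ht (C.y_mem' d)]; exact C.s'_y t d

theorem γ02_y (u d : K) : C.γ 0 2 u (C.y d) = C.y10 (C.σ u * d) := by
  rw [y10_eq, show C.y (C.σ u * d) = _ from (C.s'_y u d).symm,
    C.γγ1 h02.symm h12.symm h01 (C.γ_mem h02 h01 h12.symm u (C.y_mem' d))]

theorem γ20_y10 (u d : K) : C.γ 2 0 u (C.y10 d) = C.y (C.σ u * d) := by
  by_cases hu : u = 0
  · rw [hu, C.γ_zero h02.symm, map_zero, zero_mul, y_zero]
  have := C.γγ h02 h01 h12.symm (inv_ne_zero hu) (C.y_mem' (C.σ u * d))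
  rwa [inv_inv, γ02_y, ← mul_assoc, ← map_mul, inv_mul_cancel₀ hu, map_one, one_mul] at this

theorem ν_y02 (d : K) : cj[C.n 0 1 1] (C.y02 d) = C.y (-d) := by
  rw [C.n_swap h01 one_ne_zero, C.cj_n h01.symm h12 h02 (by simp) (C.y02_mem d), γ10_y02]; simp

theorem ν_x02 (u : K) : cj[C.n 0 1 1] (C.x 0 2 u) = C.x 1 2 (-u) := by
  rw [MulAut.conj_apply, C.n_conj_ac h01 h02 h12 one_ne_zero]; simp

theorem ν_x12 (u : K) : cj[C.n 0 1 1] (C.x 1 2 u) = C.x 0 2 u := by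
  rw [MulAut.conj_apply, C.n_conj_bc h01 h02 h12 one_ne_zero]; simp

theorem ν_y10' (u d : K) : cj[C.n 0 1 1] (C.y10 (C.σ u * d)) = (C.γ 1 2 u (C.y02 d))⁻¹ := by
  rw [← γ02_y, C.cj_γ (C.ν_x02 u), ← C.γ_neg h12 h01.symm h02.symm u (C.symm_mem (C.y02_mem d)), y02]

theorem ν_y10 (d : K) : cj[C.n 0 1 1] (C.y10 d) = (C.y01 d)⁻¹ := by
  have := C.ν_y10' 1 d
  rwa [map_one, one_mul, ← y01_eq] at this

theorem γ12_y02 (u d : K) : C.γ 1 2 u (C.y02 d) = C.y01 (C.σ u * d) := by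
  rw [← inv_inj, ← ν_y10', ν_y10]

theorem ν_y01 (d : K) : cj[C.n 0 1 1] (C.y01 d) = (C.y10 d)⁻¹ := by
  rw [y01_eq, C.cj_γ (C.ν_x12 1), ν_y02, ← y10_eq, y10_neg]

/-- the comparison of the two parametrisations of `Y 0 1` -/
noncomputable def Δ (d : K) : K := C.yi (cj[C.n 2 0 1] (C.y01 d))

theorem y10_Δ (d : K) : C.y10 (C.Δ d) = C.y01 d := by
  have m : cj[C.n 2 0 1] (C.y01 d) ∈ C.Y 1 2 :=
    C.symm_mem (C.nY 2 0 1 h02.symm h12.symm h01 1 one_ne_zero _ (C.y01_mem d))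
  rw [y10, Δ, C.y_yi m, ← C.n_inv1 h02, ← MulAut.mul_apply, ← map_mul]; simp

theorem y01_Δ (d : K) : C.y01 (C.Δ d) = C.y10 d := by rw [← inv_inj, ← ν_y10, y10_Δ, ν_y01]

theorem Δ_Δ (d : K) : C.Δ (C.Δ d) = d := C.y01_inj (by rw [y01_Δ, y10_Δ])

/-- the element of order three -/
def r : G := C.n 1 2 1 * C.n 0 1 1

theorem r_y (d : K) : cj[C.r] (C.y d) = C.y01 d := by rw [r, map_mul, MulAut.mul_apply, y01, y02]

theorem r_x12 (u : K) : cj[C.r] (C.x 1 2 u) = C.x 0 1 u := by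
  rw [r, map_mul, MulAut.mul_apply, ν_x12, MulAut.conj_apply, C.n_conj_cb h12 h01.symm h02.symm one_ne_zero]; simp

theorem r_x01 (u : K) : cj[C.r] (C.x 0 1 u) = C.x 2 0 u := by
  rw [r, map_mul, MulAut.mul_apply, MulAut.conj_apply (C.n 0 1 1), C.n_conj_ab h01 one_ne_zero, MulAut.conj_apply,
    C.n_conj_ac h12 h01.symm h02.symm one_ne_zero]; simp

theorem Δ_mul (t d : K) : C.Δ (t * d) = C.σ t * C.Δ d := by
  have e : ∀ t d, cj[C.r] (C.y02 (t * d)) = C.y (C.σ t * C.Δ d) := fun t d => by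
    rw [← γ01_y, C.cj_γ (C.r_x01 t), r_y, ← y10_Δ, γ20_y10]
  have := e 1 (t * d)
  rw [one_mul, e, map_one, one_mul] at this
  exact (C.y_inj this).symm

theorem Δ_eq (d : K) : C.Δ d = C.Δ 1 * C.σ d := by rw [mul_comm, ← Δ_mul, mul_one]

theorem c₀_σ : C.Δ 1 * C.σ (C.Δ 1) = 1 := by rw [← Δ_eq, Δ_Δ]

theorem σ_σ (t : K) : C.σ (C.σ t) = t := by
  have := C.Δ_Δ t
  rwa [Δ_eq, C.Δ_eq t, map_mul, ← mul_assoc, c₀_σ, one_mul] at this

end CL.TB.C3
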