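/-
S1143 (Tits), C3x3: the maps `sm`, `N`, `b`, `ζ` of a `C3` structure.
-/
import Cfsg.Agent.CHEV.TB.C3x2

set_option autoImplicit false
set_option linter.unusedSectionVars false

namespace CL.TB.C3

variable {K G : Type*} [Field K] [Finite K] [Group G] (C : C3 K G) {t u d : K} {g : G}

local notation "cj[" g "]" => MulAut.conj g

/-- `V 2 ≃ V 1` -/
def v₂ : C.V 2 →* G := (MulAut.conj (C.n 1 2 1)).toMonoidHom.comp (C.V 2).subtype

theorem v₂_eq (v : C.V 2) : C.v₂ v = cj[C.n 1 2 1] v := rfl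
theorem v₂_mem (v : C.V 2) : C.v₂ v ∈ C.V 1 := C.n_memV h12 one_ne_zero v.2
theorem v₂_inj : Function.Injective C.v₂ := fun _ _ h => Subtype.ext ((MulAut.conj _).injective h)

/-- the inverse of `v₂` -/
def vi (g : G) (hg : g ∈ C.V 1) : C.V 2 := ⟨cj[C.n 2 1 1] g, C.n_memV h12.symm one_ne_zero hg⟩

theorem v₂_vi (hg : g ∈ C.V 1) : C.v₂ (C.vi g hg) = g := by
  change cj[C.n 1 2 1] (cj[C.n 2 1 1] g) = g
  rw [← C.n_inv1 h12, ← MulAut.mul_apply, ← map_mul]; simp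

open Classical in
/-- the `V 1`-component of `^{x₁₂(t)} v` -/
noncomputable def lam (t : K) (v : G) : G := if t = 0 then 1 else cj[C.n 1 2 t] v

theorem lam_mem (t : K) (v : C.V 2) : C.lam t v ∈ C.V 1 := by
  unfold lam; split_ifs with h
  exacts [one_mem _, C.n_memV h12 h v.2]

/-- the scalar action -/
noncomputable def sm (t : K) (v : C.V 2) : C.V 2 := C.vi _ (C.lam_mem t v)

theorem v₂_sm (t : K) (v : C.V 2) : C.v₂ (C.sm t v) = C.lam t v := C.v₂_vi _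

theorem sm_zero (v : C.V 2) : C.sm 0 v = 1 := C.v₂_inj (by simp [v₂_sm, lam])
theorem sm_one (v : C.V 2) : C.sm 1 v = v := C.v₂_inj (by rw [v₂_sm, lam, if_neg one_ne_zero, v₂_eq])
theorem sm_hom (t : K) (v w : C.V 2) : C.sm t (v * w) = C.sm t v * C.sm t w := C.v₂_inj (by
  rw [map_mul, v₂_sm, v₂_sm, v₂_sm]; unfold lam; split_ifs <;> simp)

theorem ex_x12 (t : K) (v : C.V 2) : ∃ d, cj[C.x 1 2 t] (v : G) = v * C.v₂ (C.sm t v) * C.y d := by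
  by_cases ht : t = 0
  · exact ⟨0, by simp [ht, C.x_zero h12, sm_zero, y_zero]⟩
  obtain ⟨k, hk, e⟩ := C.cj_xV h12 ht v.2
  obtain ⟨d, rfl⟩ := (C.y_iff k).1 hk
  exact ⟨d, by rw [e, v₂_sm, lam, if_neg ht]⟩

/-- the pseudo-quadratic form -/
noncomputable def N (v : C.V 2) : K := (C.ex_x12 1 v).choose

theorem x12_one (v : C.V 2) : cj[C.x 1 2 1] (v : G) = v * C.v₂ v * C.y (C.N v) := by
  have : _ = _ * _ * C.y (C.N v) := (C.ex_x12 1 v).choose_spec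
  rwa [sm_one] at this

theorem uq {l l' : G} (hl : l ∈ C.V 1) (hl' : l' ∈ C.V 1) {d e : K} (h : l * C.y d = l' * C.y e) : l = l' ∧ d = e :=
  (C.uniq h12 hl hl' (C.y_mem d) (C.y_mem e) h).imp_right fun h => C.y_inj h

theorem x12_and (ht : t ≠ 0) (v : C.V 2) :
    cj[C.h t] (C.v₂ v) = C.v₂ (C.sm t v) ∧ cj[C.x 1 2 t] (v : G) = v * C.v₂ (C.sm t v) * C.y (t * C.N v) := by
  obtain ⟨d, e⟩ := C.ex_x12 t v
  have e' := congrArg cj[C.h t] (C.x12_one v)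
  have e2 : ∀ x y : G, cj[C.h t] (cj[x] y) = cj[cj[C.h t] x] (cj[C.h t] y) := fun x y => by simp [mul_assoc]
  rw [e2, C.h_x12 ht, mul_one, map_mul, map_mul, C.h_V2 t v.2, C.h_y ht, e, mul_assoc, mul_assoc, mul_right_inj] at e'
  obtain ⟨h1, h2⟩ := C.uq (C.v₂_mem _) (C.h_V1 ht (C.v₂_mem v)) e'
  exact ⟨h1.symm, h2 ▸ e⟩

theorem h_v₂ (ht : t ≠ 0) (v : C.V 2) : cj[C.h t] (C.v₂ v) = C.v₂ (C.sm t v) := (C.x12_and ht v).1

theorem x12_v (t : K) (v : C.V 2) : cj[C.x 1 2 t] (v : G) = v * C.v₂ (C.sm t v) * C.y (t * C.N v) := by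
  by_cases ht : t = 0
  · simp [ht, C.x_zero h12, sm_zero, y_zero]
  exact (C.x12_and ht v).2

theorem cj_cj (g x y : G) : cj[g] (cj[x] y) = cj[cj[g] x] (cj[g] y) := by simp [mul_assoc]

theorem sm_mul (t u : K) (v : C.V 2) : C.sm (t * u) v = C.sm t (C.sm u v) := by
  by_cases ht : t = 0
  · simp [ht, sm_zero]
  have e := congrArg cj[C.h t] (C.x12_v u v)
  rw [cj_cj, C.h_x12 ht, map_mul, map_mul, C.h_V2 t v.2, C.h_y ht, C.h_v₂ ht, x12_v, mul_assoc (v : G), mul_assoc (v : G),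
    mul_right_inj] at e
  exact C.v₂_inj (C.uq (C.v₂_mem _) (C.v₂_mem _) e).1

theorem k_and (ht : t ≠ 0) (v : C.V 2) : cj[C.k t] (v : G) = C.sm t v ∧ C.N (C.sm t v) = t * C.σ t * C.N v := by
  have e := congrArg cj[C.k t] (C.x12_v t v)
  have e' := C.x12_one ⟨_, C.k_V2 ht v.2⟩
  rw [cj_cj, C.k_x12 ht, inv_mul_cancel₀ ht, e', map_mul, map_mul, C.k_V1 t (C.v₂_mem _), C.k_y ht, mul_assoc, mul_assoc,
    mul_right_inj] at e
  obtain ⟨h1, h2⟩ := C.uq (C.v₂_mem _) (C.v₂_mem _) e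
  rw [← C.v₂_inj h1, h2]
  exact ⟨rfl, by ring⟩

theorem N_one : C.N 1 = 0 := C.y_inj (by simpa [y_zero] using (C.x12_one 1).symm)

theorem N_sm (t : K) (v : C.V 2) : C.N (C.sm t v) = t * C.σ t * C.N v := by
  by_cases ht : t = 0
  · simp [ht, sm_zero, N_one]
  exact (C.k_and ht v).2

theorem ex_b (v w : C.V 2) : ∃ d, C.v₂ v * w = w * C.v₂ v * C.y d := by
  obtain ⟨k, hk, e⟩ := C.VV 1 2 h12 _ (C.v₂_mem v) _ w.2
  obtain ⟨d, rfl⟩ := (C.y_iff k).1 hk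
  exact ⟨d, e⟩

/-- the form -/
noncomputable def bf (v w : C.V 2) : K := (C.ex_b v w).choose

theorem v₂_mul (v w : C.V 2) : C.v₂ v * w = w * C.v₂ v * C.y (C.bf v w) := (C.ex_b v w).choose_spec

theorem cy {c : Fin 3} (hg : g ∈ C.V c) (d : K) : C.y d * g = g * C.y d := (C.VY 1 2 c h12 g hg _ (C.y_mem d)).eq.symm

theorem bf_left (u v w : C.V 2) : C.bf (u * v) w = C.bf u w + C.bf v w := by
  have e := C.v₂_mul (u * v) w
  rw [map_mul, mul_assoc, v₂_mul, ← mul_assoc, ← mul_assoc, v₂_mul, mul_assoc _ (C.y _), C.cy (C.v₂_mem v)] at e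
  refine C.y_inj ?_
  rw [y_add]; simpa [mul_assoc] using e.symm

theorem bf_right (u v w : C.V 2) : C.bf u (v * w) = C.bf u v + C.bf u w := by
  have e := C.v₂_mul u (v * w)
  rw [Subgroup.coe_mul, ← mul_assoc, v₂_mul, mul_assoc _ (C.y _), C.cy w.2, mul_assoc, ← mul_assoc (C.v₂ u), v₂_mul] at e
  refine C.y_inj ?_
  rw [add_comm, y_add]; simpa [mul_assoc] using e.symm

theorem bf_one_left (w : C.V 2) : C.bf 1 w = 0 := by simpa using C.bf_left 1 1 w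
theorem bf_one_right (w : C.V 2) : C.bf w 1 = 0 := by simpa using C.bf_right w 1 1

theorem bf_sm_left (t : K) (v w : C.V 2) : C.bf (C.sm t v) w = t * C.bf v w := by
  by_cases ht : t = 0
  · simp [ht, sm_zero, bf_one_left]
  have e := congrArg cj[C.h t] (C.v₂_mul v w)
  rw [map_mul, map_mul, map_mul, C.h_V2 t w.2, C.h_v₂ ht, C.h_y ht, v₂_mul, mul_right_inj] at e
  exact C.y_inj e

theorem bf_sm_right (t : K) (v w : C.V 2) : C.bf v (C.sm t w) = C.σ t * C.bf v w := by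
  by_cases ht : t = 0
  · simp [ht, sm_zero, bf_one_right]
  have e := congrArg cj[C.k t] (C.v₂_mul v w)
  rw [map_mul, map_mul, map_mul, C.k_V1 t (C.v₂_mem v), (C.k_and ht w).1, C.k_y ht, v₂_mul, mul_right_inj] at e
  exact C.y_inj e

theorem x12_v₂ (t : K) (v : C.V 2) : cj[C.x 1 2 t] (C.v₂ v) = C.v₂ v := cj_of_comm (C.xV0 1 2 1 h12 h12 t _ (C.v₂_mem v))

theorem cy' {c : Fin 3} (hg : g ∈ C.V c) (d : K) (z : G) : C.y d * (g * z) = g * (C.y d * z) := by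
  rw [← mul_assoc, C.cy hg, mul_assoc]

theorem v₂_mul' (v w : C.V 2) (z : G) : C.v₂ v * (w * z) = w * (C.v₂ v * (C.y (C.bf v w) * z)) := by
  rw [← mul_assoc, v₂_mul, mul_assoc, mul_assoc]

theorem N_mul (v w : C.V 2) : C.N (v * w) = C.N v + C.N w + C.bf v w := by
  have e := C.x12_one (v * w)
  rw [Subgroup.coe_mul, map_mul, x12_one, x12_one, map_mul] at e
  simp only [mul_assoc, C.cy' w.2, C.cy' (C.v₂_mem w), v₂_mul', mul_right_inj, ← y_add] at e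
  rw [← C.y_inj e]; ring

/-- the `V 1`-component of `^{x₁₂(t)} y d` -/
noncomputable def ζ (t d : K) : C.V 2 := C.vi _ (C.γ_memV h12 t (C.y_mem d))

theorem x12_y (t d : K) : cj[C.x 1 2 t] (C.y d) = C.y d * C.v₂ (C.ζ t d) := by rw [ζ, v₂_vi, cj_x]

theorem sm_add (t u : K) (v : C.V 2) : C.sm (t + u) v = C.sm t v * C.sm u v * C.ζ t (u * C.N v) := by
  have e := C.x12_v (t + u) v
  rw [C.x_add 1 2 h12, map_mul, MulAut.mul_apply, x12_v, map_mul, map_mul, x12_v, x12_v₂, x12_y, C.cy (C.v₂_mem _)] at e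
  simp only [mul_assoc, C.cy' (C.v₂_mem _), mul_right_inj, ← y_add] at e
  rw [← mul_assoc, ← mul_assoc, ← map_mul, ← map_mul] at e
  exact (C.v₂_inj (C.uq (C.v₂_mem _) (C.v₂_mem _) e).1).symm

theorem bf_ζ (t d : K) (w : C.V 2) : C.bf (C.ζ t d) w = 0 := by
  have e := congrArg cj[C.x 1 2 t] (C.cy w.2 d)
  rw [map_mul, map_mul, x12_v, x12_y, C.cy (C.v₂_mem _)] at e
  simp only [mul_assoc, C.cy' w.2, C.cy' (C.v₂_mem _), v₂_mul', mul_right_inj, ← y_add] at e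
  rw [← mul_assoc, ← mul_assoc, ← map_mul, ← map_mul] at e
  have := (C.uq (C.v₂_mem _) (C.v₂_mem _) e).2
  linear_combination this

theorem N_eq_zero (v : C.V 2) (h : C.N v = 0) : v = 1 :=
  Subtype.ext (C.nondeg v v.2 _ (C.v₂_mem v) (by simpa [h, y_zero] using C.x12_one v))

theorem r_v (v : C.V 2) : cj[C.r] (v : G) = C.v₂ v := by rw [r, map_mul, MulAut.mul_apply, C.n_commV h01 h02 h12 1 v.2, v₂_eq]

theorem r_v₂ (v : C.V 2) : cj[C.r] (C.v₂ v) = cj[C.n 0 1 1] (C.v₂ v) := by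
  rw [r, map_mul, MulAut.mul_apply, C.n_commV h12 h01.symm h02.symm 1 (C.n_memV h01 one_ne_zero (C.v₂_mem v))]

theorem r_mem (v : C.V 2) : cj[C.r] (C.v₂ v) ∈ C.V 0 := C.r_v₂ v ▸ C.n_memV h01 one_ne_zero (C.v₂_mem v)

theorem x01_v₂ (v : C.V 2) : cj[C.x 0 1 1] (C.v₂ v) = C.v₂ v * cj[C.r] (C.v₂ v) * C.y01 (C.N v) := by
  have e := congrArg cj[C.r] (C.x12_one v)
  rwa [cj_cj, r_x12, map_mul, map_mul, r_v, r_y] at e

theorem x01_y (d : K) : cj[C.x 0 1 1] (C.y d) = C.y d * C.y02 d := by rw [cj_x, y02_eq]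

theorem rel (u : K) (z : G) :
    cj[C.x 0 1 1] (cj[C.x 1 2 u] z) = cj[C.x 0 2 u] (cj[C.x 1 2 u] (cj[C.x 0 1 1] z)) := by
  rw [← MulAut.mul_apply, ← map_mul, C.x_comm 0 1 2 h01 h02 h12, one_mul, map_mul, map_mul, MulAut.mul_apply, MulAut.mul_apply]

theorem uq3 {a a' p p' q q' : G} (ha : a ∈ C.V 0) (ha' : a' ∈ C.V 0) (hp : p ∈ C.Y 0 1) (hp' : p' ∈ C.Y 0 1)
    (hq : q ∈ C.Y 0 2) (hq' : q' ∈ C.Y 0 2) (e : a * (p * q) = a' * (p' * q')) : a = a' ∧ p = p' := by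
  have := C.ind 0 1 2 h01 h02 h12 _ (mul_mem (inv_mem ha') ha) 1 (one_mem _) 1 (one_mem _) _ (mul_mem hp (inv_mem hp')) _
    (mul_mem hq (inv_mem hq')) 1 (one_mem _) (by
      simp only [mul_one, mul_assoc]
      rw [(C.YY _ _ _ _ h01 h02 _ (inv_mem hp') _ hq).left_comm, ← mul_assoc p, ← mul_assoc a, e,
        (C.YY _ _ _ _ h01 h02 _ hp' _ hq').eq]
      group)
  exact ⟨(inv_mul_eq_one.1 this.1).symm, mul_inv_eq_one.1 this.2.2.2.1⟩

theorem N_sub (v : C.V 2) : C.N v - C.Δ (C.N v) = C.bf v v := by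
  have e := C.rel 1 v
  have c1 := cj_of_comm (C.xV0 0 1 2 h01 h12.symm 1 _ v.2)
  obtain ⟨k, hk, e1⟩ := C.cj_xV h02 one_ne_zero v.2
  have m := C.n_memV h02 one_ne_zero v.2
  obtain ⟨z, hz, e2⟩ := C.VV 0 1 h01 _ m _ (C.v₂_mem v)
  have e3 := congrArg cj[C.r] (C.v₂_mul v v)
  rw [map_mul, map_mul, map_mul, r_v, r_y] at e3
  rw [c1, x12_one, map_mul, map_mul, map_mul, map_mul, c1, x01_v₂, x01_y, e1,
    cj_of_comm (C.xV0 0 2 1 h02 h12 1 _ (C.v₂_mem v)), C.cj_x 0 2, ← y10_eq, mul_assoc _ k, ← (C.VY 0 2 1 h02 _ (C.v₂_mem v) _ hk).eq,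
    ← mul_assoc (_ * _) (C.v₂ v) k, mul_assoc (v : G) _ (C.v₂ v), e2] at e
  simp only [mul_assoc, mul_right_inj] at e
  rw [(C.YY _ _ _ _ h01 h12 _ (C.y01_mem _) _ (C.y_mem _)).left_comm, ← C.cy' (C.r_mem v),
    (C.YY _ _ _ _ h02 h12 _ hk _ (C.y_mem _)).left_comm, (C.YY _ _ _ _ h01 h12 _ hz _ (C.y_mem _)).left_comm, ← C.cy' m,
    mul_right_inj, (C.YY _ _ _ _ h02 h01 _ hk _ (C.y10_mem _)).eq, ← mul_assoc z] at e
  obtain ⟨h1, h2⟩ := C.uq3 (C.r_mem v) m (C.y01_mem _) (mul_mem hz (C.y10_mem _)) (C.y02_mem _) hk e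
  rw [h1, e2, mul_right_inj] at e3
  rw [e3, ← y01_Δ, ← y01_add] at h2
  linear_combination C.y01_inj h2

theorem N_ζ (t d : K) : C.N (C.ζ t d) = C.σ t * d + C.Δ (C.σ t * d) := by
  have e := C.rel t (C.y d)
  have m := C.γ_memV h02 t (C.y02_mem d)
  rw [x12_y, x01_y, map_mul, x01_y, x01_v₂, map_mul, x12_y, C.cj_x 1 2, γ12_y02, map_mul, map_mul, map_mul, C.cj_x 0 2, γ02_y,
    cj_of_comm (C.xV0 0 2 1 h02 h12 t _ (C.v₂_mem _)), C.cj_x 0 2,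
    cj_of_comm (C.xY0 0 2 1 h02 h01 h12.symm t _ (C.y01_mem _))] at e
  simp only [mul_assoc, mul_right_inj] at e
  rw [← (C.VY 0 2 1 h02 _ (C.v₂_mem _) _ (C.y02_mem d)).left_comm, ← (C.VY 0 1 1 h01 _ (C.v₂_mem _) _ (C.y10_mem _)).left_comm,
    mul_right_inj, (C.YY _ _ _ _ h01 h02 _ (C.y10_mem _) _ (C.y02_mem _)).left_comm, mul_right_inj,
    ← (C.VY 0 1 0 h01 _ m _ (C.y10_mem _)).left_comm, ← y01_Δ, ← y01_add] at e
  have := (C.uniq h01 (C.r_mem _) m (C.y01_mem _) (C.y01_mem _) e).2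
  linear_combination C.y01_inj this

end CL.TB.C3
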