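/-
S1143 (Tits), C3x: the pseudo-quadratic data of a C3 structure.
-/
import Cfsg.Agent.CHEV.TB.C3x3

set_option autoImplicit false
set_option linter.unusedSectionVars false

namespace CL.TB

open CL.Chev
open scoped MatrixGroups commutatorElement

/-- Indices `0, 1, 2`.  Conjugation `^x`.  By `ind`, `VY`, `YY`, `VV` the components below are unique.
`x_{ab}(t)`: `v ∈ V b ↦ v λ_{ab}(t,v) κ_{ab}(t,v)`; `y ∈ Y b c ↦ y γ_{ab}(t,y)`; `y ∈ Y a b ↦ y τ_{ab}(t,y)`.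
(1) `γ_{ab}(t,·)` is additive in `t`, `y`.  Conjugating `y ∈ Y b c` by `n_{ab}(t) = x_{ab}(t) x_{ba}(-t⁻¹) x_{ab}(t)` (result in `Y a c`, `nY`) gives
`γ_{ba}(t⁻¹) γ_{ab}(t) = id` and `^{n_{ab}(t)} y = γ_{ab}(t,y)`.  With `n_sym`, `nV`, `xV0`: `^{n_{ab}(t)} v = λ_{ab}(t,v)` for `v ∈ V b`, `t ≠ 0`.
(2) `S t = γ_{10}(1) γ_{01}(t) ∈ End (Additive (Y 1 2))` is a ring homomorphism by `hua` (`g t = γ_{10}(t) γ_{01}(1)`); `cardY`: `y d := S d y₀` (`y₀ ≠ 1`) is a bijection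
`K → Y 1 2`.  Put `y₀₂ d = γ_{01}(1) (y d)`, `y₁₀ d = γ_{02}(1) (y d)`, `y₀₁ d = γ_{12}(1) (y₀₂ d)`, `y₀₁ d = y₁₀ (Δ d)`; `γ_{01}(t) (y d) = y₀₂ (t d)`.
(3) `h t = n_{01}(1)⁻¹ n_{01}(t)` centralises `V 2`, maps `x_{12}(u) ↦ x_{12}(t u)` (`n_conj_bc`, `n_conj_ac`, `n_neg`), `y d ↦ y (t d)`.
`k t = n_{02}(1)⁻¹ n_{02}(t)` centralises `V 1`, acts on `Y 1 2` as `S' t = γ_{20}(1) γ_{02}(t)` (a ring homomorphism by `hua`), maps `x_{12}(u) ↦ x_{12}(t⁻¹ u)` and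
`x_{01}(u) ↦ x_{01}(t⁻¹ u)`... precisely `^{k t} x_{01}(u) = x_{01}(t⁻¹ u)` or `(t u)` as `n_conj_*` says; conjugating `γ_{01}` by `k t` shows that `S' t` commutes with `S u`, so
`S' t = S (σ t)`, `σ` a ring endomorphism, `γ_{02}(t) (y d) = y₁₀ (σ t * d)`.
(4) `ν = ^{n_{01}(1)}` maps `x_{02}(u) ↦ x_{12}(-u)`, `x_{12}(u) ↦ x_{02}(u)`, `y d ↦ y₀₂ d`, `y₀₂ d ↦ y (-d)` (`n_swap`).  Hence `ν (y₁₀ (σ u * d)) = γ_{12}(-u) (y₀₂ d)`, so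
`γ_{12}(u) (y₀₂ d) = y₀₁ (σ u * d)`, `ν (y₁₀ (-d)) = y₀₁ d`, `ν (y₀₁ d) = y₁₀ (-d)`, thus `Δ Δ = id`.  Conjugating `S' t = S (σ t)` by `g = n_{12}(1) n_{01}(1)`
(`x_{12}(u) ↦ x_{01}(u)`, `x_{01}(u) ↦ x_{20}..`, `V 2 ∋ v ↦ v₂ v`, `y d ↦ y₀₁ d`, `v₂ v ↦ v₁ v`) and by `ν` compares the two scalar actions on `Y 0 1`:
`γ_{02}(1) γ_{20}(t)` acts on `y₁₀ u` by `σ t` and on `y₀₁ d` by `t`, so `Δ (t d) = σ t * Δ d`, `Δ d = c₀ σ d`, and `Δ Δ = id` gives `c₀ σ c₀ = 1`, `σ σ = id`.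
(5) `v₂ = ^{n_{12}(1)}` on `V 2`, `v₂ (sm t v) = λ_{12}(t,v)`, `y (N v) = κ_{12}(1,v)`, `v₂ v * w = w * v₂ v * y (b v w)`, `v₂ (ζ t d) = τ_{12}(t, y d)`.  Conjugating by `h t`:
`κ_{12}(t,v) = y (t N v)`, `sm_mul`, `b_sm_left`; by `k t` (it acts on `V 2` as `sm t`: compare `V 1`-components): `N_sm`, `b_sm_right`.  `N_mul`, `sm_hom`: `^{x_{12}(t)} (v w)`;
`sm_add`: `x_{12}(t + u)`; `b_ζ`: conjugate `Commute (y d) w` by `x_{12}(t)`.  Apply `x_{01}(1) x_{12}(u) = x_{02}(u) x_{12}(u) x_{01}(1)` to `v ∈ V 2` (`u = 1`) and to `y d`, use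
`κ_{01}(1, v₂ v) = y₀₁ (N v)` and `v₁ v * v₂ w = v₂ w * v₁ v * y₀₁ (b v w)` (conjugate by `g`) and compare `Y 0 1`-components: `N_sub`, `N_ζ`. -/
theorem C3.exists_qd {K G : Type*} [Field K] [Finite K] [Group G] (C : C3 K G) :
    ∃ (D : QD K (C.V 2)) (v₂ : C.V 2 →* G) (y : K → G), D.Real (C.x 1 2) v₂ y (C.V 2).subtype ∧
      v₂.range = C.V 1 ∧ Function.Injective v₂ ∧ (∀ g, g ∈ C.Y 1 2 ↔ ∃ d, g = y d) ∧ Function.Injective y := by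
  refine ⟨⟨C.σ, C.Δ 1, C.sm, C.N, C.bf, C.ζ, C.σ_σ, C.c₀_σ, C.sm_mul, C.sm_one, C.sm_zero, C.sm_hom, C.sm_add, C.N_mul, C.bf_left,
    C.bf_right, C.bf_sm_left, C.bf_sm_right, C.N_sm, fun v => by rw [← C.Δ_eq, C.N_sub], C.N_eq_zero, C.bf_ζ,
    fun t d => by rw [← C.Δ_eq, C.N_ζ], ?_⟩, C.v₂, C.y,
    ⟨C.x_add 1 2 C3.h12, C.y_add, C.x12_v, C.v₂_mul, C.x12_y, fun t v => C.xV0 1 2 1 C3.h12 C3.h12 t _ (C.v₂_mem v),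
      fun v d => (C.cy (C.v₂_mem v) d).symm, fun d v => C.cy v.2 d⟩, ?_, C.v₂_inj, C.y_iff, C.y_inj⟩
  · have := (Subgroup.nontrivial_iff_ne_bot _).2 C.V_ne
    exact exists_ne 1
  · ext g
    exact ⟨by rintro ⟨v, rfl⟩; exact C.v₂_mem v, fun hg => ⟨_, C.v₂_vi hg⟩⟩

end CL.TB
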