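/-
S1143 (Tits), B2i: the residue of the double edge is determined by the parameters.
-/
import Cfsg.Agent.CHEV.TB.C3b
import Cfsg.Agent.CHEV.TB.C3x
import Cfsg.Agent.CHEV.TB.QDi
import Cfsg.Agent.CHEV.TB.Psi

set_option autoImplicit false
set_option linter.unusedSectionVars false

namespace CL.TB

open CL.Chev
open scoped MatrixGroups commutatorElement

namespace B2i

variable {K V Γ : Type*} [Field K] [Group V] [Group Γ]

/-- an additive map as a homomorphism -/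
def hm (f : K → Γ) (h : ∀ t u, f (t + u) = f t * f u) : Multiplicative K →* Γ := MonoidHom.mk' (fun t => f t.toAdd) fun _ _ => h _ _

/-- its range -/
def rg (f : K → Γ) (h : ∀ t u, f (t + u) = f t * f u) : Subgroup Γ := (hm f h).range

theorem zero {f : K → Γ} (h : ∀ t u, f (t + u) = f t * f u) : f 0 = 1 := map_one (hm f h)

variable {D : QD K V} {x : K → Γ} {v₂ : V →* Γ} {y : K → Γ} {v₄ : V →* Γ} (h : D.Real x v₂ y v₄)
include h

theorem c13 (t d : K) : ⁅x t, y d⁆ = v₂ (D.ζ t d) := by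
  rw [commutatorElement_def, h.r13, ← (h.r23 _ _).eq, mul_inv_cancel_right]

theorem c24 (v w : V) : ⁅v₂ v, v₄ w⁆ = y (D.b v w) := by
  rw [commutatorElement_def, h.r24, mul_assoc (v₄ w), (h.r23 _ _).eq, ← mul_assoc, ← (h.r34 _ _).eq]
  group

theorem c14 (t : K) (v : V) : ⁅x t, v₄ v⁆ = (y (D.b (D.sm t v) v))⁻¹ * v₂ (D.sm t v) * y (t * D.N v) := by
  rw [commutatorElement_def, h.r14, mul_assoc _ (y _), (h.r34 _ _).inv_right.eq, ← c24 h, commutatorElement_def]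
  group

end B2i

namespace Bld

open B2i C3b

variable {ι κ G Ω G' Ω' : Type*} [Fintype κ] [DecidableEq κ] [Finite ι] {R : RootSys ι κ}
  [Group G] [MulAction G Ω] [Finite G] [Finite Ω] [FaithfulSMul G Ω] {B : Bld R G Ω}
  [Group G'] [MulAction G' Ω'] [Finite G'] [Finite Ω'] [FaithfulSMul G' Ω'] {B' : Bld R G' Ω'}

/-- `exists_C3`, `C3.exists_qd`; `Bit a2 b ↔ ζ = 1` (`r13`), `Bit b a2 ↔ b = 0` (`r24`) -/
theorem exists_real {a1 a2 b : κ} (h : B3 R a1 a2 b) (hM : ∀ i, B.Mouf i) :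
    ∃ (K : Type) (_ : Field K) (_ : Finite K) (D : QD K (B.X (R.simple b))) (x : K → G) (v₂ : B.X (R.simple b) →* G)
      (y : K → G), D.Real x v₂ y (B.X (R.simple b)).subtype ∧ Nat.card K = B.q a2 ∧
      (∀ g, g ∈ B.X (R.simple a2) ↔ ∃ t, g = x t) ∧ Function.Injective x ∧ v₂.range = B.X (R.σ a2 (R.simple b)) ∧
      Function.Injective v₂ ∧ (∀ g, g ∈ B.X (R.σ b (R.simple a2)) ↔ ∃ d, g = y d) ∧ Function.Injective y ∧
      (B.Bit a2 b ↔ ∀ t d, D.ζ t d = 1) ∧ (B.Bit b a2 ↔ ∀ v w, D.b v w = 0) := by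
  obtain ⟨K, _, _, C, h1, h2, h3, h4, h5, h6⟩ := exists_C3 (B := B) h hM
  have := C.exists_qd
  rw [h4, h5, h6] at this
  obtain ⟨D, v₂, y, r, k1, k2, k3, k4⟩ := this
  refine ⟨K, _, inferInstance, D, _, v₂, y, r, h1, h2, fun t u e => sub_eq_zero.1 (h3 _ (mul_right_cancel (b := C.x 1 2 u) ?_)), k1, k2, k3, k4,
    ⟨fun k t d => k2 ?_, fun k a ha c hc => ?_⟩, fun k v w => k4 ?_, fun k a ha c hc => ?_⟩
  · rw [← r.x_add, sub_add_cancel, one_mul, e]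
  · rw [← c13 r, map_one]
    exact commutatorElement_eq_one_iff_commute.2 (k _ ((h2 _).2 ⟨t, rfl⟩) _ ((k3 _).2 ⟨d, rfl⟩))
  · obtain ⟨t, rfl⟩ := (h2 a).1 ha
    obtain ⟨d, rfl⟩ := (k3 c).1 hc
    rw [← commutatorElement_eq_one_iff_commute, c13 r, k, map_one]
  · rw [← c24 r, zero r.y_add]
    exact commutatorElement_eq_one_iff_commute.2 (k _ w.2 _ (k1.le ⟨v, rfl⟩)).symm
  · obtain ⟨v, rfl⟩ := k1.ge hc
    exact (commutatorElement_eq_one_iff_commute.1 ((c24 r v ⟨a, ha⟩).trans (by rw [k, zero r.y_add]))).symm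

theorem b2_cases {a1 a2 b : κ} (h : B3 R a1 a2 b) (hM : ∀ i, B.Mouf i) :
    B.q b = B.q a2 ∨ B.q b = B.q a2 ^ 2 ∨ B.q b ^ 2 = B.q a2 ∨ B.q b ^ 2 = B.q a2 ^ 3 := by
  obtain ⟨K, _, _, D, -, -, -, -, h1, -⟩ := exists_real h hM
  rw [← h1, ← (hM b).card_X 1]
  exact D.cases

theorem b2_xor {a1 a2 b : κ} (h : B3 R a1 a2 b) (hM : ∀ i, B.Mouf i) (hq : B.q b = B.q a2) (ho : Odd (B.q a2)) :
    B.Bit a2 b ↔ ¬ B.Bit b a2 := by
  obtain ⟨K, _, _, D, -, -, -, -, h1, -, -, -, -, -, -, h2, h3⟩ := exists_real h hM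
  rw [h2, h3]
  exact D.xor (((hM b).card_X 1).trans (hq.trans h1.symm)) (h1 ▸ ho)

/-- `QD.iso`; graphs `Y r₁ = {(x t, x' (ρ t))}`, `Y r₂ = {(v₂ v, v₂' (φ v))}`, `Y r₃ = {(y d, y' (c ρ d))}`, `Y r₄ = {(v, φ v)}` (`E4_pos`; define `Y r` by cases, `⊥` elsewhere);
the pairs satisfy `QD.Real` in `G × G'`, which gives the commutator containments (`r₂, r₃ ∈ QC r₁ r₄`, `r₂ ∈ QC r₁ r₃`, `r₃ ∈ QC r₂ r₄`); `exists_iso_of_gr`. -/
theorem b2_iso {a1 a2 b : κ} (h : B3 R a1 a2 b) (hM : ∀ i, B.Mouf i) (hM' : ∀ i, B'.Mouf i) (h1 : B.q a2 = B'.q a2)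
    (h2 : B.q b = B'.q b) (hb : B.q b = B.q a2 → Odd (B.q a2) → (B.Bit a2 b ↔ B'.Bit a2 b)) :
    ∃ Ψ, B.Iso B' {a2, b} Ψ := by
  classical
  obtain ⟨K, _, _, D, x, v₂, y, r, a1, a2', a3, a4, a5, a6, a7, a8, -⟩ := exists_real h hM
  obtain ⟨K', _, _, D', x', v₂', y', r', b1, b2, b3, b4, b5, b6, b7, b8, -⟩ := exists_real h hM'
  have q : Nat.card (B.X (R.simple b)) = B.q b := (hM b).card_X 1
  obtain ⟨ρ, c, φ, hc, e1, e2, e3, e4⟩ := D.iso D' (by rw [a1, b1, h1]) (q.trans (h2.trans ((hM' b).card_X 1).symm))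
    fun k o => by rw [← a8, ← b8]; exact hb (by rw [← q, k, a1]) (a1 ▸ o)
  have rr : D.Real (fun t => (x t, x' (ρ t))) (v₂.prod (v₂'.comp φ.toMonoidHom)) (fun d => (y d, y' (c * ρ d)))
      ((B.X _).subtype.prod ((B'.X _).subtype.comp φ.toMonoidHom)) :=
    ⟨fun t u => Prod.ext (r.x_add t u) (by simp [r'.x_add]), fun t u => Prod.ext (r.y_add t u) (by simp [mul_add, r'.y_add]),
      fun t v => Prod.ext (r.r14 t v) ((r'.r14 (ρ t) (φ v)).trans (by simp [e1, e2, mul_left_comm])),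
      fun v w => Prod.ext (r.r24 v w) ((r'.r24 (φ v) (φ w)).trans (by simp [e3])),
      fun t d => Prod.ext (r.r13 t d) ((r'.r13 (ρ t) _).trans (by simp [e4])),
      fun t v => Prod.ext (r.r12 t v) (r'.r12 _ (φ v)), fun v d => Prod.ext (r.r23 v d) (r'.r23 (φ v) _),
      fun d v => Prod.ext (r.r34 d v) (r'.r34 _ (φ v))⟩
  let Y : ι → Subgroup (G × G') := fun k => if k = R.simple a2 then rg (fun t => (x t, x' (ρ t))) rr.x_add else if k = R.σ a2 (R.simple b) then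
    (v₂.prod (v₂'.comp φ.toMonoidHom)).range else if k = R.σ b (R.simple a2) then rg (fun d => (y d, y' (c * ρ d))) rr.y_add else
    ((B.X _).subtype.prod ((B'.X _).subtype.comp φ.toMonoidHom)).range
  have i1 := is_a2 h
  have i4 := is_b h
  have i2 := i4.σ2 h
  have i3 := i1.σb h
  have Y1 : Y (R.simple a2) = _ := if_pos rfl
  have Y2 : Y (R.σ a2 (R.simple b)) = _ := (if_neg (i2.ne i1 (by decide))).trans (if_pos rfl)
  have Y3 : Y (R.σ b (R.simple a2)) = _ := (if_neg (i3.ne i1 (by decide))).trans ((if_neg (i3.ne i2 (by decide))).trans (if_pos rfl))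
  have Y4 : Y (R.simple b) = _ := (if_neg (i4.ne i1 (by decide))).trans ((if_neg (i4.ne i2 (by decide))).trans (if_neg (i4.ne i3 (by decide))))
  have t2 := R.rt_σ' a2 (R.simple b)
  have t3 := R.rt_σ' b (R.simple a2)
  rw [R.wt_simple, h.h2b] at t2
  rw [R.wt_simple, h.hb2] at t3
  have g : ∀ {k} {f : K → G} {f' : K' → G'} {c : K'} (hf : ∀ t u, (f (t + u), f' (c * ρ (t + u))) = (f t, f' (c * ρ t)) * (f u, f' (c * ρ u))),
      c ≠ 0 → (∀ g, g ∈ B.X k ↔ ∃ t, g = f t) → (∀ g, g ∈ B'.X k ↔ ∃ t, g = f' t) → f.Injective → f'.Injective →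
      B.Gr B' k (rg (fun t => (f t, f' (c * ρ t))) hf) := fun {k f f' c} hf hc m m' j j' =>
    ⟨by rintro _ ⟨t, rfl⟩; exact ⟨(m _).2 ⟨_, rfl⟩, (m' _).2 ⟨_, rfl⟩⟩, fun a ha => let ⟨t, e⟩ := (m a).1 ha; ⟨_, .ofAdd t, Prod.ext e.symm rfl⟩,
      fun a ha => let ⟨t, e⟩ := (m' a).1 ha; ⟨_, .ofAdd (ρ.symm (c⁻¹ * t)), Prod.ext rfl (by simp [hm, hc, e])⟩, by
        rintro _ ⟨t, rfl⟩
        have z := zero (f := fun t => (f t, f' (c * ρ t))) hf
        change f t.toAdd = 1 ↔ f' (c * ρ t.toAdd) = 1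
        rw [← show f 0 = 1 from congrArg Prod.fst z, ← show f' (c * ρ 0) = 1 from congrArg Prod.snd z, j.eq_iff, j'.eq_iff,
          mul_right_inj' hc, ρ.injective.eq_iff]⟩
  have g' : ∀ {k} {f : B.X (R.simple b) →* G} {f' : B'.X (R.simple b) →* G'}, f.range = B.X k → f'.range = B'.X k →
      Function.Injective f → Function.Injective f' → B.Gr B' k (f.prod (f'.comp φ.toMonoidHom)).range := fun {k f f'} m m' j j' =>
    ⟨by rintro _ ⟨t, rfl⟩; exact ⟨m.le ⟨_, rfl⟩, m'.le ⟨_, rfl⟩⟩, fun a ha => let ⟨t, e⟩ := m.ge ha; ⟨_, t, Prod.ext e rfl⟩,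
      fun a ha => let ⟨t, e⟩ := m'.ge ha; ⟨_, φ.symm t, Prod.ext rfl (by simpa using e)⟩, by
        rintro _ ⟨t, rfl⟩
        simp [map_eq_one_iff _ j, map_eq_one_iff _ j']⟩
  let P : ι → ι → Prop := fun r s => ∀ y ∈ Y r, ∀ z ∈ Y s, ⁅y, z⁆ ∈ ⨆ (k) (_ : QC R r s k), Y k
  have sy : ∀ {r s}, P r s → P s r := fun p y hy z hz => by
    rw [← commutatorElement_inv]
    exact inv_mem ((iSup₂_le fun k hk => le_sup2 Y hk.symm : _ ≤ ⨆ (k) (_ : QC R _ _ k), Y k) (p z hz y hy))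
  have p12 : P (R.simple a2) (R.σ a2 (R.simple b)) := by
    simp only [P, Y1, Y2]
    rintro _ ⟨t, rfl⟩ _ ⟨v, rfl⟩
    exact (rr.r12 _ v).commutator_eq ▸ one_mem _
  have p23 : P (R.σ a2 (R.simple b)) (R.σ b (R.simple a2)) := by
    simp only [P, Y3, Y2]
    rintro _ ⟨t, rfl⟩ _ ⟨v, rfl⟩
    exact (rr.r23 t _).commutator_eq ▸ one_mem _
  have p34 : P (R.σ b (R.simple a2)) (R.simple b) := by
    simp only [P, Y3, Y4]
    rintro _ ⟨t, rfl⟩ _ ⟨v, rfl⟩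
    exact (rr.r34 _ v).commutator_eq ▸ one_mem _
  have p13 : P (R.simple a2) (R.σ b (R.simple a2)) := by
    simp only [P, Y1, Y3]
    rintro _ ⟨t, rfl⟩ _ ⟨v, rfl⟩
    exact le_sup2 Y (r := R.σ a2 (R.simple b)) ⟨1, 1, 2, one_pos, one_pos, two_pos, by rw [t2, t3]; module⟩ (Y2.ge ⟨_, (c13 rr _ _).symm⟩)
  have p24 : P (R.σ a2 (R.simple b)) (R.simple b) := by
    simp only [P, Y2, Y4]
    rintro _ ⟨t, rfl⟩ _ ⟨v, rfl⟩
    exact le_sup2 Y (r := R.σ b (R.simple a2)) ⟨1, 1, 1, one_pos, one_pos, one_pos, by rw [t2, t3]; module⟩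
      (Y3.ge ⟨.ofAdd _, (c24 rr _ _).symm⟩)
  have p14 : P (R.simple a2) (R.simple b) := by
    simp only [P, Y1, Y4]
    rintro _ ⟨t, rfl⟩ _ ⟨v, rfl⟩
    have m2 := (le_sup2 Y (p := QC R (R.simple a2) (R.simple b)) ⟨1, 1, 1, one_pos, one_pos, one_pos, by rw [t2]; module⟩).trans' Y2.ge
    have m3 := (le_sup2 Y (p := QC R (R.simple a2) (R.simple b)) ⟨1, 2, 1, one_pos, two_pos, one_pos, by rw [t3]; module⟩).trans' Y3.ge
    exact (c14 rr t.toAdd v).symm ▸ mul_mem (mul_mem (inv_mem (m3 ⟨.ofAdd _, rfl⟩)) (m2 ⟨_, rfl⟩)) (m3 ⟨.ofAdd _, rfl⟩)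
  refine (exists_iso_of_gr hM hM' (Y := Y) (fun k k1 k2 => ?_) fun k k1 k2 l l1 l2 n => ?_).imp fun _ h => h.1
  · rcases (E4_pos h.h2b h.hb2).1 ⟨k1, k2⟩ with rfl | rfl | rfl | rfl
    · rw [Y1]
      simpa using g (c := 1) (by simpa using rr.x_add) one_ne_zero a2' b2 a3 b3
    · exact Y2 ▸ g' a4 b4 a5 b5
    · exact Y3 ▸ g rr.y_add hc a6 b6 a7 b7
    · exact Y4 ▸ g' (Subgroup.range_subtype _) (Subgroup.range_subtype _) (Subgroup.subtype_injective _) (Subgroup.subtype_injective _)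
  · rcases (E4_pos h.h2b h.hb2).1 ⟨k1, k2⟩ with rfl | rfl | rfl | rfl <;>
      rcases (E4_pos h.h2b h.hb2).1 ⟨l1, l2⟩ with rfl | rfl | rfl | rfl
    exacts [(n rfl).elim, p12, p13, p14, sy p12, (n rfl).elim, p23, p24, sy p13, sy p23, (n rfl).elim, p34, sy p14, sy p24, sy p34,
      (n rfl).elim]

end Bld

end CL.TB
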