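/-
S1143 (Tits), Cox1: parabolic BN-pairs, Feit-Higman, positive definiteness.
-/
import Cfsg.Agent.CHEV.TB.Def
import Cfsg.Agent.CHEV.FeitHigman2
import Cfsg.Agent.CHEV.CoxCartan

set_option autoImplicit false
set_option linter.unusedSectionVars false

namespace CL.TB

open CL.Chev
open scoped MatrixGroups commutatorElement

open CL.Cox

variable {κ κ' G : Type*} [Group G] {m : κ → κ → ℕ} {q : κ → ℕ}

namespace Cox1

open CL.BN

variable {H : Type*} [Group H] (P : Cfsg.BNPair G) (j : H →* G) (hj : Function.Injective j) {J : Set G} (hJ : J ⊆ P.S)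
  (hr : j.range = P.parabolic J)
include hr

theorem B_le : P.B ≤ j.range := hr ▸ B_le_parabolic P J

include hj

theorem mem_dc {g g' : H} (h : j g ∈ DoubleCoset.doubleCoset (j g') (P.B : Set G) P.B) :
    g ∈ DoubleCoset.doubleCoset g' (P.B.comap j : Set H) (P.B.comap j) := by
  obtain ⟨x, hx, y, hy, e⟩ := DoubleCoset.mem_doubleCoset.1 h
  obtain ⟨x, rfl⟩ := B_le P j hr hx
  obtain ⟨y, rfl⟩ := B_le P j hr hy
  exact DoubleCoset.mem_doubleCoset.2 ⟨x, hx, y, hy, hj (by simpa using e)⟩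

include hJ

theorem ex (g : H) : ∃ n ∈ Subgroup.closure (j ⁻¹' J), j n ∈ P.N ∧ δ P (j n) = δ P (j g) := by
  obtain ⟨n, h1, h2, h3⟩ := exists_mem_closure_δ_eq P ((mem_parabolic_iff P hJ).1 (hr ▸ ⟨g, rfl⟩ : j g ∈ P.parabolic J))
  rw [← Set.image_preimage_eq_of_subset (f := j) (s := J) fun s hs => (hr ▸ mem_parabolic_of_mem P hs : s ∈ j.range),
    ← MonoidHom.map_closure] at h1
  obtain ⟨n, h1, rfl⟩ := h1
  exact ⟨n, h1, h2, h3⟩

/-- the BN-pair induced on a parabolic subgroup -/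
def cmp : Cfsg.BNPair H where
  B := P.B.comap j
  N := P.N.comap j
  S := j ⁻¹' J
  sup_eq_top := eq_top_iff.2 fun g _ => by
    obtain ⟨n, -, h2, h3⟩ := ex P j hj hJ hr g
    obtain ⟨x, hx, y, hy, rfl⟩ := DoubleCoset.mem_doubleCoset.1 (mem_dc P j hj hr ((mem_doubleCoset_iff P).2 h3.symm))
    exact mul_mem (mul_mem (Subgroup.mem_sup_left hx) (Subgroup.mem_sup_right h2)) (Subgroup.mem_sup_left hy)
  conj_mem n hn t ht := by simpa using P.conj_mem (j n) hn (j t) ht
  subset s hs := P.subset (hJ hs)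
  sq_mem s hs := by simpa using P.sq_mem _ (hJ hs)
  inj s hs t ht h := hj (P.inj _ (hJ hs) _ (hJ ht) (by simpa using h))
  closure_sup := le_antisymm (sup_le ((Subgroup.closure_le _).2 fun s hs => P.subset (hJ hs)) inf_le_right) fun g hg => by
    obtain ⟨n, h1, h2, h3⟩ := ex P j hj hJ hr g
    rw [← mul_inv_cancel_left n g]
    exact mul_mem (Subgroup.mem_sup_left h1) (Subgroup.mem_sup_right
      ⟨by simpa using (δ_eq_δ_iff_of_mem_N P h2 hg).1 h3, (P.N.comap j).mul_mem ((P.N.comap j).inv_mem h2) hg⟩)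
  mul_mem_union s hs n hn b hb := (P.mul_mem_union _ (hJ hs) _ hn _ hb).imp (fun h => mem_dc P j hj hr (by simpa using h))
    fun h => mem_dc P j hj hr (by simpa using h)
  conj_ne s hs e := by
    obtain ⟨b, hb, h⟩ := exists_mul_conj_not_mem P (hJ hs)
    obtain ⟨b, rfl⟩ := B_le P j hr hb
    have : s * b * s ∈ (P.B.comap j : Set H) := e ▸ ⟨b, hb, rfl⟩
    exact h (by simpa using this)

theorem bnt (f : κ → P.S) (g : κ ≃ (cmp P j hj hJ hr).S) (h : ∀ i, j (g i) = f i) :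
    BNT H (fun a b => orderOf (sW P (f a) * sW P (f b))) fun a => cellIdx P (sW P (f a)) := by
  refine ⟨cmp P j hj hJ hr, g, fun a b => orderOf_eq_orderOf_iff.2 fun n => ?_, fun a => ?_⟩
  · simp only [sW, ← map_mul, ← map_pow, mk_eq_one_iff]
    simp only [Subgroup.coe_mul, SubgroupClass.coe_pow, coe_sN, ← h, ← map_mul, ← map_pow]
    rfl
  · beta_reduce
    rw [← δ_S, ← δ_S, cellIdx_δ, cellIdx_δ, ← h]
    conv_rhs => rw [← Subgroup.map_comap_eq_self (B_le P j hr), ← Subgroup.relIndex_comap, Subgroup.map_comap_eq_self (B_le P j hr)]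
    congr 1
    ext x
    simp only [Subgroup.mem_comap, Subgroup.mem_map_equiv]
    simp [cmp]

end Cox1

theorem BNT.reindex (h : BNT G m q) (e : κ' ≃ κ) : BNT G (fun i j => m (e i) (e j)) fun i => q (e i) :=
  let ⟨P, f, h1, h2⟩ := h
  ⟨P, e.trans f, fun _ _ => h1 _ _, fun _ => h2 _⟩

theorem BNT.of_equiv {G' : Type*} [Group G'] (h : BNT G m q) (e : G ≃* G') : BNT G' m q := by
  obtain ⟨P, f, h1, h2⟩ := h
  have := Cox1.bnt P e.symm.toMonoidHom e.symm.injective (J := P.S) subset_rfl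
    ((MonoidHom.range_eq_top.2 e.symm.surjective).trans (BN.parabolic_S P).symm) f
    (f.trans (e.symm.toEquiv.subtypeEquiv fun _ => Iff.rfl).symm) fun i => e.symm_apply_apply _
  simpa only [h1, h2] using this

/-- `H = P.parabolic J`, `J` the image of `f`; `B' = B.subgroupOf H`, `N' = N.subgroupOf H`, `S' = {s : H | ↑s ∈ J}` (`mem_parabolic_iff`, `exists_mem_closure_δ_eq`).
Orders: `(sW s * sW t) ^ k = 1 ↔ (s t) ^ k ∈ B` (`mk_eq_one_iff`) in both pairs.  `cellIdx`: `cellIdx_δ`, `δ_S`, `relIndex_subgroupOf`. -/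
theorem BNT.para (h : BNT G m q) (f : κ' ↪ κ) : ∃ H : Subgroup G, BNT H (fun i j => m (f i) (f j)) fun i => q (f i) := by
  obtain ⟨P, e, h1, h2⟩ := h
  have hJ : Set.range (fun i => (e (f i) : G)) ⊆ P.S := by
    rintro _ ⟨i, rfl⟩
    exact (e _).2
  have := Cox1.bnt P (P.parabolic _).subtype (Subgroup.subtype_injective _) hJ (Subgroup.range_subtype _) (fun i => e (f i))
    (Equiv.ofBijective (fun i => ⟨⟨e (f i), BN.mem_parabolic_of_mem P ⟨i, rfl⟩⟩, i, rfl⟩)
      ⟨fun a b h => f.injective (e.injective (Subtype.ext (congrArg (fun x => x.1.1) h))),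
        fun ⟨⟨_, _⟩, i, h⟩ => ⟨i, Subtype.ext (Subtype.ext h)⟩⟩) fun i => rfl
  exact ⟨_, by simpa only [h1, h2] using this⟩

/-- `para` with `f : Fin 2 ↪ κ`, `BN.feit_higman` -/
theorem BNT.fh [Finite G] (h : BNT G m q) {i j : κ} (hij : i ≠ j) : m i j ∈ ({2, 3, 4, 6, 8} : Set ℕ) := by
  obtain ⟨H, P, e, h1, -⟩ := h.para (⟨![i, j], fun a b => by fin_cases a <;> fin_cases b <;> simp [hij, hij.symm]⟩ : Fin 2 ↪ κ)
  rw [← show _ = m i j from h1 0 1]
  refine BN.feit_higman P (e.injective.ne (by decide)) fun k => ?_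
  obtain ⟨k, rfl⟩ := e.surjective k
  fin_cases k <;> simp

theorem BNT.diag (h : BNT G m q) (i : κ) : m i i = 1 := by
  obtain ⟨P, e, h1, -⟩ := h
  rw [← h1, BN.sW_mul_self, orderOf_one]

theorem BNT.symm (h : BNT G m q) (i j : κ) : m i j = m j i := by
  obtain ⟨P, e, h1, -⟩ := h
  rw [← h1, ← h1, ← orderOf_inv, mul_inv_rev, (BN.gen P).inv_simple, (BN.gen P).inv_simple]

open Polynomial.Chebyshev in
theorem Cox1.refl_pow {V : Type*} [AddCommGroup V] [Module ℝ V] {x y : V} {f g : Module.Dual ℝ V} (hf : f x = 2) (hg : g y = 2) {n : ℕ}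
    (hn : n ∈ ({2, 3, 4, 6, 8} : Set ℕ)) (h1 : f y = -cc n) (h2 : g x = -cc n) :
    (Module.reflection hf * Module.reflection hg) ^ n = 1 := by
  ext z
  rw [Module.reflection_mul_reflection_pow_apply hf hg n z (cc n ^ 2 - 2) (by rw [h1, h2]; ring), h1, h2]
  have r2 : (0 : ℝ) ≤ 2 + √2 := by positivity
  have S3 : S ℝ 3 = Polynomial.X * S ℝ 2 - S ℝ 1 := S_add_two ℝ 1
  rcases hn with rfl | rfl | rfl | rfl | rfl
  · norm_num [cc]
    abel
  · norm_num [cc]
  · norm_num [cc]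
  · norm_num [cc, S_two]
  · have : √2 * (√2 ^ 2 - 1) - √2 = 0 := by rw [Real.sq_sqrt (by norm_num)]; ring
    norm_num [cc, S3, S_two, Real.sq_sqrt r2, this]

/-- The geometric representation.  `β i j = if i = j then 2 else -cc (m i j)`, `σ_i v = v - (∑ j, β i j * v j) e_i` on `κ → ℝ`; `T = σ_i σ_j` satisfies
`(T - 1)(T² - (c² - 2) T + 1) = 0` (`c = cc (m i j)`; `T - 1` has image in the span of `e_i, e_j`), which divides `T ^ m - 1` for `m = 3, 4, 6, 8`; `m = 2` directly.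
`Exch.wp_eq_of_wp_eq` (CHEV/CoxMatsumoto) gives `ρ : W →* End`.  `⟨u, v⟩ = ∑ w, ρ w u ⬝ᵥ ρ w v` is invariant and positive definite; `⟨σ_i e_i, σ_i v⟩ = ⟨e_i, v⟩` gives
`2 ⟨e_i, e_j⟩ = β i j * d i`, `d i = ⟨e_i, e_i⟩ > 0`; symmetry and connectedness make `d` constant. -/
theorem posdef {W : Type*} [Group W] [Finite W] [Fintype κ] [DecidableEq κ] {s : κ → W} (h : Exch s)
    (hm : ∀ i j, orderOf (s i * s j) = m i j) (hv : ∀ i j, i ≠ j → m i j ∈ ({2, 3, 4, 6, 8} : Set ℕ))
    (hc : ∀ J : Set κ, J.Nonempty → Jᶜ.Nonempty → ∃ i ∈ J, ∃ j ∉ J, m i j ≠ 2) (x : κ → ℝ) (hx : x ≠ 0) :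
    ∑ i, ∑ j, cc (m i j) * x i * x j < 2 * ∑ i, x i ^ 2 := by
  have := Fintype.ofFinite W
  have c1 : ∀ i, cc (m i i) = 0 := fun i => by simp [← hm, h.mul_self, cc]
  have hs : ∀ i j, m i j = m j i := fun i j => by rw [← hm, ← hm, ← orderOf_inv, mul_inv_rev, h.toGen.inv_simple, h.toGen.inv_simple]
  let β : Matrix κ κ ℝ := fun i j => (if i = j then 2 else 0) - cc (m i j)
  let f : κ → Module.Dual ℝ (κ → ℝ) := fun i => (LinearMap.proj i).comp β.mulVecLin
  have hf : ∀ i j, f i (Pi.single j 1) = β i j := fun i j => by simp [f]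
  have h2 : ∀ i, f i (Pi.single i 1) = 2 := fun i => by simp [hf, β, c1]
  obtain ⟨ρ, hρ⟩ := h.exists_hom (fun i => Module.reflection (h2 i)) (fun i => by ext1 z; exact Module.involutive_reflection (h2 i) z)
    fun i j => by
      by_cases e : i = j
      · subst e
        rw [h.mul_self, orderOf_one, pow_one]
        ext1 z
        exact Module.involutive_reflection (h2 i) z
      · exact hm i j ▸ Cox1.refl_pow _ _ (hv i j e) (by simp [hf, β, e]) (by simp [hf, β, Ne.symm e, hs j i])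
  let F : (κ → ℝ) →ₗ[ℝ] (κ → ℝ) →ₗ[ℝ] ℝ := ∑ w, (dotProductBilin ℝ ℝ).compl₁₂ (ρ w).toLinearMap (ρ w).toLinearMap
  have hF : ∀ u v, F u v = ∑ w, ρ w u ⬝ᵥ ρ w v := fun u v => by simp [F, LinearMap.sum_apply]
  have sy : ∀ u v, F u v = F v u := fun u v => by simp only [hF, dotProduct_comm]
  have pos : ∀ u, u ≠ 0 → 0 < F u u := fun u hu => by
    rw [hF]
    refine Finset.sum_pos' (fun w _ => Finset.sum_nonneg fun i _ => mul_self_nonneg _) ⟨1, Finset.mem_univ _, ?_⟩
    exact (Finset.sum_nonneg fun i _ => mul_self_nonneg _).lt_of_ne fun e => hu (by simpa using dotProduct_self_eq_zero.1 e.symm)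
  have inv : ∀ a u v, F (ρ a u) (ρ a v) = F u v := fun a u v => by
    rw [hF, hF, ← Equiv.sum_comp (Equiv.mulRight a) fun w => ρ w u ⬝ᵥ ρ w v]
    simp
  have key : ∀ i v, 2 * F (Pi.single i 1) v = f i v * F (Pi.single i 1) (Pi.single i 1) := fun i v => by
    have := inv (s i) (Pi.single i 1) v
    rw [hρ, Module.reflection_apply_self, Module.reflection_apply] at this
    simp only [map_neg, map_sub, map_smul, LinearMap.neg_apply, smul_eq_mul] at this
    linarith
  obtain ⟨a, -⟩ := Function.ne_iff.1 hx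
  have hd : ∀ i, F (Pi.single i 1) (Pi.single i 1) = F (Pi.single a 1) (Pi.single a 1) := fun i => by
    by_contra hn
    obtain ⟨i, hi, j, hj, e⟩ := hc {i | F (Pi.single i 1) (Pi.single i 1) = F (Pi.single a 1) (Pi.single a 1)} ⟨a, rfl⟩ ⟨i, hn⟩
    have ij : i ≠ j := fun e => hj (e ▸ hi)
    have k1 := key i (Pi.single j 1)
    rw [sy, key, hf, hf, hi] at k1
    simp only [β, if_neg ij, if_neg ij.symm, hs j i] at k1
    refine hj (mul_left_cancel₀ ?_ k1)
    have := hv i j ij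
    have r2 : (0 : ℝ) < 2 + √2 := by positivity
    rcases this with k | k | k | k | (k : _ = _)
    · exact (e k).elim
    all_goals rw [k]; simp [cc, r2.ne', r2.le]
  have h3 : 2 * F x x = (∑ i, x i * f i x) * F (Pi.single a 1) (Pi.single a 1) := by
    conv_lhs => rw [show F x = F (∑ i, x i • Pi.single i 1) from congrArg F (pi_eq_sum_univ' x)]
    simp only [map_sum, map_smul, LinearMap.sum_apply, LinearMap.smul_apply, smul_eq_mul, Finset.mul_sum, Finset.sum_mul]
    exact Finset.sum_congr rfl fun i _ => by rw [mul_left_comm, key, hd, mul_assoc]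
  have h4 : 0 < ∑ i, x i * f i x := pos_of_mul_pos_left (h3 ▸ mul_pos two_pos (pos x hx)) (pos (Pi.single a 1) (by simp)).le
  have h5 : ∑ i, x i * f i x = 2 * ∑ i, x i ^ 2 - ∑ i, ∑ j, cc (m i j) * x i * x j := by
    rw [Finset.mul_sum, ← Finset.sum_sub_distrib]
    refine Finset.sum_congr rfl fun i _ => ?_
    rw [show f i x = ∑ j, ((if i = j then 2 else 0) - cc (m i j)) * x j from rfl]
    simp only [sub_mul, Finset.sum_sub_distrib, ite_mul, zero_mul, Finset.sum_ite_eq, Finset.mem_univ, if_true, mul_sub, Finset.mul_sum]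
    congr 1
    · ring
    · exact Finset.sum_congr rfl fun j _ => by ring
  linarith

end CL.TB
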