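/-
S1143 (Tits), Cox2a: test vectors for positive definite Coxeter diagrams.
-/
import Cfsg.Agent.CHEV.TB.Def

set_option autoImplicit false
set_option linter.unusedSectionVars false

namespace CL.TB.Cx

open Finset

theorem cc_nonneg (n : ℕ) : 0 ≤ cc n := by unfold cc; split_ifs <;> positivity

theorem cc_cases {n : ℕ} (h : n ∈ ({2, 3, 4, 6, 8} : Set ℕ)) (h2 : n ≠ 2) :
    1 ≤ cc n ∧ (n ≠ 3 → √2 ≤ cc n) ∧ (n ≠ 3 → n ≠ 4 → 3 ≤ cc n ^ 2) := by
  have h1 : (1 : ℝ) ≤ √2 := Real.one_le_sqrt.2 (by norm_num)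
  rcases h with rfl | rfl | rfl | rfl | rfl
  · exact (h2 rfl).elim
  · simp [cc]
  · simp [cc]
  · have : √2 ≤ √3 := Real.sqrt_le_sqrt (by norm_num)
    simp [cc]
    norm_num
  · have : √2 ≤ √(2 + √2) := Real.sqrt_le_sqrt (by linarith)
    have e : cc 8 = √(2 + √2) := by simp [cc]
    rw [e, Real.sq_sqrt (by linarith)]
    exact ⟨h1.trans this, fun _ => this, fun _ _ => by linarith⟩

variable {S : Type*} [Fintype S] [DecidableEq S] {m : S → S → ℕ}

structure Hy (m : S → S → ℕ) : Prop where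
  h1 : ∀ i, m i i = 1
  hs : ∀ i j, m i j = m j i
  hv : ∀ i j, i ≠ j → m i j ∈ ({2, 3, 4, 6, 8} : Set ℕ)
  hp : ∀ x : S → ℝ, x ≠ 0 → ∑ i, ∑ j, cc (m i j) * x i * x j < 2 * ∑ i, x i ^ 2

structure Pa (m : S → S → ℕ) (k : ℕ) (p : ℕ → S) : Prop where
  inj : ∀ i < k, ∀ j < k, p i = p j → i = j
  adj : ∀ i, i + 1 < k → m (p i) (p (i + 1)) ≠ 2

variable (H : Hy m) {k : ℕ} {p : ℕ → S}
include H

theorem Hy.one {a b : S} (h : a ≠ b) (h2 : m a b ≠ 2) : 1 ≤ cc (m a b) := (cc_cases (H.hv a b h) h2).1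

theorem Hy.test (x : S → ℝ) (h0 : ∀ a, 0 ≤ x a) (hne : x ≠ 0) (h : ∀ a, x a ≠ 0 → 2 * x a ≤ ∑ b, cc (m a b) * x b) : False := by
  refine (H.hp x hne).not_ge ?_
  rw [mul_sum]
  refine sum_le_sum fun a _ => ?_
  by_cases ha : x a = 0
  · simp [ha]
  · calc 2 * x a ^ 2 = x a * (2 * x a) := by ring
      _ ≤ x a * ∑ b, cc (m a b) * x b := mul_le_mul_of_nonneg_left (h a ha) (h0 a)
      _ = _ := by rw [mul_sum]; exact sum_congr rfl fun b _ => by ring

theorem Hy.star (a : S) (T : Finset S) (ha : a ∉ T) : ∑ b ∈ T, cc (m a b) ^ 2 < 4 := by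
  by_contra! hc
  let x : S → ℝ := fun s => if s = a then 2 else if s ∈ T then cc (m a s) else 0
  have h0 : ∀ s, 0 ≤ x s := fun s => by simp only [x]; split_ifs; exacts [by norm_num, cc_nonneg _, le_rfl]
  have xa : x a = 2 := if_pos rfl
  refine H.test x h0 (fun e => by simpa [xa] using congrFun e a) fun s hs => ?_
  have h1 := fun b => mul_nonneg (cc_nonneg (m s b)) (h0 b)
  by_cases e : s = a
  · subst e
    refine le_trans ?_ (sum_le_sum_of_subset_of_nonneg (subset_univ T) fun b _ _ => h1 b)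
    rw [xa, sum_congr rfl fun b hb => show cc (m s b) * x b = cc (m s b) ^ 2 by
      simp [x, hb, show b ≠ s from fun e => ha (e ▸ hb), pow_two]]
    linarith
  · refine le_trans ?_ (single_le_sum (fun b _ => h1 b) (mem_univ a))
    have : s ∈ T := by by_contra k; simp [x, e, k] at hs
    simp [x, e, this, H.hs s a, mul_comm]

theorem Hy.ptest (P : Pa m k p) (y : ℕ → ℝ) (v w : S) (yv yw : ℝ) (h0 : ∀ i, 0 ≤ y i) (hv0 : 0 ≤ yv) (hw0 : 0 ≤ yw)
    (y0 : y 0 = 0) (yk : y (k + 1) = 0) (hv : yv ≠ 0 → ∀ i < k, p i ≠ v) (hw : yw ≠ 0 → (∀ i < k, p i ≠ w) ∧ v ≠ w)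
    (hne : ∃ i < k, y (i + 1) ≠ 0)
    (hp : ∀ i < k, 2 * y (i + 1) ≤ cc (m (p i) (p (i - 1))) * y i + cc (m (p i) (p (i + 1))) * y (i + 2) +
      cc (m (p i) v) * yv + cc (m (p i) w) * yw)
    (hv' : 2 * yv ≤ ∑ i ∈ range k, cc (m v (p i)) * y (i + 1) + cc (m v w) * yw)
    (hw' : 2 * yw ≤ ∑ i ∈ range k, cc (m w (p i)) * y (i + 1) + cc (m w v) * yv) : False := by
  let x : S → ℝ := fun s => (∑ i ∈ range k, if p i = s then y (i + 1) else 0) + (if v = s then yv else 0) +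
    if w = s then yw else 0
  have hs : ∀ a, ∑ b, cc (m a b) * x b = ∑ i ∈ range k, cc (m a (p i)) * y (i + 1) + cc (m a v) * yv + cc (m a w) * yw :=
    fun a => by simp [x, mul_add, sum_add_distrib, mul_sum, sum_comm (s := univ)]
  have xp : ∀ i < k, x (p i) = y (i + 1) := fun i hi => by
    have e1 : (if v = p i then yv else 0) = 0 := ite_eq_right_iff.2 fun e => by_contra fun k => hv k i hi e.symm
    have e2 : (if w = p i then yw else 0) = 0 := ite_eq_right_iff.2 fun e => by_contra fun k => (hw k).1 i hi e.symm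
    simp only [x, e1, e2, add_zero]
    rw [sum_eq_single i (fun j hj hji => if_neg fun e => hji (P.inj j (mem_range.1 hj) i hi e)) (by simp [hi]), if_pos rfl]
  refine H.test x (fun a => add_nonneg (add_nonneg (sum_nonneg fun i _ => by split_ifs; exacts [h0 _, le_rfl])
    (by split_ifs; exacts [hv0, le_rfl])) (by split_ifs; exacts [hw0, le_rfl])) (fun e => ?_) fun a ha => ?_
  · obtain ⟨i, hi, h⟩ := hne
    exact h ((xp i hi).symm.trans (congrFun e _))
  rw [hs]
  by_cases h : ∃ i < k, p i = a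
  · obtain ⟨i, hi, rfl⟩ := h
    refine (xp i hi).symm ▸ (hp i hi).trans (add_le_add_left (add_le_add_left ?_ _) _)
    have h1 : ∀ j ∈ range k, 0 ≤ cc (m (p i) (p j)) * y (j + 1) := fun j _ => mul_nonneg (cc_nonneg _) (h0 _)
    rcases i with _ | i <;> rcases (Nat.succ_le_of_lt hi).eq_or_lt with e | e
    · rw [y0, show y (0 + 2) = 0 by rw [← yk, ← e]]
      simpa using sum_nonneg h1
    · rw [y0, mul_zero, zero_add]
      exact single_le_sum h1 (mem_range.2 e)
    · rw [show y (i + 1 + 2) = 0 by rw [← yk, ← e], mul_zero, add_zero]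
      exact single_le_sum h1 (mem_range.2 (show i < k by omega))
    · exact add_le_sum h1 (mem_range.2 (show i < k by omega)) (mem_range.2 e) (by omega)
  have e0 : (∑ i ∈ range k, if p i = a then y (i + 1) else 0) = 0 :=
    sum_eq_zero fun i hi => if_neg fun e => h ⟨i, mem_range.1 hi, e⟩
  have c1 : cc 1 = 0 := by simp [cc]
  simp only [x, e0, zero_add] at ha ⊢
  by_cases h1 : v = a
  · subst h1
    have e2 : (if w = v then yw else 0) = 0 := ite_eq_right_iff.2 fun e => by_contra fun k => (hw k).2 e.symm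
    rw [e2, if_pos rfl, H.h1, c1]
    linarith
  · by_cases h2 : w = a
    · subst h2
      rw [if_neg h1, if_pos rfl, H.h1, c1]
      linarith
    · simp [h1, h2] at ha

/-- integer weights `Y (i + 1)` on the path, scaled by `√2` outside `a < t < b`; `v` is joined to `p i₁, p i₂`, `w` to `p j` or `v` -/
theorem Hy.T (P : Pa m k p) (Y : ℕ → ℕ) (a b : ℕ) (v w : S) (Yv Yw i₁ i₂ j : ℕ) (hab : a + 2 ≤ b)
    (ha : 0 < a → a < k → m (p (a - 1)) (p a) ≠ 3) (hb : b ≤ k → m (p (b - 2)) (p (b - 1)) ≠ 3)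
    (hv : Yv ≠ 0 → (∀ i < k, p i ≠ v) ∧ m (p i₁) v ≠ 2 ∧ m (p i₂) v ≠ 2)
    (hw : Yw ≠ 0 → (∀ i < k, p i ≠ w) ∧ v ≠ w ∧ if j < k then m (p j) w ≠ 2 else m v w ≠ 2)
    (h1 : Y 0 = 0 ∧ Y (k + 1) = 0 ∧ (∃ i < k, Y (i + 1) ≠ 0) ∧ (Yv ≠ 0 → i₁ < k ∧ i₂ < k ∧ a ≤ i₁ ∧ i₁ + 2 ≤ b ∧ a ≤ i₂ ∧ i₂ + 2 ≤ b) ∧
      (Yw ≠ 0 → j < k → a ≤ j ∧ j + 2 ≤ b) ∧
      2 * Yv ≤ Y (i₁ + 1) + (if i₁ = i₂ then 0 else Y (i₂ + 1)) + (if j < k then 0 else Yw) ∧
      2 * Yw ≤ if j < k then Y (j + 1) else Yv)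
    (hp : ∀ i < k, 2 * Y (i + 1) ≤ (if i = a then 2 * Y i else Y i) + (if i + 2 = b then 2 * Y (i + 2) else Y (i + 2)) +
      (if i = i₁ ∨ i = i₂ then Yv else 0) + if i = j then Yw else 0) : False := by
  obtain ⟨Y0, Yk, hne, bv, bw, iv, iw⟩ := h1
  let s : ℕ → ℝ := fun t => if t ≤ a ∨ b ≤ t then √2 else 1
  have r1 : (1 : ℝ) ≤ √2 := Real.one_le_sqrt.2 (by norm_num)
  have r2 : √2 * √2 = (2 : ℝ) := Real.mul_self_sqrt (by norm_num)
  have s1 : ∀ t, 1 ≤ s t := fun t => by simp only [s]; split_ifs; exacts [r1, le_rfl]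
  have s0 : ∀ t, a < t → t < b → s t = 1 := fun t h h' => if_neg (by omega)
  have ne : ∀ i, i + 1 < k → p i ≠ p (i + 1) := fun i hi e => by have := P.inj i (by omega) _ hi e; omega
  have ed : ∀ i, i + 1 < k → s (i + 2) * (if i + 1 = a then 2 else 1) ≤ cc (m (p i) (p (i + 1))) * s (i + 1) ∧
      s (i + 1) * (if i + 2 = b then 2 else 1) ≤ cc (m (p i) (p (i + 1))) * s (i + 2) := fun i hi => by
    obtain ⟨c1, c2, -⟩ := cc_cases (H.hv _ _ (ne i hi)) (P.adj i hi)
    by_cases e : i + 1 = a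
    · subst e
      have := c2 (ha (by omega) hi)
      rw [s0 (i + 2) (by omega) (by omega), if_pos rfl, if_neg (by omega), show s (i + 1) = √2 from if_pos (by omega)]
      constructor <;> nlinarith
    by_cases e' : i + 2 = b
    · subst e'
      have := c2 (hb hi)
      rw [s0 (i + 1) (by omega) (by omega), if_pos rfl, if_neg e, show s (i + 2) = √2 from if_pos (by omega)]
      constructor <;> nlinarith
    · have : s (i + 2) = s (i + 1) := if_congr (by omega) rfl rfl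
      have := s1 (i + 1)
      rw [if_neg e, if_neg e', ‹s (i + 2) = _›]
      constructor <;> nlinarith
  have nn : ∀ t, 0 ≤ s t * Y t := fun t => mul_nonneg (by linarith [s1 t]) (Nat.cast_nonneg _)
  have tm : ∀ u : S, ∀ i ∈ range k, 0 ≤ cc (m u (p i)) * (s (i + 1) * Y (i + 1)) := fun u i _ => mul_nonneg (cc_nonneg _) (nn _)
  have lo : ∀ (u : S) i, p i ≠ u → m (p i) u ≠ 2 → (Y (i + 1) : ℝ) ≤ cc (m u (p i)) * (s (i + 1) * Y (i + 1)) := fun u i h h' => by
    have := H.one h h'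
    have := s1 (i + 1)
    have : (0 : ℝ) ≤ Y (i + 1) := Nat.cast_nonneg _
    rw [H.hs u, ← mul_assoc]
    exact le_mul_of_one_le_left this (by nlinarith)
  have vw : (((if j < k then 0 else Yw : ℕ) : ℝ) ≤ cc (m v w) * Yw) ∧ (Yw ≠ 0 → ¬ j < k → (Yv : ℝ) ≤ cc (m w v) * Yv) := by
    refine ⟨?_, fun h h' => le_mul_of_one_le_left (Nat.cast_nonneg _) (H.hs v w ▸ H.one (hw h).2.1 (if_neg h' ▸ (hw h).2.2 :))⟩
    split_ifs with h
    · simpa using mul_nonneg (cc_nonneg _) (Nat.cast_nonneg _)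
    · by_cases e : Yw = 0
      · simp [e]
      · exact le_mul_of_one_le_left (Nat.cast_nonneg _) (H.one (hw e).2.1 (if_neg h ▸ (hw e).2.2 :))
  refine H.ptest P (fun t => s t * Y t) v w Yv Yw nn (Nat.cast_nonneg _) (Nat.cast_nonneg _) (by simp [Y0]) (by simp [Yk])
    (fun h => (hv (by simpa using h)).1) (fun h => ⟨(hw (by simpa using h)).1, (hw (by simpa using h)).2.1⟩)
    (hne.imp fun i h => ⟨h.1, mul_ne_zero (by linarith [s1 (i + 1)]) (by simpa using h.2)⟩) (fun i hi => ?_) ?_ ?_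
  · have h2 := (Nat.cast_le (α := ℝ)).2 (hp i hi)
    rw [Nat.cast_add, Nat.cast_add, Nat.cast_add, Nat.cast_mul, Nat.cast_ofNat] at h2
    have h3 : s (i + 1) * ((if i = a then 2 * Y i else Y i : ℕ) : ℝ) ≤ cc (m (p i) (p (i - 1))) * (s i * Y i) := by
      rcases i with _ | i
      · simp [Y0]
      · have := mul_le_mul_of_nonneg_right (ed i hi).1 (Nat.cast_nonneg (Y (i + 1)))
        rw [H.hs, ← mul_assoc]
        split_ifs at this ⊢ <;> simpa [mul_assoc] using this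
    have h4 : s (i + 1) * ((if i + 2 = b then 2 * Y (i + 2) else Y (i + 2) : ℕ) : ℝ) ≤
        cc (m (p i) (p (i + 1))) * (s (i + 2) * Y (i + 2)) := by
      rcases (Nat.succ_le_of_lt hi).eq_or_lt with e | e
      · simp [show Y (i + 2) = 0 by rw [← Yk, ← e]]
      · have := mul_le_mul_of_nonneg_right (ed i e).2 (Nat.cast_nonneg (Y (i + 2)))
        rw [← mul_assoc]
        split_ifs at this ⊢ <;> simpa [mul_assoc] using this
    have h5 : s (i + 1) * ((if i = i₁ ∨ i = i₂ then Yv else 0 : ℕ) : ℝ) ≤ cc (m (p i) v) * Yv := by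
      split_ifs with h
      · by_cases e : Yv = 0
        · simp [e]
        · have := bv e
          rw [s0 _ (by omega) (by omega)]
          exact mul_le_mul_of_nonneg_right (H.one ((hv e).1 i hi) (by rcases h with rfl | rfl; exacts [(hv e).2.1, (hv e).2.2]))
            (Nat.cast_nonneg _)
      · simpa using mul_nonneg (cc_nonneg _) (Nat.cast_nonneg _)
    have h6 : s (i + 1) * ((if i = j then Yw else 0 : ℕ) : ℝ) ≤ cc (m (p i) w) * Yw := by
      split_ifs with h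
      · by_cases e : Yw = 0
        · simp [e]
        · subst h
          have := bw e hi
          rw [s0 _ (by omega) (by omega)]
          exact mul_le_mul_of_nonneg_right (H.one ((hw e).1 i hi) (if_pos hi ▸ (hw e).2.2 :)) (Nat.cast_nonneg _)
      · simpa using mul_nonneg (cc_nonneg _) (Nat.cast_nonneg _)
    have := mul_le_mul_of_nonneg_left h2 (show 0 ≤ s (i + 1) by linarith [s1 (i + 1)])
    linarith
  · by_cases e : Yv = 0
    · simpa [e] using add_nonneg (sum_nonneg (tm v)) (mul_nonneg (cc_nonneg (m v w)) (Nat.cast_nonneg Yw))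
    obtain ⟨b1, b2, -⟩ := bv e
    have h2 := (Nat.cast_le (α := ℝ)).2 iv
    have l1 := lo v i₁ ((hv e).1 _ b1) (hv e).2.1
    have l2 := lo v i₂ ((hv e).1 _ b2) (hv e).2.2
    rw [Nat.cast_add, Nat.cast_add, Nat.cast_mul, Nat.cast_ofNat] at h2
    refine h2.trans (add_le_add ?_ vw.1)
    split_ifs with h
    · simpa using l1.trans (single_le_sum (tm v) (mem_range.2 b1))
    · exact (add_le_add l1 l2).trans (add_le_sum (tm v) (mem_range.2 b1) (mem_range.2 b2) h)
  · by_cases e : Yw = 0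
    · simpa [e] using add_nonneg (sum_nonneg (tm w)) (mul_nonneg (cc_nonneg (m w v)) (Nat.cast_nonneg Yv))
    have h2 := (Nat.cast_le (α := ℝ)).2 iw
    rw [Nat.cast_mul, Nat.cast_ofNat] at h2
    split_ifs at h2 with h
    · exact h2.trans (((lo w j ((hw e).1 _ h) (if_pos h ▸ (hw e).2.2 :)).trans (single_le_sum (tm w) (mem_range.2 h))).trans
        (le_add_of_nonneg_right (mul_nonneg (cc_nonneg _) (Nat.cast_nonneg _))))
    · exact h2.trans ((vw.2 e h).trans (le_add_of_nonneg_left (sum_nonneg (tm w))))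

end CL.TB.Cx
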