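/-
S1143 (Tits), Cox2: the classification of connected positive definite Coxeter diagrams of rank at least three.
-/
import Cfsg.Agent.CHEV.TB.Cox2a

set_option autoImplicit false
set_option linter.unusedSectionVars false

namespace CL.TB

open CL.Chev
open scoped MatrixGroups commutatorElement

namespace Cx

variable {S : Type*} [Fintype S] [DecidableEq S] {m : S → S → ℕ} {k j : ℕ} {p : ℕ → S} {v : S}

theorem Pa.mono (P : Pa m k p) (h : j ≤ k) : Pa m j p :=
  ⟨fun a ha b hb => P.inj a (by omega) b (by omega), fun a ha => P.adj a (by omega)⟩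

theorem Pa.ne (P : Pa m k p) {a b : ℕ} (ha : a < k) (hb : b < k) (h : a ≠ b) : p a ≠ p b := fun e => h (P.inj a ha b hb e)

theorem Pa.rev (H : Hy m) (P : Pa m k p) : Pa m k fun i => p (k - 1 - i) :=
  ⟨fun a ha b hb e => by have := P.inj _ (by omega) _ (by omega) e; omega, fun a ha => by
    have := P.adj (k - 1 - (a + 1)) (by omega)
    rwa [H.hs, show k - 1 - (a + 1) + 1 = k - 1 - a by omega] at this⟩

theorem upd_inj (P : Pa m k p) (hv : ∀ i < k, p i ≠ v) :
    ∀ a < k + 1, ∀ b < k + 1, Function.update p k v a = Function.update p k v b → a = b := fun a ha b hb e => by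
  by_cases h : a = k <;> by_cases h' : b = k
  · omega
  · simp only [h, Function.update_self, Function.update_of_ne h'] at e
    exact (hv b (by omega) e.symm).elim
  · simp only [h', Function.update_self, Function.update_of_ne h] at e
    exact (hv a (by omega) e).elim
  · rw [Function.update_of_ne h, Function.update_of_ne h'] at e
    exact P.inj a (by omega) b (by omega) e

theorem Pa.snoc (P : Pa m (k + 1) p) (hv : ∀ i < k + 1, p i ≠ v) (h : m (p k) v ≠ 2) :
    Pa m (k + 2) (Function.update p (k + 1) v) :=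
  ⟨upd_inj P hv, fun a ha => by
    rw [Function.update_of_ne (by omega)]
    by_cases e : a = k
    · subst e
      rwa [Function.update_self]
    · rw [Function.update_of_ne (by omega)]
      exact P.adj a (by omega)⟩

/-- `v` is a vertex outside the path joined to `p j` -/
structure Br (m : S → S → ℕ) (k : ℕ) (p : ℕ → S) (v : S) (j : ℕ) : Prop extends Pa m k p where
  out : ∀ i < k, p i ≠ v
  lt : j < k
  ed : m (p j) v ≠ 2

theorem Br.rev (H : Hy m) (B : Br m k p v j) : Br m k (fun i => p (k - 1 - i)) v (k - 1 - j) :=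
  have := B.lt
  ⟨B.toPa.rev H, fun i hi => B.out _ (by omega), by omega, by
    have := B.ed
    rwa [show j = k - 1 - (k - 1 - j) by omega] at this⟩

theorem Br.snoc (B : Br m k p v j) : Pa m (j + 2) (Function.update p (j + 1) v) :=
  (B.toPa.mono B.lt).snoc (fun i hi => B.out i (by have := B.lt; omega)) B.ed

variable (H : Hy m)
include H

theorem Br.uniq (B : Br m k p v j) {i : ℕ} (hi : i < k) (h : m (p i) v ≠ 2) : i = j := by
  by_contra hn
  have := B.lt
  refine H.T B.toPa (fun t => if min i j + 1 ≤ t ∧ t ≤ max i j + 1 then 1 else 0) 0 (k + 2) v v 1 0 i j k (by omega) (by omega)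
    (by omega) (fun _ => ⟨B.out, h, B.ed⟩) (by omega) ⟨by simp, if_neg (by omega), ⟨i, hi, by simp⟩, by omega, by omega, ?_, by omega⟩
    fun l hl => ?_ <;> split_ifs <;> first | omega | tauto

theorem Pa.chord (P : Pa m k p) {i : ℕ} (hi : i + 1 < j) (hj : j < k) : m (p i) (p j) = 2 := by
  by_contra h
  obtain ⟨j, rfl⟩ : ∃ l, j = l + 1 := ⟨j - 1, by omega⟩
  have := Br.uniq H ⟨P.mono hj.le, fun a ha => P.ne (by omega) hj (by omega), by omega, P.adj j hj⟩ (i := i) (by omega) h
  omega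

theorem Hy.fin (t : Ty) (n : ℕ) (g : ℕ → S) (hi : ∀ i < n, ∀ j < n, g i = g j → i = j) (hs : ∀ s, ∃ i < n, g i = s) (ok : t.ok n)
    (h : ∀ i j, i < j → j < n → m (g i) (g j) = if t.dbl n i j then 4 else if t.adj n i j then 3 else 2) :
    ∃ (t : Ty) (n : ℕ) (e : Fin n ≃ S), t.ok n ∧ ∀ i j, m (e i) (e j) = t.m n i j := by
  have h1 : ∀ i j : Fin n, i < j → m (g i) (g j) = t.m n i j ∧ t.m n j i = t.m n i j := fun i j hij => by
    have h0 : (i : ℕ) < j := hij
    have h2 : ¬ t.dbl n j i := by cases t <;> simp only [Ty.dbl] <;> first | omega | simp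
    have h3 : ¬ t.adj n j i := by cases t <;> simp only [Ty.adj] <;> omega
    simp [Ty.m, h i j hij j.2, h2, h3, hij.ne, hij.ne']
  refine ⟨t, n, Equiv.ofBijective (fun i => g i) ⟨fun i j e => Fin.ext (hi _ i.2 _ j.2 e), fun s => ?_⟩, ok, fun i j => ?_⟩
  · obtain ⟨i, hi, e⟩ := hs s
    exact ⟨⟨i, hi⟩, e⟩
  · rcases lt_trichotomy i j with e | rfl | e
    · exact (h1 i j e).1
    · simp [Ty.m, H.h1]
    · exact (H.hs _ _).trans ((h1 j i e).1.trans (h1 j i e).2.symm)

theorem Hy.star2 {a b c : S} (ab : a ≠ b) (ac : a ≠ c) (bc : b ≠ c) (hb : m a b ≠ 2) (hc : m a c ≠ 2) (h3 : m a b ≠ 3) : m a b = 4 := by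
  by_contra h4
  have := H.star a {b, c} (by simp [ab, ac])
  rw [Finset.sum_pair bc] at this
  nlinarith [(cc_cases (H.hv a b ab) hb).2.2 h3 h4, H.one ac hc]

theorem Pa.four (P : Pa m k p) (hk : 3 ≤ k) {i : ℕ} (hi : i + 1 < k) (h : m (p i) (p (i + 1)) ≠ 3) : m (p i) (p (i + 1)) = 4 := by
  rcases i with _ | i
  · rw [H.hs] at h ⊢
    exact H.star2 (P.ne hi (by omega) (by omega)) (P.ne hi hk (by omega)) (P.ne (by omega) hk (by omega))
      (H.hs _ _ ▸ P.adj 0 hi) (P.adj 1 hk) h
  · exact H.star2 (P.ne (b := i + 1 + 1) (by omega) hi (by omega)) (P.ne (b := i) (by omega) (by omega) (by omega))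
      (P.ne hi (by omega) (by omega)) (P.adj _ hi) (H.hs _ _ ▸ P.adj i (by omega)) h

theorem Pa.two (P : Pa m k p) {i : ℕ} (hi : i < j) (hj : j + 1 < k) (h : m (p i) (p (i + 1)) ≠ 3) : m (p j) (p (j + 1)) = 3 := by
  by_contra h'
  refine H.T P (fun t => if t = i + 1 ∨ t = j + 2 then 1 else if i + 1 < t ∧ t < j + 2 then 2 else 0) (i + 1) (j + 2) (p 0) (p 0) 0 0 k k k
    (by omega) (fun _ _ => h) (fun _ => h') (by omega) (by omega) ⟨by simp, ?_, ⟨i, by omega, by simp⟩, by omega, by omega, by omega, by omega⟩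
    fun l hl => ?_ <;> split_ifs <;> first | omega | tauto

theorem Pa.dbl (P : Pa m k p) (hk : 3 ≤ k) (hj : j + 1 < k) (h : m (p j) (p (j + 1)) ≠ 3) (a b : ℕ) (hab : a < b) (hb : b < k) :
    m (p a) (p b) = if a = j ∧ b = j + 1 then 4 else if b = a + 1 then 3 else 2 := by
  split_ifs with h1 h2
  · rw [h1.1, h1.2]
    exact P.four H hk hj h
  · subst h2
    rcases lt_trichotomy a j with e | e | e
    · by_contra k
      exact h (P.two H e hj k)
    · omega
    · exact P.two H e hb h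
  · exact P.chord H (by omega) hb

theorem Pa.chainB (P : Pa m k p) (hk : 3 ≤ k) (hs : ∀ s, ∃ i < k, p i = s) (hj : j + 2 = k) (h : m (p j) (p (j + 1)) ≠ 3) :
    ∃ (t : Ty) (n : ℕ) (e : Fin n ≃ S), t.ok n ∧ ∀ i j, m (e i) (e j) = t.m n i j :=
  H.fin .B k p P.inj hs hk fun a b hab hb => (P.dbl H hk (by omega) h a b hab hb).trans
    (if_congr (by simp only [Ty.dbl]; omega) rfl (if_congr Iff.rfl rfl rfl))

theorem Pa.chain (P : Pa m k p) (hk : 3 ≤ k) (hs : ∀ s, ∃ i < k, p i = s) :
    ∃ (t : Ty) (n : ℕ) (e : Fin n ≃ S), t.ok n ∧ ∀ i j, m (e i) (e j) = t.m n i j := by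
  by_cases h : ∀ j, j + 1 < k → m (p j) (p (j + 1)) = 3
  · refine H.fin .A k p P.inj hs hk fun a b hab hb => ?_
    rw [if_neg (by simp [Ty.dbl])]
    split_ifs with e
    · exact (e : b = a + 1) ▸ h a ((e : b = a + 1) ▸ hb)
    · exact P.chord H (by simp only [Ty.adj] at e; omega) hb
  push Not at h
  obtain ⟨j, hj, h⟩ := h
  by_cases h1 : j + 2 = k
  · exact P.chainB H hk hs h1 h
  by_cases h0 : j = 0
  · subst h0
    refine (P.rev H).chainB H hk (fun s => ?_) (j := k - 2) (by omega) ?_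
    · obtain ⟨i, hi, e⟩ := hs s
      exact ⟨k - 1 - i, by omega, by rwa [show k - 1 - (k - 1 - i) = i by omega]⟩
    · rwa [H.hs, show k - 1 - (k - 2 + 1) = 0 by omega, show k - 1 - (k - 2) = 0 + 1 by omega]
  have h2 : j = 1 := by
    by_contra h2
    refine H.T P (fun t => if t ≤ j + 1 then t + 2 - j else j + 4 - t) 0 (j + 2) (p 0) (p 0) 0 0 k k k
      (by omega) (by omega) (fun _ => h) (by omega) (by omega) ⟨?_, ?_, ⟨j, by omega, ?_⟩, by omega, by omega, by omega, by omega⟩
      fun l hl => ?_ <;> split_ifs <;> first | omega | tauto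
  have h3 : k = 4 := by
    by_contra h3
    refine H.T P (fun t => if t ≤ j + 1 then t + 1 - j else j + 5 - t) (j + 1) (k + 2) (p 0) (p 0) 0 0 k k k
      (by omega) (fun _ _ => h) (by omega) (by omega) (by omega) ⟨?_, ?_, ⟨j, by omega, ?_⟩, by omega, by omega, by omega, by omega⟩
      fun l hl => ?_ <;> split_ifs <;> first | omega | tauto
  exact H.fin .F k p P.inj hs h3 fun a b hab hb => (P.dbl H hk (by omega) h a b hab hb).trans
    (if_congr (by simp only [Ty.dbl]; omega) rfl (if_congr Iff.rfl rfl rfl))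

/-- `k` is the maximal length of a path -/
def Mx (m : S → S → ℕ) (k : ℕ) : Prop := ∀ k' p', Pa m k' p' → k' ≤ k

theorem Br.ends (M : Mx m k) (B : Br m k p v j) : 0 < j ∧ j + 2 ≤ k := by
  have := M _ _ B.snoc
  have := M _ _ (B.rev H).snoc
  have := B.lt
  omega

omit H in
theorem Br.arm (M : Mx m k) (B : Br m k p v j) {w : S} (hw : ∀ i < k, p i ≠ w) (vw : v ≠ w) (h : m v w ≠ 2) : j + 3 ≤ k := by
  have := B.lt
  refine M _ _ (B.snoc.snoc (v := w) (fun i hi => ?_) (by rwa [Function.update_self]))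
  by_cases e : i = j + 1
  · rwa [e, Function.update_self]
  · rw [Function.update_of_ne e]
    exact hw i (by omega)

theorem Br.three (M : Mx m k) (B : Br m k p v j) {i : ℕ} (hi : i + 1 < k) : m (p i) (p (i + 1)) = 3 := by
  by_contra h
  have := B.ends H M
  rcases lt_or_ge i j with e | e
  · refine H.T B.toPa (fun t => if t = i + 1 ∨ t = j + 2 then 1 else if i + 1 < t ∧ t < j + 2 then 2 else 0) (i + 1) (k + 2) v v 1 0 j j k
      (by omega) (fun _ _ => h) (by omega) (fun _ => ⟨B.out, B.ed, B.ed⟩) (by omega)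
      ⟨?_, ?_, ⟨i, by omega, ?_⟩, by omega, by omega, ?_, by omega⟩ fun l hl => ?_ <;> split_ifs <;> first | omega | tauto
  · refine H.T B.toPa (fun t => if t = j ∨ t = i + 2 then 1 else if j < t ∧ t < i + 2 then 2 else 0) 0 (i + 2) v v 1 0 j j k
      (by omega) (by omega) (fun _ => h) (fun _ => ⟨B.out, B.ed, B.ed⟩) (by omega)
      ⟨?_, ?_, ⟨j, by omega, ?_⟩, by omega, by omega, ?_, by omega⟩ fun l hl => ?_ <;> split_ifs <;> first | omega | tauto

theorem Br.three' (M : Mx m k) (B : Br m k p v j) : m (p j) v = 3 := by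
  by_contra h
  obtain ⟨h0, h1⟩ := B.ends H M
  obtain ⟨j, rfl⟩ : ∃ l, j = l + 1 := ⟨j - 1, by omega⟩
  have n1 := B.toPa.ne (a := j + 1) (b := j) (by omega) (by omega) (by omega)
  have n2 := B.toPa.ne (a := j + 1) (b := j + 1 + 1) (by omega) (by omega) (by omega)
  have n3 := B.toPa.ne (a := j) (b := j + 1 + 1) (by omega) (by omega) (by omega)
  have := H.star (p (j + 1)) {v, p j, p (j + 1 + 1)} (by simp [n1, n2, B.out _ B.lt])
  rw [Finset.sum_insert (by simp [(B.out j (by omega)).symm, (B.out (j + 1 + 1) (by omega)).symm]), Finset.sum_pair n3] at this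
  have c := (cc_cases (H.hv _ _ (B.out _ B.lt)) B.ed).2.1 h
  have r2 : √2 * √2 = (2 : ℝ) := Real.mul_self_sqrt (by norm_num)
  nlinarith [H.one n1 (H.hs _ _ ▸ B.adj j (by omega)), H.one n2 (B.adj _ h1), Real.sqrt_nonneg 2]

theorem Br.all (hc : ∀ J : Set S, J.Nonempty → Jᶜ.Nonempty → ∃ i ∈ J, ∃ j ∉ J, m i j ≠ 2) (M : Mx m k) (B : Br m k p v j) (s : S) :
    ∃ i < k + 1, Function.update p k v i = s := by
  by_contra hn
  obtain ⟨_, ⟨i, hi, rfl⟩, w, hw, h⟩ := hc {s | ∃ i < k + 1, Function.update p k v i = s} ⟨_, k, by omega, rfl⟩ ⟨s, hn⟩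
  have w1 : ∀ i < k, p i ≠ w := fun i hi e => hw ⟨i, by omega, by rwa [Function.update_of_ne hi.ne]⟩
  have w2 : v ≠ w := fun e => hw ⟨k, by omega, by rwa [Function.update_self]⟩
  have := B.ends H M
  by_cases e : i = k
  · rw [e, Function.update_self] at h
    have := B.arm M w1 w2 h
    have := (B.rev H).arm M (fun i hi => w1 _ (by omega)) w2 h
    refine H.T B.toPa (fun t => 3 - (t - (j + 1)) - (j + 1 - t)) 0 (k + 2) v w 2 1 j j k
      (by omega) (by omega) (by omega) (fun _ => ⟨B.out, B.ed, B.ed⟩) (fun _ => ⟨w1, w2, by rwa [if_neg (by omega)]⟩)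
      ⟨?_, ?_, ⟨j, by omega, ?_⟩, by omega, by omega, ?_, ?_⟩ fun l hl => ?_ <;> (try split_ifs) <;> omega
  · rw [Function.update_of_ne e] at h
    have := Br.ends H M ⟨B.toPa, w1, by omega, h⟩
    refine H.T B.toPa (fun t => if t = min i j ∨ t = max i j + 2 then 1 else if min i j < t ∧ t < max i j + 2 then 2 else 0) 0 (k + 2)
      v w 1 1 j j i (by omega) (by omega) (by omega) (fun _ => ⟨B.out, B.ed, B.ed⟩) (fun _ => ⟨w1, w2, by rwa [if_pos (by omega)]⟩)
      ⟨?_, ?_, ⟨j, by omega, ?_⟩, by omega, by omega, ?_, ?_⟩ fun l hl => ?_ <;> split_ifs <;> first | omega | tauto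

theorem Br.ent (M : Mx m k) (B : Br m k p v j) (a b : ℕ) (hab : a < b) (hb : b < k + 1) :
    m (Function.update p k v a) (Function.update p k v b) = if (b = a + 1 ∧ b < k) ∨ (a = j ∧ b = k) then 3 else 2 := by
  rw [Function.update_of_ne (by omega)]
  by_cases e : b = k
  · subst e
    rw [Function.update_self]
    split_ifs with h
    · exact (show a = j by omega) ▸ B.three' H M
    · by_contra h'
      have := B.uniq H hab h'
      omega
  · rw [Function.update_of_ne e]
    split_ifs with h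
    · obtain rfl : b = a + 1 := by omega
      exact B.three H M (by omega)
    · exact B.toPa.chord H (by omega) (by omega)

variable (hc : ∀ J : Set S, J.Nonempty → Jᶜ.Nonempty → ∃ i ∈ J, ∃ j ∉ J, m i j ≠ 2) (M : Mx m k)
include hc M

theorem Br.D (B : Br m k p v j) (h : j + 2 = k) :
    ∃ (t : Ty) (n : ℕ) (e : Fin n ≃ S), t.ok n ∧ ∀ i j, m (e i) (e j) = t.m n i j :=
  have := B.ends H M
  H.fin .D (k + 1) _ (upd_inj B.toPa B.out) (B.all H hc M) (by simp only [Ty.ok]; omega) fun a b hab hb => by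
    rw [if_neg (by simp [Ty.dbl]), B.ent H M a b hab hb]
    exact if_congr (by simp only [Ty.adj]; omega) rfl rfl

theorem Br.E (B : Br m k p v j) (h : j = 2) (hk : 5 ≤ k) :
    ∃ (t : Ty) (n : ℕ) (e : Fin n ≃ S), t.ok n ∧ ∀ i j, m (e i) (e j) = t.m n i j := by
  have h7 : k ≤ 7 := by
    by_contra h7
    refine H.T B.toPa (fun t => 6 - (t - (j + 1)) - 2 * (j + 1 - t)) 0 (k + 2) v v 3 0 j j k
      (by omega) (by omega) (by omega) (fun _ => ⟨B.out, B.ed, B.ed⟩) (by omega)
      ⟨?_, ?_, ⟨j, by omega, ?_⟩, by omega, by omega, ?_, by omega⟩ fun l hl => ?_ <;> (try split_ifs) <;> omega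
  refine H.fin .E (k + 1) (fun i => Function.update p k v (if i = 0 then 0 else if i = 1 then k else i - 1)) (fun a ha b hb e => ?_)
    (fun s => ?_) (by simp only [Ty.ok]; omega) fun a b hab hb => ?_
  · have := upd_inj B.toPa B.out _ (by split_ifs <;> omega) _ (by split_ifs <;> omega) e
    split_ifs at this <;> omega
  · obtain ⟨i, hi, rfl⟩ := B.all H hc M s
    exact ⟨if i = 0 then 0 else if i = k then 1 else i + 1, by split_ifs <;> omega, congrArg _ (by split_ifs <;> first | omega | contradiction)⟩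
  · rw [if_neg (show ¬ Ty.dbl .E (k + 1) a b from id)]
    by_cases e : a = 1
    · rw [H.hs, B.ent H M _ _ (by split_ifs <;> omega) (by split_ifs <;> omega)]
      exact if_congr (by simp only [Ty.adj]; split_ifs <;> omega) rfl rfl
    · rw [B.ent H M _ _ (by split_ifs <;> omega) (by split_ifs <;> omega)]
      exact if_congr (by simp only [Ty.adj]; split_ifs <;> omega) rfl rfl

theorem Br.branch (B : Br m k p v j) : ∃ (t : Ty) (n : ℕ) (e : Fin n ≃ S), t.ok n ∧ ∀ i j, m (e i) (e j) = t.m n i j := by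
  have := B.ends H M
  by_cases h1 : j + 2 = k
  · exact B.D H hc M h1
  by_cases h2 : j = 1
  · exact (B.rev H).D H hc M (by omega)
  by_cases h3 : j = 2
  · exact B.E H hc M h3 (by omega)
  by_cases h4 : j + 3 = k
  · exact (B.rev H).E H hc M (by omega) (by omega)
  exfalso
  refine H.T B.toPa (fun t => 4 - (t - (j + 1)) - (j + 1 - t)) 0 (k + 2) v v 2 0 j j k
    (by omega) (by omega) (by omega) (fun _ => ⟨B.out, B.ed, B.ed⟩) (by omega)
    ⟨?_, ?_, ⟨j, by omega, ?_⟩, by omega, by omega, ?_, by omega⟩ fun l hl => ?_ <;> (try split_ifs) <;> omega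

end Cx

/-- Only test vectors `x ≥ 0` supported on sub-diagrams are needed (`cc m ≥ 1` on edges, `cc m ^ 2 ∈ {1, 2, 3, 2 + √2}`).  Humphreys, Lie algebras 11.4:
no cycles (`x = 1` on the cycle); for a vertex `v` with neighbours `u_k`: `∑ cc² < 4` (`x v = 2`, `x u_k = cc`), so degree `≤ 3`, labels `6, 8` do not occur in rank `≥ 3`
(`3 + 1 ≥ 4`); along a path of simple edges (`x = 2` on the path, `cc` at the neighbours of the ends): at most one "special feature" (double edge or branch point) in the tree;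
chains with `x = 1, 2, …, p` give `(p - 1)(r - 1) < 2` for a double edge between chains of `p`, `r` vertices and `1/p + 1/r + 1/s > 1` for a branch point
(equivalently the affine diagrams `F̃₄ (1,2,3,2√2,√2)`, `Ẽ₆, Ẽ₇, Ẽ₈` are excluded).
Suggested formalisation: induction on the cardinality, removing a vertex `v` whose complement is connected (a leaf of a spanning tree, or a vertex at maximal distance from a base point);
the rest is `Fin n ≃` a listed diagram (or an edge, `n = 2`), `v` has exactly one neighbour (no cycles), and a case analysis on type, neighbour and label gives the new numbering or a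
forbidden vector.  Alternatively take a longest path `f : ℕ → S` and locate the remaining vertices.  Split into helper files freely. -/
theorem classify {S : Type*} [Fintype S] [DecidableEq S] (m : S → S → ℕ) (h1 : ∀ i, m i i = 1) (hs : ∀ i j, m i j = m j i)
    (hv : ∀ i j, i ≠ j → m i j ∈ ({2, 3, 4, 6, 8} : Set ℕ))
    (hc : ∀ J : Set S, J.Nonempty → Jᶜ.Nonempty → ∃ i ∈ J, ∃ j ∉ J, m i j ≠ 2)
    (hp : ∀ x : S → ℝ, x ≠ 0 → ∑ i, ∑ j, cc (m i j) * x i * x j < 2 * ∑ i, x i ^ 2) (h3 : 3 ≤ Fintype.card S) :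
    ∃ (t : Ty) (n : ℕ) (e : Fin n ≃ S), t.ok n ∧ ∀ i j, m (e i) (e j) = t.m n i j := by
  classical
  have H : Cx.Hy m := ⟨h1, hs, hv, hp⟩
  have hl : ∀ k p, Cx.Pa m k p → k ≤ Fintype.card S := fun k p P => by
    simpa using Fintype.card_le_of_injective (fun i : Fin k => p i) fun i j e => Fin.ext (P.inj _ i.2 _ j.2 e)
  obtain ⟨a⟩ : Nonempty S := Fintype.card_pos_iff.1 (by omega)
  have P1 : Cx.Pa m 1 fun _ => a := ⟨fun i hi j hj _ => by omega, fun i hi => by omega⟩
  have M : Cx.Mx m (Nat.findGreatest (fun k => ∃ p, Cx.Pa m k p) (Fintype.card S)) := fun k p P => Nat.le_findGreatest (hl k p P) ⟨p, P⟩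
  obtain ⟨p, P⟩ := Nat.findGreatest_spec (P := fun k => ∃ p, Cx.Pa m k p) (hl _ _ P1) ⟨_, P1⟩
  generalize Nat.findGreatest (fun k => ∃ p, Cx.Pa m k p) _ = k at M P
  by_cases h : ∀ s, ∃ i < k, p i = s
  · refine P.chain H (h3.trans ?_) h
    simpa using Fintype.card_le_of_surjective (fun i : Fin k => p i) fun s => (h s).elim fun i hi => ⟨⟨i, hi.1⟩, hi.2⟩
  · obtain ⟨_, ⟨j, hj, rfl⟩, v, hv, h⟩ := hc {s | ∃ i < k, p i = s} ⟨_, 0, M _ _ P1, rfl⟩ (not_forall.1 h)
    exact Cx.Br.branch H hc M ⟨P, fun i hi e => hv ⟨i, hi, e⟩, hj, h⟩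

end CL.TB
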