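/-
S1143 (Tits), GQ1: generalized quadrangles (pure incidence geometry).
-/
import Cfsg.Agent.CHEV.TB.Def

set_option autoImplicit false
set_option linter.unusedSectionVars false

namespace CL.TB

open CL.Chev
open scoped MatrixGroups commutatorElement

/-- a generalized quadrangle of order `(s, t)` -/
structure GQ (P L : Type*) where
  I : P → L → Prop
  s : ℕ
  t : ℕ
  card_pts : ∀ l, Nat.card {p // I p l} = s + 1
  card_lines : ∀ p, Nat.card {l // I p l} = t + 1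
  uniq : ∀ p p' l l', I p l → I p l' → I p' l → I p' l' → p = p' ∨ l = l'
  proj : ∀ p l, ¬ I p l → ∃! x : P × L, I p x.2 ∧ I x.1 x.2 ∧ I x.1 l

namespace GQ

variable {P L : Type*} [Finite P] [Finite L] (Q : GQ P L)

/-- the finite set defined by a predicate -/
noncomputable def fs {α : Type*} [Finite α] (p : α → Prop) : Finset α := (Set.toFinite {a | p a}).toFinset

theorem mem_fs {α : Type*} [Finite α] {p : α → Prop} {a : α} : a ∈ fs p ↔ p a := by simp [fs]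

theorem card_fs {α : Type*} [Finite α] (p : α → Prop) : (fs p).card = Nat.card {a // p a} := by
  rw [fs, ← Set.ncard_eq_toFinset_card _ (Set.toFinite _)]
  rfl

theorem card_fs_ne {α : Type*} [Finite α] {p : α → Prop} {a : α} {n : ℕ} (h : (fs p).card = n + 1) (ha : p a) :
    (fs fun x => p x ∧ x ≠ a).card = n := by
  classical
  have : (fs fun x => p x ∧ x ≠ a) = (fs p).erase a := by
    ext x
    simp [mem_fs, and_comm]
  rw [this, Finset.card_erase_of_mem (mem_fs.2 ha), h, Nat.add_sub_cancel]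

theorem exists_ne_of_card {α : Type*} [Finite α] {p : α → Prop} (h : 2 ≤ (fs p).card) (a : α) :
    ∃ b, p b ∧ b ≠ a := by
  obtain ⟨b, hb, e⟩ := Finset.exists_mem_ne h a
  exact ⟨b, mem_fs.1 hb, e⟩

/-- collinearity -/
def col (x y : P) : Prop := ∃ l, Q.I x l ∧ Q.I y l

variable {Q}

theorem col.symm {x y : P} (h : Q.col x y) : Q.col y x := by
  obtain ⟨l, h1, h2⟩ := h
  exact ⟨l, h2, h1⟩

theorem cp (l : L) : (fs fun p => Q.I p l).card = Q.s + 1 := by rw [card_fs, Q.card_pts]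

theorem cl (p : P) : (fs fun l => Q.I p l).card = Q.t + 1 := by rw [card_fs, Q.card_lines]

theorem col_self (x : P) : Q.col x x := by
  obtain ⟨l, hl⟩ := Finset.card_pos.1 (by rw [cl (Q := Q) x]; omega)
  exact ⟨l, mem_fs.1 hl, mem_fs.1 hl⟩

theorem line_eq {x y : P} {l m : L} (h : x ≠ y) (h1 : Q.I x l) (h2 : Q.I y l) (h3 : Q.I x m) (h4 : Q.I y m) :
    l = m := (Q.uniq x y l m h1 h3 h2 h4).resolve_left h

theorem pt_eq {x y : P} {l m : L} (h : l ≠ m) (h1 : Q.I x l) (h2 : Q.I y l) (h3 : Q.I x m) (h4 : Q.I y m) :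
    x = y := (Q.uniq x y l m h1 h3 h2 h4).resolve_right h

theorem proj_eq {p x y : P} {l m m' : L} (h : ¬ Q.I p l) (h1 : Q.I p m) (h2 : Q.I x m) (h3 : Q.I x l)
    (h4 : Q.I p m') (h5 : Q.I y m') (h6 : Q.I y l) : x = y ∧ m = m' :=
  Prod.mk.inj ((Q.proj p l h).unique (y₁ := (x, m)) (y₂ := (y, m')) ⟨h1, h2, h3⟩ ⟨h4, h5, h6⟩)

theorem exists_proj {p : P} {l : L} (h : ¬ Q.I p l) : ∃ x m, Q.I p m ∧ Q.I x m ∧ Q.I x l := by
  obtain ⟨x, hx, -⟩ := Q.proj p l h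
  exact ⟨x.1, x.2, hx⟩

/-- no triangles -/
theorem mem_of_col {p x y : P} {l : L} (h : x ≠ y) (h1 : Q.I x l) (h2 : Q.I y l) (h3 : Q.col p x)
    (h4 : Q.col p y) : Q.I p l := by
  by_contra h0
  obtain ⟨m, a, b⟩ := h3
  obtain ⟨m', c, d⟩ := h4
  exact h (proj_eq h0 a b h1 c d h2).1

/-- a point at distance two along `l`, `m` is not collinear with `x` -/
theorem not_col {x u z : P} {l m : L} (h1 : Q.I x l) (h2 : Q.I u l) (h3 : u ≠ x) (h4 : Q.I u m) (h5 : m ≠ l)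
    (h6 : Q.I z m) (h7 : z ≠ u) : ¬ Q.col z x := fun h =>
  h7 (pt_eq h5 h6 h4 (mem_of_col h3 h2 h1 ⟨m, h6, h4⟩ h) h2)

theorem card_trace {x y : P} (h : ¬ Q.col x y) : (fs fun w => Q.col w x ∧ Q.col w y).card = Q.t + 1 := by
  classical
  have := Finset.card_mul_eq_card_mul (s := fs fun l => Q.I x l) (t := fs fun w => Q.col w x ∧ Q.col w y)
    (m := 1) (n := 1) (fun m w => Q.I w m) (fun m hm => ?_) fun w hw => ?_
  · rw [mul_one, mul_one, cl] at this
    exact this.symm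
  · rw [mem_fs] at hm
    have h0 : ¬ Q.I y m := fun e => h ⟨m, hm, e⟩
    obtain ⟨w, n, h1, h2, h3⟩ := exists_proj h0
    refine Finset.card_eq_one.2 ⟨w, Finset.eq_singleton_iff_unique_mem.2 ⟨?_, fun w' hw' => ?_⟩⟩
    · exact Finset.mem_filter.2 ⟨mem_fs.2 ⟨⟨m, h3, hm⟩, ⟨n, h2, h1⟩⟩, h3⟩
    · obtain ⟨h4, h5⟩ := Finset.mem_filter.1 hw'
      obtain ⟨-, n', h6, h7⟩ := mem_fs.1 h4
      exact (proj_eq h0 h7 h6 h5 h1 h2 h3).1
  · obtain ⟨⟨m, h1, h2⟩, h3⟩ := mem_fs.1 hw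
    refine Finset.card_eq_one.2 ⟨m, Finset.eq_singleton_iff_unique_mem.2 ⟨?_, fun m' hm' => ?_⟩⟩
    · exact Finset.mem_filter.2 ⟨mem_fs.2 h2, h1⟩
    · obtain ⟨h4, h5⟩ := Finset.mem_filter.1 hm'
      exact line_eq (fun e : w = x => h (e ▸ h3)) h5 (mem_fs.1 h4) h1 h2

/-- the points on a set of lines through `w` -/
theorem card_cone {w : P} {M : L → Prop} (h : ∀ m, M m → Q.I w m) :
    (fs fun z => z ≠ w ∧ ∃ m, M m ∧ Q.I z m).card = (fs M).card * Q.s := by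
  classical
  have := Finset.card_mul_eq_card_mul (s := fs M) (t := fs fun z => z ≠ w ∧ ∃ m, M m ∧ Q.I z m)
    (m := Q.s) (n := 1) (fun m z => Q.I z m) (fun m hm => ?_) fun z hz => ?_
  · rw [mul_one] at this
    exact this.symm
  · rw [mem_fs] at hm
    rw [← card_fs_ne (cp m) (h m hm)]
    congr 1
    ext z
    simp only [Finset.bipartiteAbove, Finset.mem_filter, mem_fs]
    exact ⟨fun e => ⟨e.2, e.1.1⟩, fun e => ⟨⟨e.2, m, hm, e.1⟩, e.1⟩⟩
  · obtain ⟨h0, m, h1, h2⟩ := mem_fs.1 hz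
    refine Finset.card_eq_one.2 ⟨m, Finset.eq_singleton_iff_unique_mem.2 ⟨?_, fun m' hm' => ?_⟩⟩
    · exact Finset.mem_filter.2 ⟨mem_fs.2 h1, h2⟩
    · obtain ⟨h4, h5⟩ := Finset.mem_filter.1 hm'
      exact line_eq h0 h5 (h m' (mem_fs.1 h4)) h2 (h m h1)

/-- the flags `u ∈ m` hanging on `l` away from `x` -/
theorem card_flags {x : P} {l : L} (hx : Q.I x l) {C : Set L} (hl : l ∈ C) {n : ℕ}
    (h : ∀ u, Q.I u l → Nat.card {m // m ∈ C ∧ Q.I u m} = n + 1) :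
    (fs fun f : P × L => (Q.I f.1 l ∧ f.1 ≠ x) ∧ (f.2 ∈ C ∧ Q.I f.1 f.2) ∧ f.2 ≠ l).card = Q.s * n := by
  classical
  have := Finset.card_mul_eq_card_mul (s := fs fun u => Q.I u l ∧ u ≠ x)
    (t := fs fun f : P × L => (Q.I f.1 l ∧ f.1 ≠ x) ∧ (f.2 ∈ C ∧ Q.I f.1 f.2) ∧ f.2 ≠ l)
    (m := n) (n := 1) (fun u f => f.1 = u) (fun u hu => ?_) fun f hf => ?_
  · rw [mul_one, card_fs_ne (cp l) hx] at this
    exact this.symm
  · rw [mem_fs] at hu
    rw [← card_fs_ne (p := fun m => m ∈ C ∧ Q.I u m) (n := n) (by rw [card_fs, h u hu.1]) ⟨hl, hu.1⟩]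
    refine Finset.card_bij (fun f _ => f.2) (fun f hf => ?_) (fun f hf g hg e => ?_) fun m hm => ?_
    · obtain ⟨h1, rfl⟩ := Finset.mem_filter.1 hf
      exact mem_fs.2 (mem_fs.1 h1).2
    · exact Prod.ext ((Finset.mem_filter.1 hf).2.trans (Finset.mem_filter.1 hg).2.symm) e
    · exact ⟨(u, m), Finset.mem_filter.2 ⟨mem_fs.2 ⟨hu, (mem_fs.1 hm :)⟩, rfl⟩, rfl⟩
  · refine Finset.card_eq_one.2 ⟨f.1, Finset.eq_singleton_iff_unique_mem.2 ⟨?_, fun m' hm' => ?_⟩⟩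
    · exact Finset.mem_filter.2 ⟨mem_fs.2 (mem_fs.1 hf).1, rfl⟩
    · exact (Finset.mem_filter.1 hm').2.symm

theorem card_far_le (x : P) : (fs fun z => ¬ Q.col z x).card ≤ Q.s * Q.t * Q.s := by
  classical
  obtain ⟨l, hl, -⟩ := col_self (Q := Q) x
  rw [← card_flags hl (Set.mem_univ l) (n := Q.t) fun u _ => by simpa using Q.card_lines u,
    ← mul_one (Finset.card _)]
  refine Finset.card_mul_le_card_mul' (fun f z => Q.I z f.2 ∧ z ≠ f.1) (fun z hz => ?_) fun f hf => ?_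
  · rw [mem_fs] at hz
    obtain ⟨u, m, h1, h2, h3⟩ := exists_proj (p := z) (l := l) fun e => hz ⟨l, e, hl⟩
    refine Finset.card_pos.2 ⟨(u, m), Finset.mem_filter.2 ⟨mem_fs.2 ⟨⟨h3, ?_⟩, ⟨trivial, h2⟩, ?_⟩, h1, ?_⟩⟩
    · rintro rfl
      exact hz ⟨m, h1, h2⟩
    · rintro rfl
      exact hz ⟨_, h1, hl⟩
    · rintro rfl
      exact hz ⟨_, h3, hl⟩
  · rw [← card_fs_ne (cp f.2) (mem_fs.1 hf).2.1.2]
    exact Finset.card_le_card fun z hz => mem_fs.2 (Finset.mem_filter.1 hz).2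

variable (Q)

/-- **Higman's inequality** (Payne–Thas 1.2.3).  Fix non-collinear points `x, y`; `V` = points collinear with neither,
`d = |V| = (s+1)(st+1) - 2 - 2(t+1)s + (t+1)`; for `z ∈ V` let `n_z` be the number of points collinear with `x, y, z`.  The trace
`T = {x,y}^⊥` has `t+1` pairwise non-collinear points; `∑ n_z = (t+1) s (t-1)`, `∑ n_z (n_z - 1) = (t+1) t (t-1)`;
`d ∑ n_z² ≥ (∑ n_z)²` gives `t (s-1)(s² - t) ≥ 0`.  (Only an upper bound for `d` and the two sums are needed.) -/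
theorem higman [Nonempty P] (hs : 2 ≤ Q.s) (ht : 1 ≤ Q.t) : Q.t ≤ Q.s ^ 2 := by
  classical
  obtain ⟨x⟩ := ‹Nonempty P›
  obtain ⟨l, hl, -⟩ := col_self (Q := Q) x
  obtain ⟨u, hu, hux⟩ := exists_ne_of_card (p := fun p => Q.I p l) (by rw [cp]; omega) x
  obtain ⟨m, hm, hml⟩ := exists_ne_of_card (p := fun m => Q.I u m) (by rw [cl]; omega) l
  obtain ⟨y, hy, hyu⟩ := exists_ne_of_card (p := fun p => Q.I p m) (by rw [cp]; omega) u
  have hyx : ¬ Q.col y x := not_col hl hu hux hm hml hy hyu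
  have hxy : ¬ Q.col x y := fun e => hyx e.symm
  clear hl hu hux hm hml hy hyu l u m
  obtain ⟨t, ht'⟩ : ∃ t, Q.t = t + 1 := ⟨Q.t - 1, by omega⟩
  set T := fs fun w => Q.col w x ∧ Q.col w y with hT
  set V := fs fun z => ¬ Q.col z x ∧ ¬ Q.col z y with hV
  have cT : T.card = t + 2 := by rw [hT, card_trace hxy, ht']
  -- the size of `V`
  have cV : V.card + (t + 2) * Q.s + 1 ≤ Q.s * (t + 1) * Q.s + (t + 2) := by
    have h1 := card_cone (Q := Q) (w := y) (M := fun m => Q.I y m) fun m h => h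
    rw [cl, ht', add_assoc] at h1
    have h2 := card_far_le (Q := Q) x
    rw [ht'] at h2
    have h3 : (insert y (V ∪ fs fun z => z ≠ y ∧ ∃ m, Q.I y m ∧ Q.I z m)).card ≤
        ((fs fun z => ¬ Q.col z x) ∪ T).card := by
      refine Finset.card_le_card fun z hz => ?_
      simp only [Finset.mem_insert, Finset.mem_union, hV, hT, mem_fs] at hz ⊢
      rcases hz with rfl | hz | ⟨-, m, a, b⟩
      · exact .inl hyx
      · exact .inl hz.1
      · by_cases e : Q.col z x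
        · exact .inr ⟨e, m, b, a⟩
        · exact .inl e
    rw [Finset.card_insert_of_notMem, Finset.card_union_of_disjoint, h1] at h3
    · have h4 := Finset.card_union_le (fs fun z => ¬ Q.col z x) T
      rw [cT] at h4
      exact h3.trans (h4.trans (by omega))
    · rw [Finset.disjoint_left]
      intro z h4 h5
      obtain ⟨-, m, a, b⟩ := mem_fs.1 h5
      exact (mem_fs.1 h4).2 ⟨m, b, a⟩
    · simp only [Finset.mem_union, hV, mem_fs, not_or]
      exact ⟨fun e => e.2 (col_self y), fun e => e.1 rfl⟩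
  have c1 : ∀ w ∈ T, (V.filter fun z => Q.col w z).card = t * Q.s := by
    intro w hw
    obtain ⟨⟨a, a1, a2⟩, b, b1, b2⟩ := mem_fs.1 hw
    have hab : b ≠ a := fun e => hxy ⟨a, a2, e ▸ b2⟩
    have hwx : w ≠ x := fun e => hxy ⟨b, e ▸ b1, b2⟩
    have hwy : w ≠ y := fun e => hxy ⟨a, a2, e ▸ a1⟩
    have h1 := card_cone (Q := Q) (w := w) (M := fun m => (Q.I w m ∧ m ≠ a) ∧ m ≠ b) fun m h => h.1.1
    rw [card_fs_ne (p := fun m => Q.I w m ∧ m ≠ a) (n := t) (card_fs_ne (by rw [cl, ht']) a1) ⟨b1, hab⟩] at h1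
    rw [← h1]
    congr 1
    ext z
    simp only [Finset.mem_filter, hV, mem_fs]
    constructor
    · rintro ⟨⟨h2, h3⟩, m, h4, h5⟩
      refine ⟨?_, m, ⟨⟨h4, ?_⟩, ?_⟩, h5⟩
      · rintro rfl
        exact h2 ⟨a, a1, a2⟩
      · rintro rfl
        exact h2 ⟨_, h5, a2⟩
      · rintro rfl
        exact h3 ⟨_, h5, b2⟩
    · rintro ⟨h2, m, ⟨⟨h3, h4⟩, h5⟩, h6⟩
      exact ⟨⟨not_col a2 a1 hwx h3 h4 h6 h2, not_col b2 b1 hwy h3 h5 h6 h2⟩, m, h3, h6⟩
  have tr : ∀ {x y w w' : P}, ¬ Q.col x y → Q.col w x → Q.col w y → Q.col w' x → Q.col w' y → w ≠ w' →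
      ¬ Q.col w w' := by
    rintro x y w w' h0 h1 h2 h3 h4 h5 ⟨n, h6, h7⟩
    exact h0 ⟨n, mem_of_col h5 h6 h7 h1.symm h3.symm, mem_of_col h5 h6 h7 h2.symm h4.symm⟩
  have c2 : ∀ w ∈ T, ∀ w' ∈ T, w ≠ w' → (V.filter fun z => Q.col w z ∧ Q.col w' z).card = t := by
    intro w hw w' hw' hne
    obtain ⟨a1, a2⟩ := mem_fs.1 hw
    obtain ⟨b1, b2⟩ := mem_fs.1 hw'
    have h0 := tr hxy a1 a2 b1 b2 hne
    have hne' : y ≠ x := fun e => hyx (e ▸ col_self y)
    rw [← card_fs_ne (p := fun z => (Q.col z w ∧ Q.col z w') ∧ z ≠ x) (n := t)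
      (card_fs_ne (by rw [card_trace h0, ht']) ⟨a1.symm, b1.symm⟩) ⟨⟨a2.symm, b2.symm⟩, hne'⟩]
    congr 1
    ext z
    simp only [Finset.mem_filter, hV, mem_fs]
    constructor
    · rintro ⟨⟨h2, h3⟩, h4, h5⟩
      refine ⟨⟨⟨h4.symm, h5.symm⟩, ?_⟩, ?_⟩
      · rintro rfl
        exact h2 (col_self _)
      · rintro rfl
        exact h3 (col_self _)
    · rintro ⟨⟨⟨h2, h3⟩, h4⟩, h5⟩
      exact ⟨⟨tr h0 h2 h3 a1.symm b1.symm h4, tr h0 h2 h3 a2.symm b2.symm h5⟩, h2.symm, h3.symm⟩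
  have s1 : ∑ z ∈ V, ∑ w ∈ T, (if Q.col w z then 1 else 0) = (t + 2) * (t * Q.s) := by
    rw [Finset.sum_comm, ← cT, ← smul_eq_mul, ← Finset.sum_const]
    exact Finset.sum_congr rfl fun w hw => by rw [← c1 w hw, Finset.card_filter]
  have s2 : ∑ z ∈ V, (∑ w ∈ T, (if Q.col w z then 1 else 0)) ^ 2 = (t + 2) * (t * Q.s + (t + 1) * t) := by
    simp only [pow_two, Finset.sum_mul_sum]
    rw [Finset.sum_comm, ← cT, ← smul_eq_mul, ← Finset.sum_const]
    refine Finset.sum_congr rfl fun w hw => ?_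
    rw [Finset.sum_comm, ← Finset.add_sum_erase _ _ hw]
    congr 1
    · rw [← c1 w hw, Finset.card_filter]
      exact Finset.sum_congr rfl fun z _ => by split_ifs <;> rfl
    · rw [show t + 1 = (T.erase w).card by rw [Finset.card_erase_of_mem hw, cT]; rfl, ← smul_eq_mul,
        ← Finset.sum_const]
      refine Finset.sum_congr rfl fun w' hw' => ?_
      rw [← c2 w hw w' (Finset.mem_of_mem_erase hw') (Finset.ne_of_mem_erase hw').symm, Finset.card_filter]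
      exact Finset.sum_congr rfl fun z _ => by
        by_cases e : Q.col w z <;> by_cases e' : Q.col w' z <;> simp [e, e']
  have cs := sq_sum_le_card_mul_sum_sq (s := V) (f := fun z => ∑ w ∈ T, (if Q.col w z then 1 else 0))
  rw [s1, s2] at cs
  rw [ht']
  rw [Nat.cast_id] at cs
  generalize V.card = d at cV cs
  generalize Q.s = s at *
  rcases Nat.eq_zero_or_pos t with rfl | hpos
  · nlinarith
  have h1 : (t + 2) * t * s ^ 2 ≤ d * (s + (t + 1)) := by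
    refine Nat.le_of_mul_le_mul_left (c := (t + 2) * t) ?_ (by positivity)
    calc _ = ((t + 2) * (t * s)) ^ 2 := by ring
      _ ≤ _ := cs
      _ = _ := by ring
  by_contra hlt
  obtain ⟨v, rfl⟩ : ∃ v, s = v + 2 := ⟨s - 2, by omega⟩
  obtain ⟨k, hk⟩ : ∃ k, t = (v + 2) ^ 2 + k := ⟨t - (v + 2) ^ 2, by omega⟩
  have h2 := Nat.mul_le_mul_right (v + 2 + (t + 1)) cV
  have h3 : 0 < (t + 1) * (v + 1) * (k + 1) := by positivity
  have h4 : ((v + 2) * (t + 1) * (v + 2) + (t + 2)) * (v + 2 + (t + 1)) + (t + 1) * (v + 1) * (k + 1) =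
      (t + 2) * t * (v + 2) ^ 2 + ((t + 2) * (v + 2) + 1) * (v + 2 + (t + 1)) := by
    rw [hk]; ring
  nlinarith

/-- a full subquadrangle: `A` points, `C` lines -/
structure Sub (A : Set P) (C : Set L) (t' : ℕ) : Prop where
  full : ∀ l ∈ C, ∀ p, Q.I p l → p ∈ A
  join : ∀ p ∈ A, ∀ p' ∈ A, p ≠ p' → ∀ l, Q.I p l → Q.I p' l → l ∈ C
  proj : ∀ p ∈ A, ∀ l ∈ C, ∀ p' l', ¬ Q.I p l → Q.I p l' → Q.I p' l' → Q.I p' l → l' ∈ C
  card : ∀ p ∈ A, Nat.card {l // l ∈ C ∧ Q.I p l} = t' + 1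
  pos : 1 ≤ t'

/-- (Payne–Thas 2.2.1.)  Take `x ∈ A'` and a line `l ∈ C \ C'` on `x`; the other `s` points `y` of `l` are in `A \ A'`.  Each of the `s² t'` points
`z ∈ A'` not collinear with `x` is collinear with a unique point `y ≠ x` of `l`, by a line of `C`; a line of `C` through `y` other than `l` contains at
most one point of `A'` (else it is in `C'` and `y ∈ A'`); so `s² t' ≤ s t₁`. -/
theorem Sub.mul_le (hs : 1 ≤ Q.s) {A A' : Set P} {C C' : Set L} {t₁ t' : ℕ} (h : Q.Sub A C t₁) (h' : Q.Sub A' C' t')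
    (hA : A' ⊆ A) (hC : C' ⊆ C) (hne : A'.Nonempty) (hlt : t' < t₁) : Q.s * t' ≤ t₁ := by
  classical
  obtain ⟨x, hx⟩ := hne
  obtain ⟨l', hl'⟩ : ∃ l, l ∈ C' ∧ Q.I x l := by
    obtain ⟨l, hl⟩ := (Finset.card_pos (s := fs fun l => l ∈ C' ∧ Q.I x l)).1
      (by rw [card_fs, h'.card x hx]; omega)
    exact ⟨l, (mem_fs.1 hl :)⟩
  obtain ⟨l, ⟨hl, hxl⟩, hl2⟩ : ∃ l, (l ∈ C ∧ Q.I x l) ∧ l ∉ C' := by
    by_contra h0
    push Not at h0
    have := Finset.card_le_card (s := fs fun l => l ∈ C ∧ Q.I x l) (t := fs fun l => l ∈ C' ∧ Q.I x l)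
      fun l hl => mem_fs.2 ⟨h0 l (mem_fs.1 hl :), (mem_fs.1 hl).2⟩
    rw [card_fs, card_fs, h.card x (hA hx), h'.card x hx] at this
    omega
  have h1 : Q.s * t' * Q.s ≤ (fs fun z => z ∈ A' ∧ ¬ Q.col z x).card * 1 := by
    rw [← card_flags hl'.2 hl'.1 fun u hu => h'.card u (h'.full _ hl'.1 u hu)]
    refine Finset.card_mul_le_card_mul (fun f z => Q.I z f.2 ∧ z ≠ f.1) (fun f hf => ?_) fun z hz => ?_
    · obtain ⟨⟨a1, a2⟩, ⟨a3, a4⟩, a5⟩ := mem_fs.1 hf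
      rw [← card_fs_ne (cp f.2) a4]
      refine Finset.card_le_card fun z hz => Finset.mem_filter.2 ⟨mem_fs.2 ?_, (mem_fs.1 hz :)⟩
      rw [mem_fs] at hz
      exact ⟨h'.full _ a3 z hz.1, not_col hl'.2 a1 a2 a4 a5 hz.1 hz.2⟩
    · refine Finset.card_le_one.2 fun f hf g hg => ?_
      obtain ⟨a1, a2, -⟩ := Finset.mem_filter.1 hf
      obtain ⟨b1, b2, -⟩ := Finset.mem_filter.1 hg
      rw [mem_fs] at a1 b1 hz
      have := proj_eq (fun e => hz.2 ⟨l', e, hl'.2⟩) a2 a1.2.1.2 a1.1.1 b2 b1.2.1.2 b1.1.1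
      exact Prod.ext this.1 this.2
  have h2 : (fs fun z => z ∈ A' ∧ ¬ Q.col z x).card * 1 ≤ Q.s * t₁ * 1 := by
    rw [← card_flags hxl hl fun u hu => h.card u (h.full _ hl u hu)]
    refine Finset.card_mul_le_card_mul' (fun f z => Q.I z f.2) (fun z hz => ?_) fun f hf => ?_
    · rw [mem_fs] at hz
      have h0 : ¬ Q.I z l := fun e => hz.2 ⟨l, e, hxl⟩
      obtain ⟨u, m, a1, a2, a3⟩ := exists_proj h0
      refine Finset.card_pos.2 ⟨(u, m), Finset.mem_filter.2 ⟨mem_fs.2 ⟨⟨a3, ?_⟩,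
        ⟨h.proj z (hA hz.1) l hl u m h0 a1 a2 a3, a2⟩, ?_⟩, a1⟩⟩
      · rintro rfl
        exact hz.2 ⟨m, a1, a2⟩
      · rintro rfl
        exact h0 a1
    · refine Finset.card_le_one.2 fun z hz z' hz' => ?_
      obtain ⟨a1, a2⟩ := Finset.mem_filter.1 hz
      obtain ⟨b1, b2⟩ := Finset.mem_filter.1 hz'
      obtain ⟨⟨c1, c2⟩, ⟨-, c4⟩, -⟩ := mem_fs.1 hf
      by_contra hzz
      exact hl2 (h'.join _ (h'.full _ (h'.join z (mem_fs.1 a1).1 z' (mem_fs.1 b1).1 hzz _ a2 b2) _ c4) x hx c2 l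
        c1 hxl)
  refine Nat.le_of_mul_le_mul_left (c := Q.s) ?_ hs
  calc _ = Q.s * t' * Q.s := by ring
    _ ≤ _ := h1.trans h2
    _ = _ := mul_one _

variable {Q} in
/-- no line meets the four sides of a quadrangle -/
theorem exists_far (p : Fin 4 → P) (l : Fin 4 → L) (hp : Function.Injective p) (hl : Function.Injective l)
    (h1 : ∀ k, Q.I (p k) (l k)) (h2 : ∀ k, Q.I (p (k + 1)) (l k)) (m : L) :
    ∃ k, ∀ x, Q.I x m → ¬ Q.I x (l k) := by
  by_contra h0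
  push Not at h0
  choose x hx hx' using h0
  have e1 : ∀ k : Fin 4, k ≠ k + 1 := by decide
  have h3 : ∀ k, m ≠ l k → m ≠ l (k + 1) → Q.I (p (k + 1)) m := fun k a b => by
    by_contra c
    exact hl.ne (e1 k) (proj_eq c (h2 k) (hx' k) (hx k) (h1 (k + 1)) (hx' (k + 1)) (hx (k + 1))).2
  have h4 : ∀ k, m = l k ∨ m = l (k + 1) ∨ m = l (k + 1 + 1) := fun k => by
    by_contra c
    push Not at c
    exact c.2.1 (line_eq (hp.ne (e1 (k + 1))) (h3 k c.1 c.2.1) (h3 (k + 1) c.2.1 c.2.2) (h1 _) (h2 _))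
  have h5 : ∀ j : Fin 4, m ≠ l j := fun j e => by
    have := h4 (j + 1)
    rw [e, hl.eq_iff, hl.eq_iff, hl.eq_iff] at this
    exact (by decide : ∀ j : Fin 4, ¬ (j = j + 1 ∨ j = j + 1 + 1 ∨ j = j + 1 + 1 + 1)) j this
  rcases h4 0 with e | e | e <;> exact h5 _ e

/-- The fixed structure.  Let `A, C` be closed under joins, meets and projections, contain an ordinary quadrangle `p₀ l₀ p₁ l₁ p₂ l₂ p₃ l₃`
whose four lines are full, `s ≥ 2`.  Then every line of `C` is full and the number of lines of `C` on a point of `A` is constant.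
(Two non-concurrent lines of `C`: projection is a bijection of points preserving `A`; any line of `C` is non-concurrent with `l₀, l₁, l₂` or `l₃`, or
equal to one, as there are no triangles... a line meeting `l₀` and `l₂` and `l₁` passes through `p₁` or `p₂`, then it is `l₁`, `l₀` or `l₂`.
Dually, non-collinear points of `A` carry the same number of lines of `C`; two collinear points `x, y` on `l ∈ C`: take a third point `z` of `l`, another
line of `C` on `z` and a point `u ≠ z` on it, not collinear with `x, y`; a second line of `C` on `z ∈ A` is obtained by projecting `z` to the `l_k` not on `z`.) -/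
theorem exists_sub (hs : 2 ≤ Q.s) {A : Set P} {C : Set L}
    (join : ∀ p ∈ A, ∀ p' ∈ A, p ≠ p' → ∀ l, Q.I p l → Q.I p' l → l ∈ C)
    (proj : ∀ p ∈ A, ∀ l ∈ C, ∀ p' l', ¬ Q.I p l → Q.I p l' → Q.I p' l' → Q.I p' l → p' ∈ A ∧ l' ∈ C)
    (p : Fin 4 → P) (l : Fin 4 → L) (hp : Function.Injective p) (hl : Function.Injective l)
    (h1 : ∀ k, Q.I (p k) (l k)) (h2 : ∀ k, Q.I (p (k + 1)) (l k)) (hC : ∀ k, l k ∈ C)
    (hA : ∀ k x, Q.I x (l k) → x ∈ A) : ∃ t', Q.Sub A C t' := by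
  classical
  have far := exists_far p l hp hl h1 h2
  have full : ∀ m ∈ C, ∀ x, Q.I x m → x ∈ A := by
    intro m hm x hx
    obtain ⟨k, hk⟩ := far m
    obtain ⟨y, n, a1, a2, a3⟩ := exists_proj (hk x hx)
    exact (proj y (hA k y a3) m hm x n (fun e => hk y e a3) a2 a1 hx).1
  have two : ∀ z ∈ A, ∀ m, Q.I z m → ∃ n ∈ C, Q.I z n ∧ n ≠ m := by
    intro z hz m hm
    obtain ⟨k, hk⟩ := far m
    obtain ⟨y, n, a1, a2, a3⟩ := exists_proj (hk z hm)
    refine ⟨n, (proj z hz _ (hC k) y n (hk z hm) a1 a2 a3).2, a1, ?_⟩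
    rintro rfl
    exact hk y a2 a3
  have le : ∀ x ∈ A, ∀ y ∈ A, ¬ Q.col x y →
      (fs fun m => m ∈ C ∧ Q.I x m).card * 1 ≤ (fs fun m => m ∈ C ∧ Q.I y m).card * 1 := by
    intro x hx y hy hxy
    refine Finset.card_mul_le_card_mul (fun m n => ∃ z, Q.I z m ∧ Q.I z n) (fun m hm => ?_) fun n hn => ?_
    · rw [mem_fs] at hm
      have h0 : ¬ Q.I y m := fun e => hxy ⟨m, hm.2, e⟩
      obtain ⟨z, n, a1, a2, a3⟩ := exists_proj h0
      exact Finset.card_pos.2 ⟨n, Finset.mem_filter.2 ⟨mem_fs.2 ⟨(proj y hy m hm.1 z n h0 a1 a2 a3).2, a1⟩,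
        z, a3, a2⟩⟩
    · refine Finset.card_le_one.2 fun m hm m' hm' => ?_
      obtain ⟨a1, z, a2, a3⟩ := Finset.mem_filter.1 hm
      obtain ⟨b1, z', b2, b3⟩ := Finset.mem_filter.1 hm'
      exact (proj_eq (fun e => hxy ⟨n, e, (mem_fs.1 hn).2⟩) (mem_fs.1 a1).2 a2 a3 (mem_fs.1 b1).2 b2 b3).2
  have eq1 : ∀ x ∈ A, ∀ y ∈ A, ¬ Q.col x y →
      (fs fun m => m ∈ C ∧ Q.I x m).card = (fs fun m => m ∈ C ∧ Q.I y m).card := fun x hx y hy hxy => by
    have a := le x hx y hy hxy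
    have b := le y hy x hx fun e => hxy e.symm
    omega
  have eq2 : ∀ x ∈ A, ∀ y ∈ A,
      (fs fun m => m ∈ C ∧ Q.I x m).card = (fs fun m => m ∈ C ∧ Q.I y m).card := by
    intro x hx y hy
    by_cases hxy : Q.col x y
    swap
    · exact eq1 x hx y hy hxy
    by_cases e : y = x
    · rw [e]
    obtain ⟨m, a1, a2⟩ := hxy
    obtain ⟨z, ⟨a3, a4⟩, a5⟩ := exists_ne_of_card (p := fun z => Q.I z m ∧ z ≠ x)
      (by rw [card_fs_ne (cp m) a1]; exact hs) y
    obtain ⟨n, b1, b2, b3⟩ := two z (full m (join y hy x hx e m a2 a1) z a3) m a3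
    obtain ⟨u, c1, c2⟩ := exists_ne_of_card (p := fun u => Q.I u n) (by rw [cp]; omega) z
    rw [← eq1 u (full n b1 u c1) x hx (not_col a1 a3 a4 b2 b3 c1 c2),
      eq1 u (full n b1 u c1) y hy (not_col a2 a3 a5 b2 b3 c1 c2)]
  have h3 : 1 < (fs fun m => m ∈ C ∧ Q.I (p 1) m).card :=
    Finset.one_lt_card.2 ⟨l 0, mem_fs.2 ⟨hC 0, h2 0⟩, l 1, mem_fs.2 ⟨hC 1, h1 1⟩, hl.ne (by decide)⟩
  refine ⟨(fs fun m => m ∈ C ∧ Q.I (p 1) m).card - 1, full, join,
    fun x hx m hm y n a b c d => (proj x hx m hm y n a b c d).2, fun x hx => ?_, by omega⟩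
  rw [← card_fs, eq2 x hx (p 1) (hA 1 _ (h1 1))]
  omega

/-- **The order bound.**  `Γ` a `p`-group acting on `Q`, `s = p ^ e ≥ 2`, fixing all points of the four lines of a quadrangle, and such that only `1` fixes all
lines on `p 0`.  For `H ≤ Γ` let `t_H` be the order of the fixed structure (`exists_sub`), `t_1 = t ≤ s²`.  Suppose `Γ ≠ 1`.  For `y ≠ 1`, `t_Γ ≤ t_y < t`, so
`s t_y ≤ t`.  If `t_Γ < t_y` then `s t_Γ ≤ t_y ≤ s`, so `t_Γ = 1`, `t_y = s`, `t = s²`, against `t + 1 ≡ t_Γ + 1 mod p`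
(`IsPGroup.card_modEq_card_fixedPoints` on the lines on `p 0`).  So `Γ` is semiregular on the `t - t_Γ > 0` lines on `p 0` it does not fix:
`|Γ| ≤ t - t_Γ < s²`. -/
theorem card_lt {Γ : Type*} [Group Γ] [Finite Γ] [MulAction Γ P] [MulAction Γ L]
    (hI : ∀ (g : Γ) x m, Q.I x m → Q.I (g • x) (g • m)) {r e : ℕ} (hr : r.Prime) (hΓ : IsPGroup r Γ) (hs : Q.s = r ^ e)
    (hs2 : 2 ≤ Q.s) (p : Fin 4 → P) (l : Fin 4 → L) (hp : Function.Injective p) (hl : Function.Injective l)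
    (h1 : ∀ k, Q.I (p k) (l k)) (h2 : ∀ k, Q.I (p (k + 1)) (l k)) (hA : ∀ (g : Γ) k x, Q.I x (l k) → g • x = x)
    (hf : ∀ g : Γ, (∀ m, Q.I (p 0) m → g • m = m) → g = 1) : Nat.card Γ < Q.s ^ 2 := by
  classical
  have : Fact r.Prime := ⟨hr⟩
  have e1 : ∀ k : Fin 4, k ≠ k + 1 := by decide
  have sub : ∀ S : Set Γ, ∃ t', Q.Sub {x | ∀ g ∈ S, g • x = x} {m | ∀ g ∈ S, g • m = m} t' := by
    intro S
    have join : ∀ x ∈ {x : P | ∀ g ∈ S, g • x = x}, ∀ y ∈ {x : P | ∀ g ∈ S, g • x = x}, x ≠ y → ∀ m,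
        Q.I x m → Q.I y m → m ∈ {m : L | ∀ g ∈ S, g • m = m} := fun x hx y hy hne m a b g hg =>
      line_eq hne (hx g hg ▸ hI g x m a) (hy g hg ▸ hI g y m b) a b
    refine Q.exists_sub hs2 join (fun x hx m hm y n a b c d => ?_) p l hp hl h1 h2
      (fun k => join _ (fun g _ => hA g k _ (h1 k)) _ (fun g _ => hA g k _ (h2 k)) (hp.ne (e1 k)) _ (h1 k) (h2 k))
      fun k x hx g _ => hA g k x hx
    have := fun g (hg : g ∈ S) => proj_eq a (hx g hg ▸ hI g x n b) (hI g y n c) (hm g hg ▸ hI g y m d) b c d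
    exact ⟨fun g hg => (this g hg).1, fun g hg => (this g hg).2⟩
  choose t ht using sub
  have h0 : ∀ g : Γ, g • p 0 = p 0 := fun g => hA g 0 _ (h1 0)
  have ct : ∀ S : Set Γ, (fs fun m => (∀ g ∈ S, g • m = m) ∧ Q.I (p 0) m).card = t S + 1 := fun S => by
    rw [card_fs]
    exact (ht S).card (p 0) fun g _ => h0 g
  have ce : t ∅ = Q.t := by
    have a := ct ∅
    have b := cl (Q := Q) (p 0)
    simp only [Set.mem_empty_iff_false, false_imp_iff, implies_true, true_and] at a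
    omega
  have hig : Q.t ≤ Q.s ^ 2 := @higman _ _ _ _ Q ⟨p 0⟩ hs2 (ce ▸ (ht ∅).pos)
  have mono : ∀ S S' : Set Γ, S ⊆ S' → t S < t S' ∨ t S' < t S ∧ Q.s * t S' ≤ t S ∨
      ∀ m, Q.I (p 0) m → (∀ g ∈ S, g • m = m) → ∀ g ∈ S', g • m = m := by
    intro S S' hS
    rcases lt_trichotomy (t S) (t S') with e | e | e
    · exact .inl e
    · have := Finset.eq_of_subset_of_card_le (s := fs fun m => (∀ g ∈ S', g • m = m) ∧ Q.I (p 0) m)
        (t := fs fun m => (∀ g ∈ S, g • m = m) ∧ Q.I (p 0) m)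
        (fun m hm => mem_fs.2 ⟨fun g hg => (mem_fs.1 hm).1 g (hS hg), (mem_fs.1 hm).2⟩) (by rw [ct, ct, e])
      refine .inr (.inr fun m a b => ?_)
      have c := (mem_fs (p := fun m => (∀ g ∈ S, g • m = m) ∧ Q.I (p 0) m)).2 ⟨b, a⟩
      rw [← this, mem_fs] at c
      exact c.1
    · exact .inr (.inl ⟨e, Sub.mul_le Q (by omega) (ht S) (ht S') (fun x hx g hg => hx g (hS hg))
        (fun x hx g hg => hx g (hS hg)) ⟨p 0, fun g _ => h0 g⟩ e⟩)
  have mono' : ∀ S S' : Set Γ, S ⊆ S' → t S' ≤ t S := fun S S' hS => by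
    have := Finset.card_le_card (s := fs fun m => (∀ g ∈ S', g • m = m) ∧ Q.I (p 0) m)
      (t := fs fun m => (∀ g ∈ S, g • m = m) ∧ Q.I (p 0) m)
      fun m hm => mem_fs.2 ⟨fun g hg => (mem_fs.1 hm).1 g (hS hg), (mem_fs.1 hm).2⟩
    rw [ct, ct] at this
    omega
  have md : Q.t + 1 ≡ t Set.univ + 1 [MOD r] := by
    let Y : SubMulAction Γ L := ⟨{m | Q.I (p 0) m}, fun g m hm => h0 g ▸ hI g _ m hm⟩
    have := hΓ.card_modEq_card_fixedPoints Y
    have e : Nat.card {m // (∀ g ∈ (Set.univ : Set Γ), g • m = m) ∧ Q.I (p 0) m} =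
        Nat.card (MulAction.fixedPoints Γ Y) :=
      Nat.card_congr ⟨fun m => ⟨⟨m.1, m.2.2⟩, fun g => Subtype.ext (m.2.1 g trivial)⟩,
        fun m => ⟨m.1.1, fun g _ => congrArg Subtype.val (m.2 g), m.1.2⟩, fun _ => rfl, fun _ => rfl⟩
    rw [← Q.card_lines (p 0), ← ct, card_fs, e]
    exact this
  have semi : ∀ y : Γ, y ≠ 1 → ∀ m, Q.I (p 0) m → y • m = m → ∀ g : Γ, g • m = m := by
    intro y hy m a b g
    rcases mono {y} Set.univ (Set.subset_univ _) with e | ⟨-, e⟩ | e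
    · exact absurd (mono' _ _ (Set.subset_univ {y})) (not_le.2 e)
    · exfalso
      rcases mono ∅ {y} (Set.empty_subset _) with e' | ⟨-, e'⟩ | e'
      · exact absurd (mono' _ _ (Set.empty_subset {y})) (not_le.2 e')
      · rw [ce] at e'
        have c1 := (ht Set.univ).pos
        have c2 : Q.s * (Q.s * t Set.univ) ≤ Q.t := (Nat.mul_le_mul_left _ e).trans e'
        have c3 : t Set.univ = 1 := by nlinarith
        have c4 : Q.t = Q.s ^ 2 := by rw [c3] at c2; nlinarith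
        rw [c3, c4] at md
        have c5 : r ∣ Q.s ^ 2 := by
          refine Dvd.dvd.pow ?_ two_ne_zero
          rw [hs] at hs2 ⊢
          exact dvd_pow_self r fun e => by simp [e] at hs2
        have c6 := ((Nat.modEq_zero_iff_dvd.2 c5).symm.trans (Nat.ModEq.add_right_cancel' 1 md)).symm
        exact hr.one_lt.ne' (Nat.dvd_one.1 (Nat.modEq_zero_iff_dvd.1 c6))
      · exact hy (hf y fun m a => e' m a (by simp) y rfl)
    · exact e m a (by simpa using b) g trivial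
  by_cases hx : ∃ m, Q.I (p 0) m ∧ ∃ g : Γ, g • m ≠ m
  · obtain ⟨m, a, g, b⟩ := hx
    have := Fintype.ofFinite Γ
    have c1 : (Finset.univ.image fun y : Γ => y • m).card = Nat.card Γ := by
      rw [Finset.card_image_of_injective, Finset.card_univ, Nat.card_eq_fintype_card]
      intro y y' e
      by_contra c
      exact b (semi (y⁻¹ * y') (fun e => c (inv_mul_eq_one.1 e)) m a
        (by rw [mul_smul, inv_smul_eq_iff]; exact e.symm) g)
    have c2 := Finset.card_le_card (s := (Finset.univ.image fun y : Γ => y • m) ∪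
      fs fun m => (∀ g ∈ (Set.univ : Set Γ), g • m = m) ∧ Q.I (p 0) m) (t := fs fun m => Q.I (p 0) m) fun n hn => by
      rcases Finset.mem_union.1 hn with e | e
      · obtain ⟨y, -, rfl⟩ := Finset.mem_image.1 e
        exact mem_fs.2 (h0 y ▸ hI y _ m a)
      · exact mem_fs.2 (mem_fs.1 e).2
    rw [Finset.card_union_of_disjoint, c1, ct, cl] at c2
    · have := (ht Set.univ).pos
      omega
    · rw [Finset.disjoint_left]
      intro n e e'
      obtain ⟨y, -, rfl⟩ := Finset.mem_image.1 e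
      have d1 := (mem_fs.1 e').1 y⁻¹ trivial
      rw [inv_smul_smul] at d1
      exact b (d1 ▸ (mem_fs.1 e').1 g trivial)
  · push Not at hx
    have : Subsingleton Γ := ⟨fun a b => by rw [hf a fun m h => hx m h a, hf b fun m h => hx m h b]⟩
    rw [Nat.card_of_subsingleton (1 : Γ)]
    nlinarith

end GQ

end CL.TB
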