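/-
S1143 (Tits), GQ2: the residue of a double edge is a generalized quadrangle.
-/
import Cfsg.Agent.CHEV.TB.Bas
import Cfsg.Agent.CHEV.TB.GQ1

set_option autoImplicit false
set_option linter.unusedSectionVars false

namespace CL.TB

open CL.Chev
open scoped MatrixGroups commutatorElement

/-- `card_lt` for a group which need not act faithfully -/
theorem GQ.index_lt {P L : Type*} [Finite P] [Finite L] (Q : GQ P L) {Γ : Type*} [Group Γ] [Finite Γ]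
    [MulAction Γ P] [MulAction Γ L] (K : Subgroup Γ) [K.Normal] (hK : ∀ g ∈ K, ∀ x : P, g • x = x)
    (hK' : ∀ g ∈ K, ∀ m : L, g • m = m)
    (hI : ∀ (g : Γ) x m, Q.I x m → Q.I (g • x) (g • m)) {r e : ℕ} (hr : r.Prime) (hΓ : IsPGroup r Γ)
    (hs : Q.s = r ^ e) (hs2 : 2 ≤ Q.s) (p : Fin 4 → P) (l : Fin 4 → L) (hp : Function.Injective p)
    (hl : Function.Injective l) (h1 : ∀ k, Q.I (p k) (l k)) (h2 : ∀ k, Q.I (p (k + 1)) (l k))
    (hA : ∀ (g : Γ) k x, Q.I x (l k) → g • x = x)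
    (hf : ∀ g : Γ, (∀ m, Q.I (p 0) m → g • m = m) → g ∈ K) : K.index < Q.s ^ 2 := by
  let _ : MulAction (Γ ⧸ K) P := MulAction.compHom P
    (QuotientGroup.lift K (MulAction.toPermHom Γ P) fun g hg => Equiv.ext (hK g hg))
  let _ : MulAction (Γ ⧸ K) L := MulAction.compHom L
    (QuotientGroup.lift K (MulAction.toPermHom Γ L) fun g hg => Equiv.ext (hK' g hg))
  refine Q.card_lt (Γ := Γ ⧸ K) ?_ hr (hΓ.to_quotient K) hs hs2 p l hp hl h1 h2 ?_ ?_
  · rintro ⟨g⟩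
    exact hI g
  · rintro ⟨g⟩
    exact hA g
  · rintro ⟨g⟩ h
    exact (QuotientGroup.eq_one_iff g).2 (hf g h)

section dih

variable {W : Type*} [Group W] {s t : W}

theorem dih_nc (hs : s * s = 1) (ht : t * t = 1) (h : t * s * (t * s) ≠ 1) : ¬ Commute t (t * s) := fun e => h (by
  have := e.eq
  rw [← mul_assoc, ht, one_mul] at this
  rw [← mul_assoc, ← this, hs])

theorem dih_nc' (hs : s * s = 1) (ht : t * t = 1) (h : t * s * (t * s) ≠ 1) : ¬ Commute (t * s * t) (t * s) :=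
  fun e => dih_nc hs ht h (by
    have := ((Commute.refl (t * s)).inv_left).mul_left e
    rwa [inv_mul_cancel_left] at this)

end dih

namespace WD

variable {ι κ Ω : Type*} [Fintype κ] [DecidableEq κ] [Finite ι] {R : RootSys ι κ} (D : WD R Ω)

theorem pos1 {i j : κ} (h : i ≠ j) : R.IsPos ((R.sW i).1 (R.simple j)) :=
  R.isPos_σ (R.isPos_simple j) (R.simple_injective.ne h.symm)

theorem pos2 {i j : κ} (h : i ≠ j) (hA : R.A j i ≠ 0) : R.IsPos ((R.sW i * R.sW j).1 (R.simple i)) :=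
  R.isPos_σ (pos1 h.symm) fun e => hA (by
    have := congrFun (congrArg R.rt e) j
    rw [show (R.sW j).1 (R.simple i) = R.σ j (R.simple i) from rfl, R.rt_σ', R.wt_simple] at this
    simpa [R.rt_simple] using this)

theorem δ2 {i j : κ} (h : i ≠ j) {x y z : Ω} (h1 : D.δ x y = R.sW i) (h2 : D.δ y z = R.sW j) :
    D.δ x z = R.sW i * R.sW j := by
  rw [D.wd2' x y z j h2 (h1 ▸ pos1 h), h1]

theorem δ3 {i j : κ} (h : i ≠ j) (hA : R.A j i ≠ 0) {x y z : Ω} (h1 : D.δ x y = R.sW i * R.sW j)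
    (h2 : D.δ y z = R.sW i) : D.δ x z = R.sW i * R.sW j * R.sW i := by
  rw [D.wd2' x y z i h2 (h1 ▸ pos2 h hA), h1]

theorem eq_of_two_pan {i j : κ} (h : i ≠ j) {x y z z' : Ω} (h1 : z ∈ D.pan x i) (h2 : z' ∈ D.pan x i)
    (h3 : z ∈ D.pan y j) (h4 : z' ∈ D.pan y j) : z = z' := by
  by_contra e
  exact h (R.sp_injective (congrArg Subtype.val ((D.δ_of_mem_pan h1 h2 e).symm.trans (D.δ_of_mem_pan h3 h4 e))))

/-- the `i`-panels of a residue -/
def Pn (x₀ : Ω) (J : Set κ) (i : κ) : Set (Set Ω) := {S | ∃ x ∈ D.res x₀ J, S = D.pan x i}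

variable {D}

theorem Pn.eq {x₀ : Ω} {J : Set κ} {i : κ} (S : D.Pn x₀ J i) {z : Ω} (hz : z ∈ S.1) : S.1 = D.pan z i := by
  obtain ⟨_, x, hx, rfl⟩ := S
  exact (D.pan_eq hz).symm

theorem Pn.ext {x₀ : Ω} {J : Set κ} {i : κ} {S T : D.Pn x₀ J i} {z : Ω} (hz : z ∈ S.1) (hz' : z ∈ T.1) : S = T :=
  Subtype.ext ((Pn.eq S hz).trans (Pn.eq T hz').symm)

theorem Pn.mem {x₀ : Ω} {J : Set κ} {i : κ} (hi : i ∈ J) (S : D.Pn x₀ J i) {z : Ω} (hz : z ∈ S.1) :
    z ∈ D.res x₀ J := by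
  obtain ⟨_, x, hx, rfl⟩ := S
  exact D.pan_subset_res hx hi hz

theorem Pn.δ {x₀ : Ω} {J : Set κ} {i : κ} (S : D.Pn x₀ J i) {z z' : Ω} (hz : z ∈ S.1) (hz' : z' ∈ S.1)
    (h : z ≠ z') : D.δ z z' = R.sW i := by
  obtain ⟨_, x, hx, rfl⟩ := S
  exact D.δ_of_mem_pan hz hz' h

theorem Pn.card {x₀ : Ω} {J : Set κ} {i j : κ} (h : i ≠ j) (hj : j ∈ J) (T : D.Pn x₀ J j) :
    Nat.card {S : D.Pn x₀ J i // ∃ z, z ∈ S.1 ∧ z ∈ T.1} = T.1.ncard := by
  refine (Nat.card_congr (Equiv.ofBijective (fun z : T.1 => (⟨⟨D.pan z.1 i, z.1, Pn.mem hj T z.2, rfl⟩,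
    z.1, D.self_mem_pan _ _, z.2⟩ : {S : D.Pn x₀ J i // ∃ z, z ∈ S.1 ∧ z ∈ T.1})) ⟨fun z z' e => ?_, ?_⟩)).symm
  · have e1 : D.pan z.1 i = D.pan z'.1 i := congrArg (fun S => S.1.1) e
    exact Subtype.ext (D.eq_of_two_pan h (D.self_mem_pan z.1 i) (e1 ▸ D.self_mem_pan z'.1 i)
      (D.self_mem_pan z.1 j) (Pn.eq T z.2 ▸ z'.2))
  · rintro ⟨S, z, h1, h2⟩
    exact ⟨⟨z, h2⟩, Subtype.ext (Subtype.ext (Pn.eq S h1).symm)⟩

end WD

namespace Bld

variable {ι κ G Ω : Type*} [Fintype κ] [DecidableEq κ] [Finite ι] {R : RootSys ι κ} [Group G] [MulAction G Ω]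
  [Finite G] [Finite Ω] [FaithfulSMul G Ω] {B : Bld R G Ω}

theorem E4_ne {a b : κ} (h1 : R.A a b = -1) (h2 : R.A b a = -2) :
    R.sW b * R.sW a * (R.sW b * R.sW a) ≠ 1 := fun e => by
  obtain ⟨j, -, hj⟩ := exists_opp (R := R) (J := {a, b}) (i := a) (.inl rfl)
  rw [E4_wl h1 h2, E4_braid h1 h2, mul_assoc, e] at hj
  exact (R.not_isPos_neg _).2 (R.isPos_simple a) (hj ▸ R.isPos_simple j)

/-- the quadrangle of a double edge -/
noncomputable def gq (B : Bld R G Ω) {a b : κ} (h1 : R.A a b = -1) (h2 : R.A b a = -2) :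
    GQ (B.Pn (B.c 1) {a, b} b) (B.Pn (B.c 1) {a, b} a) :=
  have hab : a ≠ b := fun e => by rw [e, R.A_self] at h1; omega
  have hA : R.A b a ≠ 0 := by omega
  have hA' : R.A a b ≠ 0 := by omega
  have hs := sW_mul_self (R := R) a
  have ht := sW_mul_self (R := R) b
  have nc : R.sW b * R.sW a ≠ R.sW a * R.sW b := fun e => E4_ne h1 h2 (by
    rw [mul_assoc, ← mul_assoc (R.sW a), ← e, mul_assoc, hs, mul_one, ht])
  { I := fun p l => ∃ z, z ∈ p.1 ∧ z ∈ l.1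
    s := B.q a
    t := B.q b
    card_pts := fun l => by
      rw [WD.Pn.card hab.symm (.inl rfl) l]
      obtain ⟨_, x, -, rfl⟩ := l
      exact B.ncard_pan x a
    card_lines := fun p => by
      simp only [and_comm (a := _ ∈ p.1)]
      rw [WD.Pn.card hab (.inr rfl) p]
      obtain ⟨_, x, -, rfl⟩ := p
      exact B.ncard_pan x b
    uniq := by
      rintro p p' l l' ⟨z1, a1, b1⟩ ⟨z2, a2, b2⟩ ⟨z3, a3, b3⟩ ⟨z4, a4, b4⟩
      by_contra h0
      push Not at h0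
      have e1 := B.δ2 hab.symm (WD.Pn.δ p a1 a2 fun e => h0.2 (WD.Pn.ext b1 (e ▸ b2)))
        (WD.Pn.δ l' b2 b4 fun e => h0.1 (WD.Pn.ext a2 (e ▸ a4)))
      have e2 := B.δ2 hab (WD.Pn.δ l b1 b3 fun e => h0.1 (WD.Pn.ext a1 (e ▸ a3)))
        (WD.Pn.δ p' a3 a4 fun e => h0.2 (WD.Pn.ext b3 (e ▸ b4)))
      exact nc (e1.symm.trans e2)
    proj := by
      intro p l h0
      have key : ∀ {p' l'} {x z y : Ω}, x ∈ p.1 → x ∈ (l' : B.Pn (B.c 1) {a, b} a).1 →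
          z ∈ (p' : B.Pn (B.c 1) {a, b} b).1 → z ∈ l'.1 → y ∈ p'.1 → y ∈ l.1 →
          B.δ x z = R.sW a ∧ B.δ z y = R.sW b := fun {p' l' x z y} a1 a2 a3 a4 a5 a6 =>
        ⟨WD.Pn.δ l' a2 a4 fun e => h0 ⟨y, WD.Pn.ext a1 (e ▸ a3) ▸ a5, a6⟩,
          WD.Pn.δ p' a3 a5 fun e => h0 ⟨x, a1, WD.Pn.ext a4 (e ▸ a6) ▸ a2⟩⟩
      refine existsUnique_of_exists_of_unique ?_ ?_
      · obtain ⟨_, x, hx, rfl⟩ := p
        obtain ⟨_, y, hy, rfl⟩ := l
        have L : ∀ {x' y'}, x' ∈ B.pan x b → ∃ x'' ∈ B.pan x b, B.δ x'' y' = R.sW b * B.δ x' y' :=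
          fun {x' y'} h => let ⟨x'', c, d⟩ := B.wd3L x' y' b; ⟨x'', B.pan_eq h ▸ B.mem_pan_of_δ c, d⟩
        have M : ∀ {x' y'}, y' ∈ B.pan y a → ∃ y'' ∈ B.pan y a, B.δ x' y'' = B.δ x' y' * R.sW a :=
          fun {x' y'} h => let ⟨y'', c, d⟩ := B.wd3 x' y' a; ⟨y'', B.pan_eq h ▸ B.mem_pan_of_δ c, d⟩
        have N : ∀ {x' y'}, x' ∈ B.pan x b → y' ∈ B.pan y a → B.δ x' y' ≠ 1 := fun {x' y'} c d e =>
          h0 ⟨x', c, ((B.δ_eq_one _ _).1 e).symm ▸ d⟩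
        have sx := B.self_mem_pan x b
        have sy := B.self_mem_pan y a
        obtain ⟨x', hx', y', hy', e⟩ : ∃ x' ∈ B.pan x b, ∃ y' ∈ B.pan y a, B.δ x' y' = R.sW a * R.sW b := by
          obtain ⟨x1, c1, d1⟩ := L (y' := y) sx
          obtain ⟨y1, c2, d2⟩ := M (x' := x) sy
          obtain ⟨y2, c3, d3⟩ := M (x' := x1) sy
          rw [d1] at d3
          rcases (E4_mem_WJ h1 h2).1 (B.δ_mem_of_res hx hy) with e | e | e | e | e | e | e | e <;>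
            rw [e] at d1 d2 d3
          · exact absurd e (N sx sy)
          · exact absurd (d2.trans hs) (N sx c2)
          · exact absurd (d1.trans ht) (N c1 sy)
          · exact ⟨x, sx, y, sy, e⟩
          · exact absurd (d3.trans (by rw [← mul_assoc, ht, one_mul, hs])) (N c1 c3)
          · exact ⟨x, sx, y1, c2, by rw [d2, mul_assoc, hs, mul_one]⟩
          · exact ⟨x1, c1, y, sy, by rw [d1, mul_assoc, ← mul_assoc, ht, one_mul]⟩
          · refine ⟨x1, c1, y2, c3, ?_⟩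
            rw [d3, E4_braid h1 h2, mul_assoc, mul_assoc _ (R.sW a), hs, mul_one, mul_assoc, ← mul_assoc, ht,
              one_mul]
        obtain ⟨z, c, d⟩ := B.wd3 x' y' b
        rw [e, mul_assoc, ht, mul_one] at d
        have rx := B.pan_subset_res hx (J := {a, b}) (.inr rfl) hx'
        have ry := B.pan_subset_res hy (J := {a, b}) (.inl rfl) hy'
        exact ⟨(⟨B.pan y' b, y', ry, rfl⟩, ⟨B.pan x' a, x', rx, rfl⟩), ⟨x', hx', B.self_mem_pan _ _⟩,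
          ⟨z, B.mem_pan_of_δ c, B.mem_pan_of_δ d⟩, y', B.self_mem_pan _ _, hy'⟩
      · rintro ⟨p1, l1⟩ ⟨p2, l2⟩ ⟨⟨x, a1, a2⟩, ⟨z, a3, a4⟩, y, a5, a6⟩ ⟨⟨x', b1, b2⟩, ⟨z', b3, b4⟩, y', b5, b6⟩
        obtain ⟨c1, c2⟩ := key a1 a2 a3 a4 a5 a6
        obtain ⟨d1, d2⟩ := key b1 b2 b3 b4 b5 b6
        have c3 := B.δ2 hab c1 c2
        have d3 := B.δ2 hab d1 d2
        have hy : y ≠ y' → B.δ x' y = R.sW a * R.sW b * R.sW a := fun e =>
          B.δ3 hab hA d3 (WD.Pn.δ l b6 a6 e.symm)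
        have hx : x = x' := by
          by_contra e
          have e1 := B.δ3 hab.symm hA' (B.δ2 hab.symm (WD.Pn.δ p b1 a1 (Ne.symm e)) c1) c2
          by_cases e2 : y = y'
          · rw [e2, d3, mul_assoc] at e1
            exact sW_ne_one b (by simpa using e1.symm)
          · rw [hy e2] at e1
            have e3 := E4_braid h1 h2
            rw [e1, mul_assoc, ht, mul_one, mul_assoc (R.sW b), mul_assoc (R.sW b), e1, ← mul_assoc, ← mul_assoc, ht,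
              one_mul] at e3
            exact nc e3
        subst hx
        have hy' : y = y' := by
          by_contra e
          have e1 := hy e
          rw [c3] at e1
          exact sW_ne_one a (by simpa using e1.symm)
        subst hy'
        exact Prod.ext (WD.Pn.ext a5 b5) (WD.Pn.ext a2 b2) }

theorem smul_pan (g : G) (x : Ω) (i : κ) : (g • ·) '' B.pan x i = B.pan (g • x) i := by
  ext y
  obtain ⟨y, rfl⟩ := MulAction.surjective g y
  rw [B.smul_mem_pan, (MulAction.injective g).mem_set_image]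

/-- the action of a group fixing `c 1` on the panels of a standard residue -/
@[reducible] def pnAct {P : Subgroup G} (h : ∀ g ∈ P, g • B.c 1 = B.c 1) (J : Set κ) (i : κ) :
    MulAction P (B.Pn (B.c 1) J i) where
  smul g S := ⟨(g.1 • ·) '' S.1, by
    obtain ⟨_, x, hx, rfl⟩ := S
    exact ⟨g.1 • x, by rwa [← h g.1 g.2, B.smul_mem_res], smul_pan _ _ _⟩⟩
  one_smul S := Subtype.ext (by
    change (fun y => ((1 : P) : G) • y) '' S.1 = S.1
    simp)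
  mul_smul g g' S := Subtype.ext (by
    change (fun y => ((g * g' : P) : G) • y) '' S.1 = (fun y => g.1 • y) '' ((fun y => g'.1 • y) '' S.1)
    simp [Set.image_image, mul_smul])

/-- `J = {a, b}`.  Points = `b`-panels, lines = `a`-panels of `Res J` (subtypes of `Set Ω`), incident iff they meet (in one chamber); `s = q a`, `t = q b`
(`ncard_pan`).  Axioms from `E4_mem_WJ`, `wd2`, `wd3`, `δ_mul`, `mid_unique`: a point `pan x b` and a line `pan y a` are incident iff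
`δ x y ∈ ⟨s_b⟩⟨s_a⟩`; otherwise `x, y` can be chosen (uniquely: `exists_gate_pan` twice) with `δ x y = s_a s_b`, and the middle chamber is the projection.
`Γ` = image of `P` in `Perm` of the chambers of `Res J` (or `P ⧸ kernel`), quadrangle = the panels of the `c v`, `v ∈ W_J`; `hf` is `fix_res` at `c 1`. -/
theorem gq_bound {a b : κ} (h1 : R.A a b = -1) (h2 : R.A b a = -2) {r e : ℕ} (hr : r.Prime) (hq : B.q a = r ^ e)
    {P : Subgroup G} (hP : IsPGroup r P)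
    (hf : ∀ g ∈ P, ∀ v : R.W, v.1 ∈ R.WJ {a, b} → ∀ y ∈ B.pan (B.c v) a, g • y = y) :
    (fixingSubgroup G (B.Res {a, b})).relIndex P < B.q a ^ 2 := by
  have hab : a ≠ b := fun e => by rw [e, R.A_self] at h1; omega
  have hs := sW_mul_self (R := R) a
  have ht := sW_mul_self (R := R) b
  have hc : ∀ g ∈ P, ∀ v : R.W, v.1 ∈ R.WJ {a, b} → g • B.c v = B.c v := fun g hg v hv =>
    hf g hg v hv _ (B.self_mem_pan _ _)
  have h0 : ∀ g ∈ P, g • B.c 1 = B.c 1 := fun g hg => hc g hg 1 (one_mem _)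
  have hR : ∀ g ∈ P, ∀ y ∈ B.Res {a, b}, g • y ∈ B.Res {a, b} := fun g hg y hy => by
    rwa [Res, ← h0 g hg, B.smul_mem_res]
  let _ := pnAct h0 {a, b} a
  let _ := pnAct h0 {a, b} b
  have ma : ∀ (g : P) (S : B.Pn (B.c 1) {a, b} a) z, z ∈ S.1 → g.1 • z ∈ (g • S).1 := fun g S z hz => ⟨z, hz, rfl⟩
  have mb : ∀ (g : P) (S : B.Pn (B.c 1) {a, b} b) z, z ∈ S.1 → g.1 • z ∈ (g • S).1 := fun g S z hz => ⟨z, hz, rfl⟩
  have hN : ((fixingSubgroup G (B.Res {a, b})).subgroupOf P).Normal := ⟨fun k hk g => by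
    rw [Subgroup.mem_subgroupOf, mem_fixingSubgroup_iff] at hk ⊢
    intro y hy
    rw [Subgroup.coe_mul, Subgroup.coe_mul, mul_smul, mul_smul, hk _ (hR _ (g⁻¹).2 y hy), Subgroup.coe_inv,
      smul_inv_smul]⟩
  obtain ⟨w, hw⟩ : ∃ w, w = R.sW b * R.sW a := ⟨_, rfl⟩
  have hw2 : w * w ≠ 1 := hw ▸ E4_ne h1 h2
  have hw4 : w ^ 4 = 1 := by
    have := wl_mul_self (R := R) {a, b}
    rw [E4_wl h1 h2, E4_braid h1 h2, mul_assoc _ (R.sW b) (R.sW a), ← hw] at this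
    rw [← this, show 4 = 2 + 2 from rfl, pow_add, pow_two]
  have ho : orderOf w = 4 := orderOf_eq_prime_pow (p := 2) (n := 1) (by rwa [pow_one, pow_two]) hw4
  have hsa : (R.sW a).1 ∈ R.WJ {a, b} := R.sp_mem_WJ (.inl rfl)
  have hsb : (R.sW b).1 ∈ R.WJ {a, b} := R.sp_mem_WJ (.inr rfl)
  have wJ : ∀ k : ℕ, (w ^ k).1 ∈ R.WJ {a, b} := fun k => pow_mem (hw ▸ mul_mem hsb hsa) k
  have wJ' : ∀ k : ℕ, (w ^ k * R.sW b).1 ∈ R.WJ {a, b} := fun k => mul_mem (wJ k) hsb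
  have inj : ∀ j k : Fin 4, w ^ (j : ℕ) = w ^ (k : ℕ) → j = k := fun j k e =>
    Fin.ext (pow_injOn_Iio_orderOf (by rw [ho]; exact j.2) (by rw [ho]; exact k.2) e)
  have cm : ∀ j k : ℕ, Commute ((w ^ j)⁻¹ * w ^ k) w := fun j k =>
    ((Commute.refl w).pow_left j).inv_left.mul_left ((Commute.refl w).pow_left k)
  refine (B.gq h1 h2).index_lt _ (fun g hg S => ?_) (fun g hg S => ?_) ?_ hr hP hq (B.two_le_q a)
    (fun k => ⟨B.pan (B.c (w ^ (k : ℕ))) b, _, B.c_mem_Res.2 (wJ k), rfl⟩)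
    (fun k => ⟨B.pan (B.c (w ^ (k : ℕ) * R.sW b)) a, _, B.c_mem_Res.2 (wJ' k), rfl⟩)
    (fun j k e => ?_) (fun j k e => ?_) (fun k => ⟨_, B.c_mem_pan _ _, B.self_mem_pan _ _⟩)
    (fun k => ⟨_, B.self_mem_pan _ _, ?_⟩) ?_ fun g hg => ?_
  · obtain ⟨_, x, hx, rfl⟩ := S
    have := mb g ⟨_, x, hx, rfl⟩ x (B.self_mem_pan _ _)
    rw [show g.1 • x = x from (mem_fixingSubgroup_iff G).1 hg x hx] at this
    exact WD.Pn.ext this (B.self_mem_pan _ _)
  · obtain ⟨_, x, hx, rfl⟩ := S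
    have := ma g ⟨_, x, hx, rfl⟩ x (B.self_mem_pan _ _)
    rw [show g.1 • x = x from (mem_fixingSubgroup_iff G).1 hg x hx] at this
    exact WD.Pn.ext this (B.self_mem_pan _ _)
  · rintro g x m ⟨z, c, d⟩
    exact ⟨_, mb g x z c, ma g m z d⟩
  · have e1 : B.pan (B.c (w ^ (j : ℕ))) b = B.pan (B.c (w ^ (k : ℕ))) b := congrArg Subtype.val e
    rcases (e1 ▸ B.self_mem_pan _ _ : B.c (w ^ (k : ℕ)) ∈ B.pan (B.c (w ^ (j : ℕ))) b) with e2 | e2
    · exact inj _ _ (B.c_injective e2).symm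
    · rw [B.δ_c] at e2
      exact absurd (hw ▸ e2 ▸ cm j k) (dih_nc hs ht (hw ▸ hw2))
  · have e1 : B.pan (B.c (w ^ (j : ℕ) * R.sW b)) a = B.pan (B.c (w ^ (k : ℕ) * R.sW b)) a := congrArg Subtype.val e
    rcases (e1 ▸ B.self_mem_pan _ _ : B.c (w ^ (k : ℕ) * R.sW b) ∈ B.pan (B.c (w ^ (j : ℕ) * R.sW b)) a) with e2 | e2
    · exact inj _ _ (mul_right_cancel (B.c_injective e2)).symm
    · rw [B.δ_c] at e2
      have e3 : (w ^ (j : ℕ))⁻¹ * w ^ (k : ℕ) = R.sW b * R.sW a * R.sW b := by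
        rw [← e2, mul_inv_rev, ← mul_assoc, ← mul_assoc, mul_inv_cancel_left, mul_assoc _ _ (R.sW b), ht, mul_one]
      have e4 := cm j k
      rw [e3, hw] at e4
      exact absurd e4 (dih_nc' hs ht (hw ▸ hw2))
  · have : w ^ ((k + 1 : Fin 4) : ℕ) = w ^ (k : ℕ) * R.sW b * R.sW a := by
      rw [mul_assoc, ← hw, ← pow_succ, Fin.val_add, ← pow_eq_pow_mod _ hw4]
      rfl
    rw [this]
    exact B.c_mem_pan _ _
  · rintro g k x ⟨z, c, d⟩
    have := mb g x z c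
    rw [hf g.1 g.2 _ (wJ' k) z d] at this
    exact WD.Pn.ext this c
  · rw [Subgroup.mem_subgroupOf, mem_fixingSubgroup_iff]
    refine fix_res (h0 _ g.2) ?_ (y := B.c (wl R {a, b})) (by rw [B.δ_c, inv_one, one_mul])
      (hc _ g.2 _ (wl_mem _))
    rintro j (e | e) z hz <;> rw [e] at hz
    · exact hf _ g.2 1 (one_mem _) z hz
    · have hz' := B.pan_subset_res (B.self_mem_res (B.c 1) {a, b}) (.inr rfl) hz
      have e1 := ma g ⟨_, z, hz', rfl⟩ z (B.self_mem_pan _ _)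
      rw [hg ⟨_, z, hz', rfl⟩ ⟨z, hz, B.self_mem_pan _ _⟩] at e1
      exact B.eq_of_two_pan hab e1 (B.self_mem_pan _ _) (by rwa [← h0 _ g.2, B.smul_mem_pan]) hz

end Bld

end CL.TB
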