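/-
S1143 (Tits), Mod0: finite fields of given order, and the Coxeter matrices of the twisted Weyl groups.
-/
import Cfsg.Agent.CHEV.TB.Def2
import Cfsg.Agent.CHEV.LieData

set_option autoImplicit false
set_option linter.unusedSectionVars false

namespace CL.TB

open CL.Chev

theorem exists_fld {q : ℕ} (hq : IsPrimePow q) {k : ℕ} (hk : k ≠ 0) :
    ∃ (F : Type) (_ : Field F) (_ : Fintype F), Fintype.card F = q ^ k := by
  obtain ⟨p, m, hp, hm, rfl⟩ := (isPrimePow_nat_iff q).1 hq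
  have := Fact.mk hp
  have := Fintype.ofFinite (GaloisField p (m * k))
  exact ⟨GaloisField p (m * k), inferInstance, this, by
    rw [← Nat.card_eq_fintype_card, GaloisField.card p _ (by positivity), pow_mul]⟩

theorem pow_four_A3 {G : Type*} [Group G] {x y z : G} (hx : x * x = 1) (hy : y * y = 1) (hz : z * z = 1)
    (c : Commute x y) (h1 : (x * z) ^ 3 = 1) (h2 : (y * z) ^ 3 = 1) : (x * y * z) ^ 4 = 1 := by
  have a1 : ∀ g, x * (x * g) = g := fun g => by rw [← mul_assoc, hx, one_mul]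
  have a2 : ∀ g, y * (y * g) = g := fun g => by rw [← mul_assoc, hy, one_mul]
  have a3 : ∀ g, z * (z * g) = g := fun g => by rw [← mul_assoc, hz, one_mul]
  have b1 : ∀ g, z * (x * (z * g)) = x * (z * (x * g)) := fun g => by
    have := congrArg (fun t => t * (z * (x * (z * g)))) h1
    simpa only [pow_succ, pow_zero, mul_assoc, one_mul, a1, a3] using this.symm
  have b2 : ∀ g, y * (z * (y * g)) = z * (y * (z * g)) := fun g => by
    have := congrArg (fun t => t * (z * (y * (z * g)))) h2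
    simpa only [pow_succ, pow_zero, mul_assoc, one_mul, a2, a3] using this
  have c1 : ∀ g, x * (y * g) = y * (x * g) := fun g => by rw [← mul_assoc, c.eq, mul_assoc]
  have e : ∀ g, x * (y * (z * (x * (y * (z * g))))) = z * (y * (z * (x * (z * (y * g))))) := fun g => by
    rw [c1, ← b1, ← b2 g, c1, b2]
  calc _ = x * (y * (z * (x * (y * (z * (x * (y * (z * (x * (y * (z * 1))))))))))) := by
        simp only [pow_succ, pow_zero, mul_assoc, one_mul, mul_one]
    _ = 1 := by rw [e 1, a3, a2, b1, a1, a3, c1, a1, mul_one, hy]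

theorem m_B {n : ℕ} {f : Fin n → Fin n → ℕ} (h0 : ∀ i, f i i = 1) (hs : ∀ i j, f i j = f j i)
    (h4 : ∀ i j : Fin n, i.1 + 2 = n → j.1 + 1 = n → f i j = 4)
    (h3 : ∀ i j : Fin n, j.1 = i.1 + 1 → j.1 + 1 < n → f i j = 3)
    (h2 : ∀ i j : Fin n, i.1 + 1 < j.1 → f i j = 2) : f = Ty.B.m n := by
  funext i j
  have := i.2
  have := j.2
  rw [Ty.m]
  split_ifs with e1 e2 e3 <;> simp only [Ty.dbl, Ty.adj, Fin.ext_iff] at *
  · rw [Fin.ext e1, h0]
  · rcases e2 with e | e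
    exacts [h4 i j e.1 e.2, (hs _ _).trans (h4 j i e.1 e.2)]
  · rcases e3 with e | e
    exacts [h3 i j e (by omega), (hs _ _).trans (h3 j i e (by omega))]
  · rcases lt_or_gt_of_ne e1 with e | e
    exacts [h2 i j (by omega), (hs _ _).trans (h2 j i (by omega))]

variable {ι κ κ' F Γ : Type*} [Fintype κ] [DecidableEq κ] [Finite ι] {R : RootSys ι κ}

theorem sp_comm {i j : κ} (h : R.A i j = 0) : Commute (R.sp i) (R.sp j) := by
  have h1 := pow_orderOf_eq_one (R.sp i * R.sp j)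
  rw [R.orderOf_sp_mul_sp (by rintro rfl; simp [R.A_self] at h) (by simp [h]), h, zero_mul] at h1
  change _ ^ 2 = 1 at h1
  rw [Commute, SemiconjBy, eq_inv_of_mul_eq_one_left ((pow_two _).symm.trans h1), mul_inv_rev, R.sp_inv, R.sp_inv]

theorem sp_pow3 {i j : κ} (h1 : R.A i j = -1) (h2 : R.A j i = -1) : (R.sp i * R.sp j) ^ 3 = 1 := by
  have h3 := pow_orderOf_eq_one (R.sp i * R.sp j)
  rwa [R.orderOf_sp_mul_sp (by rintro rfl; simp [R.A_self] at h1) (by simp [h1, h2]), h1, h2] at h3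

theorem w_ord (Y : R.Sym κ') {a b : κ'} (h : a ≠ b) {p : ℕ} (hp : p.Prime) (e : (Y.w a * Y.w b) ^ p = 1) :
    orderOf (Y.w a * Y.w b) = p :=
  haveI := Fact.mk hp
  orderOf_eq_prime e fun e => h (Y.w_injective ((eq_inv_of_mul_eq_one_left e).trans (Y.w_inv b)))

theorem w_ord4 (Y : R.Sym κ') {i j : κ} (h : Y.c i ≠ Y.c j) (hA : R.A i j ≠ 0)
    (e : (Y.w (Y.c i) * Y.w (Y.c j)) ^ 4 = 1) : orderOf (Y.w (Y.c i) * Y.w (Y.c j)) = 4 :=
  orderOf_eq_prime_pow (p := 2) (n := 1) (fun e => Y.w_not_comm h hA (by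
    rw [eq_inv_of_mul_eq_one_left ((pow_two _).symm.trans e), mul_inv_rev, Y.w_inv, Y.w_inv])) e

theorem w_symm (Y : R.Sym κ') (a b : κ') : orderOf (Y.w a * Y.w b) = orderOf (Y.w b * Y.w a) := by
  rw [← orderOf_inv, mul_inv_rev, Y.w_inv, Y.w_inv]

variable [Field F] [Group Γ] {S : StData R F Γ} {T : S.Twist κ'} {s : F →+* F} (h : T.IsQS s)
include h

theorem c_eq_iff {i j : κ} : T.c j = T.c i ↔ j = i ∨ j = T.π i := by
  rw [← T.mem_J, h.J_eq]; rfl

theorem w_eq {i : κ} {w : Equiv.Perm ι} (h1 : w ∈ R.WJ {i, T.π i}) (h2 : T.ρ * w * T.ρ⁻¹ = w) (h3 : w ≠ 1) :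
    T.w (T.c i) = w :=
  ((RootSys.Sym.eq_one_or_w ⟨R.WJ_le_W _ h1, h2⟩ (h.J_eq i ▸ h1)).resolve_left h3).symm

theorem w_one {i : κ} (hi : T.π i = i) : T.w (T.c i) = R.sp i :=
  w_eq h (R.sp_mem_WJ (by simp)) (by rw [T.conj_sp, hi]) (R.sp_ne_one i)

theorem w_two {i : κ} (hi : R.A i (T.π i) = 0) : T.w (T.c i) = R.sp i * R.sp (T.π i) :=
  w_eq h (mul_mem (R.sp_mem_WJ (by simp)) (R.sp_mem_WJ (by simp)))
    (by rw [← conj_mul, T.conj_sp, T.conj_sp, h.ππ, (sp_comm hi).eq]) fun e => by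
      rw [← R.sp_injective ((eq_inv_of_mul_eq_one_left e).trans (R.sp_inv _)), R.A_self] at hi
      omega

theorem w_a2 {i : κ} (h1 : R.A i (T.π i) = -1) (h2 : R.A (T.π i) i = -1) :
    T.w (T.c i) = R.sp i * R.sp (T.π i) * R.sp i :=
  w_eq h (mul_mem (mul_mem (R.sp_mem_WJ (by simp)) (R.sp_mem_WJ (by simp))) (R.sp_mem_WJ (by simp)))
    (by
      rw [← conj_mul, ← conj_mul, T.conj_sp, T.conj_sp, h.ππ, ← mul_inv_eq_one, ← sp_pow3 h2 h1]
      simp only [mul_inv_rev, R.sp_inv, pow_succ, pow_zero, one_mul, mul_assoc]) fun e =>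
      R.sp_ne_one _ (conj_eq_one_iff.1 ((R.sp_inv i).symm ▸ e :
        R.sp i * R.sp (T.π i) * (R.sp i)⁻¹ = 1))

omit h in
theorem sp_pow3_π {i j : κ} (e : (R.sp i * R.sp j) ^ 3 = 1) : (R.sp (T.π i) * R.sp (T.π j)) ^ 3 = 1 := by
  rw [← T.conj_sp, ← T.conj_sp, conj_mul, conj_pow, e, mul_one, mul_inv_cancel]

theorem ord_two {i j : κ} (h1 : R.A i j = 0) (h2 : R.A i (T.π j) = 0) (h3 : R.A (T.π i) j = 0)
    (h4 : R.A (T.π i) (T.π j) = 0) : orderOf (T.w (T.c i) * T.w (T.c j)) = 2 := by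
  refine w_ord _ (fun e => ?_) Nat.prime_two ?_
  · rcases (c_eq_iff h).1 e with rfl | rfl
    · simp [R.A_self] at h1
    · simp [R.A_self] at h2
  · have : Commute (T.w (T.c i)) (T.w (T.c j)) := by
      have a := T.w_mem_WJ (T.c i)
      have b := T.w_mem_WJ (T.c j)
      rw [h.J_eq] at a b
      generalize T.w (T.c i) = u at a
      generalize T.w (T.c j) = v at b
      induction a using R.WJ_induction_left with
      | h1 => exact Commute.one_left _
      | hs k hk u _ ih =>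
        refine Commute.mul_left ?_ ih
        clear ih
        induction b using R.WJ_induction_left with
        | h1 => exact Commute.one_right _
        | hs l hl v _ ih =>
          refine Commute.mul_right (sp_comm ?_) ih
          rcases hk with rfl | rfl <;> rcases hl with rfl | rfl <;> assumption
    rw [this.mul_pow, pow_two, pow_two, T.w_mul_self, T.w_mul_self, one_mul]

theorem ord_one_one {i j : κ} (hi : T.π i = i) (hj : T.π j = j) (h1 : R.A i j = -1) (h2 : R.A j i = -1) :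
    orderOf (T.w (T.c i) * T.w (T.c j)) = 3 := by
  refine w_ord _ (fun e => ?_) Nat.prime_three (by rw [w_one h hi, w_one h hj, sp_pow3 h1 h2])
  rw [c_eq_iff h, hj, or_self] at e
  simp [e, R.A_self] at h1

theorem ord_two_two {i j : κ} (hi : R.A i (T.π i) = 0) (hj : R.A j (T.π j) = 0) (h1 : R.A i j = -1)
    (h2 : R.A j i = -1) (h3 : R.A i (T.π j) = 0) (h4 : R.A (T.π i) j = 0) :
    orderOf (T.w (T.c i) * T.w (T.c j)) = 3 := by
  refine w_ord _ (fun e => ?_) Nat.prime_three ?_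
  · rcases (c_eq_iff h).1 e with rfl | rfl
    · simp [R.A_self] at h1
    · simp [R.A_self] at h3
  · rw [w_two h hi, w_two h hj, (sp_comm h4).mul_mul_mul_comm, (((sp_comm hi).mul_right (sp_comm h3)).mul_left
      ((sp_comm h4).symm.mul_right (sp_comm hj))).mul_pow, sp_pow3 h1 h2, sp_pow3_π (sp_pow3 h1 h2), one_mul]

theorem ord_two_one {i j : κ} (hi : R.A i (T.π i) = 0) (hj : T.π j = j) (h1 : R.A i j = -1) (h2 : R.A j i = -1) :
    orderOf (T.w (T.c i) * T.w (T.c j)) = 4 := by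
  refine w_ord4 _ (fun e => ?_) (by omega) ?_
  · rw [c_eq_iff h, hj, or_self] at e
    simp [e, R.A_self] at h1
  · rw [w_two h hi, w_one h hj]
    exact pow_four_A3 (R.sp_mul_self _) (R.sp_mul_self _) (R.sp_mul_self _) (sp_comm hi) (sp_pow3 h1 h2)
      (hj ▸ sp_pow3_π (sp_pow3 h1 h2) :)

theorem ord_two_a2 {i j : κ} (hi : R.A i (T.π i) = 0) (hj : R.A j (T.π j) = -1) (hj' : R.A (T.π j) j = -1)
    (h1 : R.A i j = -1) (h2 : R.A j i = -1) (h3 : R.A i (T.π j) = 0) (h4 : R.A (T.π i) j = 0) :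
    orderOf (T.w (T.c i) * T.w (T.c j)) = 4 := by
  refine w_ord4 _ (fun e => ?_) (by omega) ?_
  · rcases (c_eq_iff h).1 e with rfl | rfl
    · simp [R.A_self] at h1
    · simp [R.A_self] at h3
  · rw [w_two h hi]
    refine pow_four_A3 (R.sp_mul_self _) (R.sp_mul_self _) (T.w_mul_self _) (sp_comm hi) ?_ ?_
    · rw [← T.c_π, w_a2 h (i := T.π j) (by rwa [h.ππ]) (by rwa [h.ππ]), h.ππ, ← mul_assoc, ← mul_assoc,
        (sp_comm h3).eq, mul_assoc _ (R.sp i)]
      nth_rw 2 [← R.sp_inv (T.π j)]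
      rw [conj_pow, sp_pow3 h1 h2, mul_one, mul_inv_cancel]
    · rw [w_a2 h hj hj', ← mul_assoc, ← mul_assoc, (sp_comm h4).eq, mul_assoc (R.sp j)]
      nth_rw 2 [← R.sp_inv j]
      rw [conj_pow, sp_pow3_π (sp_pow3 h1 h2), mul_one, mul_inv_cancel]

variable (hS : S.Good)
include hS

theorem cJ_fix {i : κ} (hi : T.π i = i) : T.cJ (T.c i) = Nat.card {t : F // s t = t} := by
  rw [T.cJ_one hS (h.J_fix hi), h.f_eq]

theorem cJ_orth {i : κ} (hi : R.A i (T.π i) = 0) : T.cJ (T.c i) = Nat.card F :=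
  T.cJ_two hS (h.J_eq i) (fun e => by rw [← e, R.A_self] at hi; omega) hi rfl (h.ππ i) (by simp [h.f_eq, h.ss])

theorem cJ_a2 {i : κ} (h1 : R.A i (T.π i) = -1) (h2 : R.A (T.π i) i = -1) :
    T.cJ (T.c i) = Nat.card F * Nat.card {t : F // s t = t} := by
  have hi : i ≠ T.π i := fun e => by rw [← e, R.A_self] at h1; omega
  obtain ⟨k, ε, hε, hp, hL, -, -, e⟩ := h.exists_A2 hS hi h1 h2
  choose v hv using fun t => StData.Twist.exists_trace_eq h.ss h.s_ne (c := -(ε * t * s t)) (by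
    rcases hε with rfl | rfl <;> simp [h.ss, mul_comm])
  obtain ⟨w, hw⟩ := h.s_ne
  have h0 : w - s w ≠ 0 := sub_ne_zero.2 (Ne.symm hw)
  rw [StData.Twist.cJ, ← Nat.card_prod]
  refine (Nat.card_eq_of_bijective (fun t : F × {t : F // s t = t} => ⟨_, (e _).2
    ⟨t.1, v t.1 + (w - s w) * t.2, by
      rw [← hv, map_add, map_mul, map_sub, h.ss, t.2.2]; ring, rfl⟩⟩) ⟨fun t u h3 => ?_, fun g => ?_⟩).symm
  · have h4 := hS.zip_inj (fun _ h => h.1) (T.closed_pos _) hL (by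
      simp [R.simple_injective.eq_iff, hi, (hp.isComb.ne_left hp.ne_neg).symm, (hp.isComb.ne_right hp.ne_neg).symm])
      (ts := [_, _, _]) (ts' := [_, _, _]) rfl rfl (by simpa [mul_assoc] using congrArg Subtype.val h3)
    simp only [List.cons.injEq, and_true] at h4
    refine Prod.ext h4.1 (Subtype.ext (mul_left_cancel₀ h0 ?_))
    have h5 := h4.2.2
    rwa [h4.1, add_right_inj] at h5
  · obtain ⟨t, u, h3, h4⟩ := (e _).1 g.2
    refine ⟨(t, ⟨(u - v t) / (w - s w), ?_⟩), Subtype.ext ?_⟩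
    · rw [map_div₀, map_sub, map_sub, h.ss, ← neg_sub w, div_neg, ← neg_div]
      congr 1
      linear_combination hv t - h3
    · rw [h4]
      change _ * S.x k (v t + (w - s w) * ((u - v t) / (w - s w))) = _
      rw [mul_div_cancel₀ _ h0, add_sub_cancel]

end CL.TB
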