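/-
S1143 (Tits), OfBN: the building of a BN-pair.
-/
import Cfsg.Agent.CHEV.TB.Bas
import Cfsg.Agent.CHEV.CoxCartan
import Cfsg.Agent.CHEV.HeckeCent

set_option autoImplicit false
set_option linter.unusedSectionVars false

namespace CL.TB

open CL.Chev
open scoped MatrixGroups commutatorElement

open CL.Cox

variable {ι κ G : Type*} [Fintype κ] [DecidableEq κ] [Finite ι] (R : RootSys ι κ) [Group G]

/-- `φ` from `Exch.exists_mulEquiv` (`Exch.comp_surj`, `exch_sW`, `orderOf_sW_mul_sW`), `δ = φ ∘ wdist`, `c w = n B` for `φ (mk n) = w`; axioms: `wdist_simple`, `wdist_simple_of_lt`,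
`exists_wdist_simple` (inverted by `wdist_comm`), `len_map_equiv`, `len_comp_surj`, `isPos_iff_len`, `two_le_cellIdx`, `card_wdist`, `δ_eq_δ_iff`. -/
theorem exists_bld [Finite G] (P : Cfsg.BNPair G) (e : κ ≃ P.S)
    (hm : ∀ i j, orderOf (BN.sW P (e i) * BN.sW P (e j)) = orderOf (R.sp i * R.sp j))
    (h1 : ∀ i, ∃ j, j ≠ i ∧ R.A i j ≠ 0) (h2 : ∀ i j, i ≠ j → R.A i j * R.A j i ≤ 2) :
    ∃ (B : Bld R G (G ⧸ P.B)) (φ : BN.W P ≃* R.W), (∀ i, φ (BN.sW P (e i)) = R.sW i) ∧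
      (∀ x y, B.δ x y = φ (BN.wdist P x y)) ∧ (∀ n : P.N, B.c (φ (BN.mk P n)) = ((n : G) : G ⧸ P.B)) ∧
      ∀ i, B.q i = BN.cellIdx P (BN.sW P (e i)) := by
  classical
  have := Fintype.ofFinite G
  have := Fintype.ofFinite (G ⧸ P.B)
  obtain ⟨φ, hφ⟩ := ((BN.exch P).comp_surj e.surjective).exists_mulEquiv R.exch_sW
    fun i j => by rw [hm, R.orderOf_sW_mul_sW]
  have hlen : ∀ w, len R.sW (φ w) = len (BN.sW P) w := fun w =>
    (len_map_equiv φ hφ w).trans (len_comp_surj e.surjective w)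
  have hs : ∀ {w i}, φ w = R.sW i ↔ w = BN.sW P (e i) := fun {w i} => by rw [← hφ, φ.injective.eq_iff]
  have hrep : ∀ w : R.W, ∃ n : P.N, φ (BN.mk P n) = w := fun w =>
    let ⟨n, hn⟩ := BN.mk_surjective P (φ.symm w); ⟨n, by rw [hn, φ.apply_symm_apply]⟩
  choose rep hrep using hrep
  have hc : ∀ n : P.N, ((rep (φ (BN.mk P n)) : G) : G ⧸ P.B) = ((n : G) : G ⧸ P.B) := fun n =>
    QuotientGroup.eq.2 ((BN.mk_eq_iff P).1 (φ.injective (hrep _)))
  have hcard : ∀ (x : G ⧸ P.B) i, Nat.card {y // φ (BN.wdist P x y) = R.sW i} = BN.cellIdx P (BN.sW P (e i)) :=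
    fun x i => by simp only [hs]; exact BN.card_wdist P x _
  refine ⟨{ δ := fun x y => φ (BN.wdist P x y)
            δ_eq_one := fun x y => by rw [φ.map_eq_one_iff, BN.wdist_eq_one_iff]
            δ_inv := fun x y => by rw [BN.wdist_comm, map_inv]
            wd2 := fun x y z i h => ?_
            wd2' := fun x y z i h hp => ?_
            wd3 := fun x y i => ?_
            thick := fun x i => ?_
            δ_smul := fun g x y => by rw [BN.wdist_smul]
            c := fun w => ((rep w : G) : G ⧸ P.B)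
            δ_c := fun u v => ?_
            exists_n := fun w => ⟨rep w, fun v => ?_⟩
            trans := fun x y x' y' h => BN.exists_smul_of_wdist P (φ.injective h)
            noiso := h1
            le2 := h2 }, φ, hφ, fun _ _ => rfl, hc, fun i => hcard _ i⟩
  · induction x using QuotientGroup.induction_on with | _ a => ?_
    induction y using QuotientGroup.induction_on with | _ b => ?_
    induction z using QuotientGroup.induction_on with | _ c => ?_
    rw [hs, BN.wdist_mk] at h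
    have := BN.δ_mul_simple P (a⁻¹ * b) h
    rw [mul_assoc, mul_inv_cancel_left] at this
    simp only [BN.wdist_mk]
    rw [← hφ, ← map_mul]
    exact this.imp (congrArg φ) (congrArg φ)
  · induction x using QuotientGroup.induction_on with | _ a => ?_
    induction y using QuotientGroup.induction_on with | _ b => ?_
    induction z using QuotientGroup.induction_on with | _ c => ?_
    rw [hs, BN.wdist_mk] at h
    rw [R.isPos_iff_len, ← hφ, ← map_mul, hlen, hlen, BN.wdist_mk] at hp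
    have := BN.δ_mul_simple_of_lt P h hp
    rw [mul_assoc, mul_inv_cancel_left] at this
    simp only [BN.wdist_mk]
    rw [← hφ, ← map_mul, this]
  · obtain ⟨z, hz, hz'⟩ := BN.exists_wdist_simple P y x (e i)
    refine ⟨z, hs.2 hz, ?_⟩
    rw [← hφ, ← map_mul, BN.wdist_comm P z x, hz', mul_inv_rev, ← BN.wdist_comm,
      inv_eq_of_mul_eq_one_right (BN.sW_mul_self P _)]
  · have h2 := BN.two_le_cellIdx P (e i)
    rw [← hcard x i] at h2
    obtain ⟨y, z, hyz⟩ := (Finite.one_lt_card_iff_nontrivial.1 h2).exists_pair_ne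
    exact ⟨y.1, z.1, fun h => hyz (Subtype.ext h), y.2, z.2⟩
  · rw [BN.wdist_mk, ← Subgroup.coe_inv, ← Subgroup.coe_mul, BN.δ_N, map_mul, map_inv, map_mul, map_inv, hrep, hrep]
  · have := hc (rep w * rep v)
    rw [map_mul, map_mul, hrep, hrep] at this
    rw [this]; rfl

/-- the indexing of the distinguished generators as an equivalence -/
noncomputable def idxE {ι₀ κ₀ F : Type*} [Fintype κ₀] [DecidableEq κ₀] [Finite ι₀] {R₀ : RootSys ι₀ κ₀} [Field F]
    {S : StData R₀ F G} (hS : S.Good) (htop : S.grp = ⊤) : κ₀ ≃ (hS.bnPair htop).S :=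
  Equiv.ofBijective (hS.idx htop) ⟨fun _ _ h => hS.n_simple_injective (congrArg Subtype.val h), hS.idx_surjective htop⟩

theorem weyl_idxE {ι₀ κ₀ F : Type*} [Fintype κ₀] [DecidableEq κ₀] [Finite ι₀] {R₀ : RootSys ι₀ κ₀} [Field F]
    {S : StData R₀ F G} (hS : S.Good) (htop : S.grp = ⊤) (i : κ₀) :
    hS.weylEquiv htop (BN.sW _ (idxE hS htop i)) = R₀.sW i := hS.weylEquiv_sE htop i

theorem orderOf_idxE {ι₀ κ₀ F : Type*} [Fintype κ₀] [DecidableEq κ₀] [Finite ι₀] {R₀ : RootSys ι₀ κ₀} [Field F]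
    {S : StData R₀ F G} (hS : S.Good) (htop : S.grp = ⊤) (i j : κ₀) :
    orderOf (BN.sW _ (idxE hS htop i) * BN.sW _ (idxE hS htop j)) = orderOf (R₀.sp i * R₀.sp j) := by
  rw [← (hS.weylEquiv htop).orderOf_eq, map_mul, weyl_idxE, weyl_idxE, R₀.orderOf_sW_mul_sW]

/-- The root elements of a Chevalley group lie in the root groups of its building.  `P = hS.bnPair htop`, `e i = n (α_{π i}) 1` (`bnPair_S`, `n_simple_injective`,
`Good.cellIdx_sW`).  `mem_X_simple`: if `n ∈ N` acts as `w₀ ∈ R₀.W` the length condition says `w₀⁻¹ α > 0` (two isomorphisms of Coxeter systems), so `n⁻¹ x n ∈ X_β`, `β > 0`;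
`s_i w ≠ w s_j` says `β ≠ α_{π j}`, then `X_β ≤ UJ {π j}`, which is normalised by `P {π j}` and lies in `B`.  Last part: `n (α_{π j}) 1` induces `s_j`, `IsN.conj_X`, `n_conj_simple`. -/
theorem exists_bld_st [Finite G] {ι₀ κ₀ F : Type*} [Fintype κ₀] [DecidableEq κ₀] [Finite ι₀] {R₀ : RootSys ι₀ κ₀} [Field F]
    {S : StData R₀ F G} (hS : S.Good) (htop : S.grp = ⊤) (π : κ ≃ κ₀)
    (hm : ∀ i j, orderOf (R₀.sp (π i) * R₀.sp (π j)) = orderOf (R.sp i * R.sp j))
    (h1 : ∀ i, ∃ j, j ≠ i ∧ R.A i j ≠ 0) (h2 : ∀ i j, i ≠ j → R.A i j * R.A j i ≤ 2) :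
    ∃ B : Bld R G (G ⧸ S.B), (∀ i, B.q i = Nat.card F) ∧ (∀ i t, S.x (R₀.simple (π i)) t ∈ B.X (R.simple i)) ∧
      ∀ i j t, S.x (R₀.σ (π j) (R₀.simple (π i))) t ∈ B.X (R.σ j (R.simple i)) := by
  obtain ⟨B, φ, hφ, hδ, hc, hq⟩ := exists_bld R (hS.bnPair htop) (π.trans (idxE hS htop))
    (fun i j => (orderOf_idxE hS htop _ _).trans (hm i j)) h1 h2
  let θ : R.W ≃* R₀.W := φ.symm.trans (hS.weylEquiv htop)
  have hθφ : ∀ w, θ (φ w) = hS.weylEquiv htop w := fun w => by simp [θ]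
  have hθ : ∀ i, θ (R.sW i) = R₀.sW (π i) := fun i => by rw [← hφ, hθφ]; exact weyl_idxE hS htop _
  have hlen : ∀ w, len R₀.sW (θ w) = len R.sW w := fun w =>
    (len_comp_surj π.surjective _).symm.trans (len_map_equiv (s' := fun i => R₀.sW (π i)) θ hθ w)
  have key : ∀ i t, S.x (R₀.simple (π i)) t ∈ B.X (R.simple i) := by
    intro i t
    rw [Bld.mem_X_simple]
    intro w hw
    obtain ⟨n, hn⟩ := BN.mk_surjective _ (φ.symm w)
    have hw' : φ (BN.mk _ n) = w := by rw [hn, φ.apply_symm_apply]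
    obtain ⟨w₀, ha⟩ := S.exists_acts_of_mem_N (g := n) n.2
    have e0 : (θ w : Equiv.Perm ι₀) = w₀ := by
      rw [← hw', hθφ, ← BN.δ_N]; exact hS.weylEquiv_δ htop ha
    rw [← hlen, ← hlen, map_mul, hθ, ← R₀.isPos_inv_iff_len, e0] at hw
    obtain ⟨c, -, hcx⟩ := ha.inv.exists_conj (R₀.simple (π i))
    have hcw : B.c w = ((n : G) : G ⧸ (hS.bnPair htop).B) := by rw [← hw', hc]
    have hx := hcx t
    rw [inv_inv] at hx
    refine ⟨?_, fun j hj y hy => ?_⟩
    · rw [hcw]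
      refine (QuotientGroup.eq.2 ?_ : ((n : G) : G ⧸ (hS.bnPair htop).B) = ((_ * (n : G) : G) : G ⧸ _)).symm
      rw [← mul_assoc, hx]
      exact S.U_le_B (S.x_mem_U hw _)
    · induction y using QuotientGroup.induction_on with | _ g => ?_
      rw [hcw, hδ, BN.wdist_mk, ← hφ, φ.injective.eq_iff, ← BN.δ_S, BN.δ_eq_δ_iff] at hy
      obtain ⟨b, hb, b', hb', hy⟩ := hy
      have hp : (n : G)⁻¹ * g ∈ S.P {π j} := by
        rw [hy]
        exact mul_mem (mul_mem (Subgroup.mem_sup_left hb)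
          (Subgroup.mem_sup_right (Subgroup.subset_closure ⟨π j, rfl, rfl⟩))) (Subgroup.mem_sup_left hb')
      have hne : w₀⁻¹ (R₀.simple (π i)) ≠ R₀.simple (π j) := fun h => hj (θ.injective (by
        rw [map_mul, map_mul, hθ, hθ]
        have h' : (θ w).1 (R₀.simple (π j)) = R₀.simple (π i) := by rw [e0, ← h]; simp
        exact Subtype.ext (mul_inv_eq_iff_eq_mul.1 (R₀.conj_sp_eq (θ w).2 h')).symm))
      have hu : (n : G)⁻¹ * S.x (R₀.simple (π i)) t * n ∈ S.UJ {π j} := by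
        rw [hx, S.UJ_singleton]
        exact Subgroup.subset_closure ⟨_, ⟨hw, hne⟩, _, rfl⟩
      have h3 := (Subgroup.mem_normalizer_iff.1 (inv_mem (S.P_le_normalizer_UJ _ hp)) _).1 hu
      refine (QuotientGroup.eq.2 ?_ : (g : G ⧸ (hS.bnPair htop).B) = ((_ * g : G) : G ⧸ _)).symm
      have h4 : g⁻¹ * (S.x (R₀.simple (π i)) t * g) =
          ((n : G)⁻¹ * g)⁻¹ * ((n : G)⁻¹ * S.x (R₀.simple (π i)) t * n) * ((n : G)⁻¹ * g)⁻¹⁻¹ := by group
      rw [h4]
      exact S.U_le_B (S.UJ_le_U _ h3)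
  refine ⟨B, fun i => (hq i).trans (hS.cellIdx_sW htop _), key, fun i j t => ?_⟩
  have hN : B.IsN (S.n (R₀.simple (π j)) 1) (R.sW j) := by
    intro v
    obtain ⟨m, hm⟩ := BN.mk_surjective _ (φ.symm v)
    have hv : φ (BN.mk _ m) = v := by rw [hm, φ.apply_symm_apply]
    have := hc (BN.sN _ (idxE hS htop (π j)) * m)
    rw [map_mul, map_mul, hv] at this
    rw [← hφ j, ← hv, hc, hv]
    exact this.symm
  obtain ⟨c, hc0, hcx⟩ := (S.acts_n_simple (π j) (one_ne_zero (α := F))).exists_conj (R₀.simple (π i))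
  have := hN.conj_X.2 (key i (c⁻¹ * t))
  rw [hcx, mul_inv_cancel_left₀ hc0] at this
  exact this

theorem bnt_st {ι₀ κ₀ F : Type*} [Fintype κ₀] [DecidableEq κ₀] [Finite ι₀] {R₀ : RootSys ι₀ κ₀} [Field F]
    {S : StData R₀ F G} (hS : S.Good) (htop : S.grp = ⊤) :
    BNT G (fun i j => orderOf (R₀.sp i * R₀.sp j)) fun _ => Nat.card F :=
  ⟨hS.bnPair htop, idxE hS htop, orderOf_idxE hS htop, fun _ => hS.cellIdx_sW htop _⟩

end CL.TB
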