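/-
S1143 (Tits), Shp: root systems of the types A, B, D, E, F.
-/
import Cfsg.Agent.CHEV.TB.Rt
import Cfsg.Agent.CHEV.ClBase
import Cfsg.Agent.CHEV.GlueBN
import Cfsg.Agent.CHEV.Torus
import Cfsg.Agent.CHEV.CoreF4
import Cfsg.Agent.CHEV.CoreE6
import Cfsg.Agent.CHEV.CoreE7
import Cfsg.Agent.CHEV.CoreE8

set_option autoImplicit false
set_option linter.unusedSectionVars false
set_option backward.isDefEq.respectTransparency false

namespace CL.TB

open CL.Chev
open scoped MatrixGroups commutatorElement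

/-- the data needed of a root system of type `t` and rank `n` -/
structure Shp (t : Ty) (n : ℕ) {ι : Type*} (R : RootSys ι (Fin n)) : Prop where
  ord : ∀ i j, orderOf (R.sp i * R.sp j) = t.m n i j
  noiso : ∀ i, ∃ j, j ≠ i ∧ R.A i j ≠ 0
  le2 : ∀ i j, i ≠ j → R.A i j * R.A j i ≤ 2
  sl : t = .A ∨ t = .D ∨ t = .E → (∀ i, ∃ j, E3 R i j) ∧ ∃ root a par rk, Tree R root a par rk ∧ E3 R a root
  tB : t = .B → ∃ a1 a2 b : Fin n, a1.1 + 3 = n ∧ a2.1 + 2 = n ∧ b.1 + 1 = n ∧ ShB R a1 a2 b ∧ ∃ par rk, Tree R b a2 par rk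
  tF : t = .F → (∀ i, ∃ j, E3 R i j) ∧ ∃ a1 a2 b : Fin n, a1.1 = 3 ∧ a2.1 = 2 ∧ b.1 = 1 ∧ B3 R a1 a2 b ∧
    ∃ par rk, Tree R b a2 par rk

/-- orders from the Cartan matrix: `orderOf_sp_mul_sp`, `coxOf`, `sp_mul_self` -/
theorem ord_of_A {n : ℕ} {ι : Type*} (R : RootSys ι (Fin n)) (t : Ty)
    (h : ∀ i j : Fin n, i ≠ j → R.A i j * R.A j i =
      if t.dbl n i j ∨ t.dbl n j i then 2 else if t.adj n i j ∨ t.adj n j i then 1 else 0) (i j : Fin n) :
    orderOf (R.sp i * R.sp j) = t.m n i j := by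
  by_cases hij : i = j
  · subst hij; rw [R.sp_mul_self, orderOf_one, Ty.m, if_pos rfl]
  have := h i j hij
  rw [R.orderOf_sp_mul_sp hij (by rw [this]; split_ifs <;> omega), this, Ty.m, if_neg hij]
  split_ifs <;> rfl

open Cl Cfsg.Lie

theorem shp_A {n : ℕ} (hn : 3 ≤ n) : Shp .A n (baseA n).R where
  ord := ord_of_A _ _ fun i j hij => by
    have := Fin.val_ne_of_ne hij
    simp only [baseA_A, chainA, Ty.dbl, Ty.adj, or_self, if_false]; split_ifs <;> omega
  noiso i := by
    have := i.2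
    by_cases h : (i : ℕ) = 0
    · exact ⟨⟨1, by omega⟩, by simp only [ne_eq, Fin.ext_iff]; omega, by simp only [baseA_A, chainA]; split_ifs <;> omega⟩
    · exact ⟨⟨i - 1, by omega⟩, by simp only [ne_eq, Fin.ext_iff]; omega, by
        simp only [baseA_A, chainA]; split_ifs <;> omega⟩
  le2 i j hij := by
    have := Fin.val_ne_of_ne hij
    simp only [baseA_A, chainA]; split_ifs <;> omega
  sl _ := ⟨fun i => by
    have := i.2
    by_cases h : (i : ℕ) = 0
    · exact ⟨⟨1, by omega⟩, by simp only [E3, baseA_A, chainA]; constructor <;> split_ifs <;> omega⟩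
    · exact ⟨⟨i - 1, by omega⟩, by simp only [E3, baseA_A, chainA]; constructor <;> split_ifs <;> omega⟩,
    ⟨0, by omega⟩, ⟨1, by omega⟩, fun i => ⟨i - 1, by omega⟩, fun i => i,
    ⟨fun i hi => by simp only [ne_eq, Fin.ext_iff] at hi ⊢; omega,
      fun i j hij hA => by
        simp only [baseA_A, chainA, ne_eq, Fin.ext_iff] at hij hA ⊢; split_ifs at hA <;> omega,
      by simp [Fin.ext_iff], rfl, by simp [baseA_A, chainA],
      fun i hi _ => by
        simp only [E3, baseA_A, chainA, ne_eq, Fin.ext_iff] at hi ⊢; constructor <;> split_ifs <;> omega⟩,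
    by simp [E3, baseA_A, chainA]⟩
  tB h := by cases h
  tF h := by cases h

theorem sB_cast {n : ℕ} (k : Fin n) :
    (baseB n).R.simple k.castSucc = .mk (some (.inl k.castSucc)) (some (.inr k.succ)) (adm_chain _ k) :=
  Root.mk_congr _ _ (by simp [baseB, baseSnoc]) (by simp [baseB, baseSnoc])

theorem sB_last (n : ℕ) : (baseB n).R.simple (Fin.last n) = .mk (some (.inl (Fin.last n))) none (adm_B _) :=
  Root.mk_congr _ _ (by simp [baseB, baseSnoc]) (by simp [baseB, baseSnoc])

theorem vB_σ {n : ℕ} (i j : Fin (n + 1)) : ((baseB n).R.σ i ((baseB n).R.simple j)).v =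
    ((baseB n).R.simple j).v - (baseB n).R.A i j • ((baseB n).R.simple i).v := (baseB n).vecSys.v_σ i ((baseB n).R.simple j)

theorem spn_v {n : ℕ} {r s k : Root .B (n + 1)} (h : Spn (baseB n).R r s k) :
    ∃ a b c : ℤ, c ≠ 0 ∧ c • k.v = a • r.v + b • s.v := by
  obtain ⟨a, b, c, hc, e⟩ := h
  have l : ∀ r : Root .B (n + 1), r.v = Fintype.linearCombination ℤ (fun k => ((baseB n).R.simple k).v)
    ((baseB n).R.rt r) := fun r => (baseB n).vecSys.v_eq r
  refine ⟨a, b, c, hc, ?_⟩
  rw [l k, l r, l s, ← map_smul, e, map_add, map_smul, map_smul]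

theorem shB {n : ℕ} (k1 k2 : Fin n) (h1 : k1.1 + 2 = n) (h2 : k2.1 + 1 = n) :
    ShB (baseB n).R k1.castSucc k2.castSucc (Fin.last n) where
  e12 := by simp only [E3, baseB_A, chainA, Fin.val_castSucc]; constructor <;> split_ifs <;> omega
  h2b := by simp only [baseB_A, chainA, Fin.val_castSucc, Fin.val_last]; split_ifs <;> omega
  hb2 := by rw [baseB_A, if_pos ⟨rfl, h2⟩]
  h1b := by simp only [baseB_A, chainA, Fin.val_castSucc, Fin.val_last]; split_ifs <;> omega
  edge i hi := by
    have := i.2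
    rw [ne_eq, Fin.ext_iff, Fin.val_last] at hi
    by_cases h : (i : ℕ) = 0
    · exact ⟨⟨1, by omega⟩, by simp only [E3, baseB_A, chainA]; constructor <;> split_ifs <;> omega⟩
    · exact ⟨⟨i - 1, by omega⟩, by simp only [E3, baseB_A, chainA]; constructor <;> split_ifs <;> omega⟩
  orb i hi := by
    have key : ∀ (d : ℕ) (i : Fin (n + 1)), i.1 + d + 1 = n → ∃ w : (baseB n).R.W,
        w.1 ((baseB n).R.simple k2.castSucc) = (baseB n).R.simple i := by
      intro d
      induction d with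
      | zero => exact fun i hi => ⟨1, by rw [show i = k2.castSucc from Fin.ext (by simp only [Fin.val_castSucc]; omega)]; rfl⟩
      | succ d ih =>
        intro i hi
        obtain ⟨w, hw⟩ := ih ⟨i + 1, by omega⟩ (by simp only; omega)
        have e : E3 (baseB n).R i ⟨i + 1, by omega⟩ := by
          simp only [E3, baseB_A, chainA, true_or, or_true, if_true]; constructor <;> split_ifs <;> omega
        refine ⟨(baseB n).R.sW ⟨i + 1, by omega⟩ * (baseB n).R.sW i * w, ?_⟩
        rw [← e.conj, ← hw]; rfl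
    have := i.2
    rw [ne_eq, Fin.ext_iff, Fin.val_last] at hi
    exact key (n - 1 - i) i (by omega)
  walls T hneg hrefl hlong hsub β b1 b2 := by
    have e1 : k1.succ = k2.castSucc := Fin.ext (by simp only [Fin.val_succ, Fin.val_castSucc]; omega)
    have e2 : k2.succ = Fin.last n := Fin.ext (by simp only [Fin.val_succ, Fin.val_last]; omega)
    have n1 : k1.castSucc ≠ k2.castSucc := Fin.ne_of_val_ne (by simp only [Fin.val_castSucc]; omega)
    have n2 : k1.castSucc ≠ Fin.last n := Fin.ne_of_val_ne (by simp only [Fin.val_castSucc, Fin.val_last]; omega)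
    have n3 : k2.castSucc ≠ Fin.last n := Fin.ne_of_val_ne (by simp only [Fin.val_castSucc, Fin.val_last]; omega)
    have hl : (baseB n).R.len ((baseB n).R.simple k2.castSucc) = 2 := by
      rw [sB_cast]; exact (by simp [lenP] : lenP (some (.inl k2.castSucc)) (some (.inr k2.succ)) = 2)
    have hr : ((baseB n).R.σ k1.castSucc ((baseB n).R.simple k2.castSucc)).v = ev k1.castSucc - ev (Fin.last n) := by
      rw [vB_σ, sB_cast, sB_cast, Root.v_mk, Root.v_mk, e1, e2, show (baseB n).R.A k1.castSucc k2.castSucc = -1 by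
        simp only [baseB_A, chainA, Fin.val_castSucc]; split_ifs <;> omega]
      simp only [ε_inl, ε_inr]; module
    have h0 : (baseB n).R.σ k2.castSucc ((baseB n).R.simple (Fin.last n)) = .mk (some (.inl k2.castSucc)) none (adm_B _) := by
      apply Root.v_injective
      rw [vB_σ, sB_cast, sB_last, Root.v_mk, Root.v_mk, Root.v_mk, e2,
        show (baseB n).R.A k2.castSucc (Fin.last n) = -1 by
          simp only [baseB_A, chainA, Fin.val_castSucc, Fin.val_last]; split_ifs <;> omega]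
      simp only [ε_inl, ε_inr, ε_none]; module
    have hT : Root.mk (some (.inl k2.castSucc)) none (adm_B _) ∈ T :=
      h0 ▸ hsub _ (((baseB n).R.σ_mem_sub (by simp)).2 ((baseB n).R.simple_mem_sub.2 (by simp)))
    generalize (baseB n).R.σ k1.castSucc ((baseB n).R.simple k2.castSucc) = r₀ at *
    induction β using Root.ind with | H a c h ha =>
    by_cases hc : c = none
    swap
    · refine hlong _ (hl ▸ ?_) b1 b2
      have : a ≠ c := fun e => by simpa using h.2.1 e
      exact (by simp [lenP, this, ha, hc] : lenP a c = 2)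
    subst hc
    by_cases c1 : a = some (.inl k2.castSucc)
    · subst c1; exact hT
    by_cases c2 : a = some (.inr k2.castSucc)
    · subst c2; exact hneg _ hT
    have hγ : adm .B a (some (.inr k2.castSucc)) :=
      ⟨fun e => c1 (eq_bar_comm.1 e), fun e => absurd e c2, fun _ => rfl, fun _ => rfl, by simp⟩
    have z1 : ε a k2.castSucc = 0 := by
      have := ε_dot_of_ne (a := a) (b := some (.inl k2.castSucc)) c1 c2
      simpa using this
    have z2 : ε a k1.castSucc = 0 ∨ ε a (Fin.last n) = 0 := by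
      rcases a with _ | i | i
      · exact absurd rfl ha
      all_goals
        by_cases hi : i = k1.castSucc
        · subst hi; right; simp [n2.symm]
        · left; simp [Ne.symm hi]
    have hw : (Root.mk a (some (.inr k2.castSucc)) hγ).w = ε a - ev k2.castSucc := by
      rw [Root.w_mk, cw_gen c2 ha (by simp), ε_inr, sub_eq_add_neg]
    have hp : (baseB n).R.pair (.mk a (some (.inr k2.castSucc)) hγ) (.mk (some (.inl k2.castSucc)) none (adm_B _)) = -1 := by
      rw [Base.R_pair, hw, Root.v_mk]; simp [z1]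
    have g1 : Root.mk a (some (.inr k2.castSucc)) hγ ≠ r₀ := fun e => by
      have := congrFun (congrArg Root.v e) k2.castSucc
      simp [hr, Root.v_mk, z1, n1.symm, n3] at this
    have g2 : Root.mk a (some (.inr k2.castSucc)) hγ ≠ (baseB n).R.neg r₀ := fun e => by
      have := congrFun (congrArg Root.v e) k2.castSucc
      simp [Base.R_neg, Root.v_neg, hr, Root.v_mk, z1, n1.symm, n3] at this
    have := hrefl _ hT _ (hlong (.mk a _ hγ) (hl ▸ (by simp [lenP, c2, ha] : lenP a (some (.inr k2.castSucc)) = 2)) g1 g2)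
      (by rw [hp]; decide) (fun e => by simpa [ha, eq_comm] using Root.mk_eq_iff.1 e)
      (fun e => by rw [Base.R_neg, Root.neg_mk] at e; simpa [ha, eq_comm (a := none)] using Root.mk_eq_iff.1 e) (fun hs => by
        obtain ⟨x, y, z, hz, e⟩ := spn_v hs
        have f1 := congrFun e k1.castSucc
        have f2 := congrFun e (Fin.last n)
        simp [hr, Root.v_mk, n1, n2, n2.symm, n3.symm] at f1 f2
        rcases z2 with z2 | z2 <;> simp [z2] at f1 f2 <;> omega)
    convert this using 1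
    apply Root.v_injective
    rw [Base.R_pair, Root.w_mk] at hp
    rw [Base.refl_mk _ hγ ha, Root.v_refl hγ ha, hp]
    simp only [Root.v_mk, ε_inl, ε_inr, ε_none]; module

/-- `walls`: with `β₀ = σ_{a2} α_b` (the short root `e_{n-1}`, orthogonal to `r₀ = e_{n-2} - e_n`, 0-based in `Fin (n+1)`), every short root `β ≠ ± β₀` is `refl γ β₀` for the long root
`γ = β - β₀ ≠ ± r₀`, and `r₀` is not in the span of `β₀, γ`.  Use the vector model of CHEV/ClComb, or: `len`, `pair` and coordinates. -/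
theorem shp_B {n : ℕ} (hn : 2 ≤ n) : Shp .B (n + 1) (baseB n).R where
  ord := ord_of_A _ _ fun i j hij => by
    have := Fin.val_ne_of_ne hij
    have := i.2
    have := j.2
    simp only [baseB_A, chainA, Ty.dbl, Ty.adj]; split_ifs <;> omega
  noiso i := by
    have := i.2
    by_cases h : (i : ℕ) = 0
    · exact ⟨⟨1, by omega⟩, by simp only [ne_eq, Fin.ext_iff]; omega, by simp only [baseB_A, chainA]; split_ifs <;> omega⟩
    · exact ⟨⟨i - 1, by omega⟩, by simp only [ne_eq, Fin.ext_iff]; omega, by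
        simp only [baseB_A, chainA]; split_ifs <;> omega⟩
  le2 i j hij := by
    have := Fin.val_ne_of_ne hij
    simp only [baseB_A, chainA]; split_ifs <;> omega
  sl h := by simp at h
  tB _ := ⟨(⟨n - 2, by omega⟩ : Fin n).castSucc, (⟨n - 1, by omega⟩ : Fin n).castSucc, Fin.last n,
    by simp only [Fin.val_castSucc]; omega, by simp only [Fin.val_castSucc]; omega, rfl,
    shB _ _ (by simp only; omega) (by simp only; omega), fun i => ⟨min (i + 1) n, by omega⟩, fun i => n - i,
    ⟨fun i hi => by have := i.2; simp only [ne_eq, Fin.ext_iff, Fin.val_last] at hi ⊢; omega,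
      fun i j hij hA => by
        have := i.2
        have := j.2
        simp only [baseB_A, chainA, ne_eq, Fin.ext_iff, Fin.val_last] at hij hA ⊢; split_ifs at hA <;> omega,
      by simp only [ne_eq, Fin.ext_iff, Fin.val_last, Fin.val_castSucc]; omega,
      by simp only [Fin.ext_iff, Fin.val_last, Fin.val_castSucc]; omega,
      by simp only [baseB_A, chainA, Fin.val_last, Fin.val_castSucc]; split_ifs <;> omega,
      fun i hi hi' => by
        have := i.2
        simp only [E3, baseB_A, chainA, ne_eq, Fin.ext_iff, Fin.val_last, Fin.val_castSucc] at hi hi' ⊢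
        constructor <;> split_ifs <;> omega⟩⟩
  tF h := by cases h

theorem shp_D {n : ℕ} (hn : 2 ≤ n) : Shp .D (n + 2) (baseD n).R where
  ord := ord_of_A _ _ fun i j hij => by
    have := Fin.val_ne_of_ne hij
    have := i.2
    have := j.2
    simp only [baseD_A, chainA, Ty.dbl, Ty.adj, or_self, if_false]; split_ifs <;> omega
  noiso i := by
    have := i.2
    by_cases h : (i : ℕ) = n + 1
    · exact ⟨⟨n - 1, by omega⟩, by simp only [ne_eq, Fin.ext_iff]; omega, by
        simp only [baseD_A, chainA]; split_ifs <;> omega⟩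
    by_cases h : (i : ℕ) = 0
    · exact ⟨⟨1, by omega⟩, by simp only [ne_eq, Fin.ext_iff]; omega, by simp only [baseD_A, chainA]; split_ifs <;> omega⟩
    · exact ⟨⟨i - 1, by omega⟩, by simp only [ne_eq, Fin.ext_iff]; omega, by
        simp only [baseD_A, chainA]; split_ifs <;> omega⟩
  le2 i j hij := by
    have := Fin.val_ne_of_ne hij
    simp only [baseD_A, chainA]; split_ifs <;> omega
  sl _ := ⟨fun i => by
    have := i.2
    by_cases h : (i : ℕ) = n + 1
    · exact ⟨⟨n - 1, by omega⟩, by simp only [E3, baseD_A, chainA]; constructor <;> split_ifs <;> omega⟩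
    by_cases h : (i : ℕ) = 0
    · exact ⟨⟨1, by omega⟩, by simp only [E3, baseD_A, chainA]; constructor <;> split_ifs <;> omega⟩
    · exact ⟨⟨i - 1, by omega⟩, by simp only [E3, baseD_A, chainA]; constructor <;> split_ifs <;> omega⟩,
    ⟨0, by omega⟩, ⟨1, by omega⟩, fun i => ⟨if i.1 = n + 1 then n - 1 else i - 1, by split_ifs <;> omega⟩, fun i => i,
    ⟨fun i hi => by simp only [ne_eq, Fin.ext_iff] at hi ⊢; split_ifs <;> omega,
      fun i j hij hA => by
        have := i.2
        have := j.2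
        simp only [baseD_A, chainA, ne_eq, Fin.ext_iff] at hij hA ⊢; split_ifs at hA ⊢ <;> omega,
      by simp, by simp only [Fin.ext_iff]; split_ifs <;> omega,
      by rw [baseD_A, if_neg (by simp only; omega), if_neg (by simp only; omega)]; simp [chainA],
      fun i hi _ => by
        have := i.2
        simp only [E3, baseD_A, chainA, ne_eq, Fin.ext_iff] at hi ⊢; constructor <;> split_ifs <;> omega⟩,
    by constructor <;> rw [baseD_A, if_neg (by simp only; omega), if_neg (by simp only; omega)] <;> simp [chainA]⟩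
  tB h := by cases h
  tF h := by cases h

theorem shp_of_mat {n : ℕ} {ι : Type*} {R : RootSys ι (Fin n)} {M : Fin n → Fin n → ℤ} (hA : ∀ i j, R.A i j = M i j)
    (root a : Fin n) (par : Fin n → Fin n) (rk : Fin n → ℕ)
    (h : (∀ i j : Fin n, i ≠ j → M i j * M j i = if Ty.E.adj n i j ∨ Ty.E.adj n j i then 1 else 0) ∧
      (∀ i, ∃ j, j ≠ i ∧ M i j = -1 ∧ M j i = -1) ∧ (∀ i, i ≠ root → rk (par i) < rk i) ∧
      (∀ i j, i ≠ j → M i j ≠ 0 → (i ≠ root ∧ par i = j) ∨ (j ≠ root ∧ par j = i)) ∧ a ≠ root ∧ par a = root ∧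
      ∀ i, i ≠ root → M (par i) i = -1 ∧ M i (par i) = -1) : Shp .E n R := by
  obtain ⟨h1, h2, h3, h4, h5, h6, h7⟩ := h
  simp only [← hA] at h1 h2 h4 h7
  have h8 := h7 a h5
  rw [h6] at h8
  refine ⟨ord_of_A _ _ fun i j hij => by simpa [Ty.dbl] using h1 i j hij, fun i => ?_, fun i j hij => ?_,
    fun _ => ⟨fun i => ?_, root, a, par, rk, ⟨h3, h4, h5, h6, by omega, fun i hi _ => h7 i hi⟩, h8.2, h8.1⟩,
    fun h => (by cases h), fun h => (by cases h)⟩
  · obtain ⟨j, e1, e2, -⟩ := h2 i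
    exact ⟨j, e1, by omega⟩
  · rw [h1 i j hij]; split_ifs <;> omega
  · obtain ⟨j, -, e⟩ := h2 i
    exact ⟨j, e⟩

/-- Cartan matrices -/
def mE6 : Fin 6 → Fin 6 → ℤ := ![![2, 0, -1, 0, 0, 0], ![0, 2, 0, -1, 0, 0], ![-1, 0, 2, -1, 0, 0], ![0, -1, -1, 2, -1, 0],
  ![0, 0, 0, -1, 2, -1], ![0, 0, 0, 0, -1, 2]]
/-- Cartan matrices -/
def mE7 : Fin 7 → Fin 7 → ℤ := ![![2, 0, -1, 0, 0, 0, 0], ![0, 2, 0, -1, 0, 0, 0], ![-1, 0, 2, -1, 0, 0, 0],
  ![0, -1, -1, 2, -1, 0, 0], ![0, 0, 0, -1, 2, -1, 0], ![0, 0, 0, 0, -1, 2, -1], ![0, 0, 0, 0, 0, -1, 2]]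
/-- Cartan matrices -/
def mE8 : Fin 8 → Fin 8 → ℤ := ![![2, 0, -1, 0, 0, 0, 0, 0], ![0, 2, 0, -1, 0, 0, 0, 0], ![-1, 0, 2, -1, 0, 0, 0, 0],
  ![0, -1, -1, 2, -1, 0, 0, 0], ![0, 0, 0, -1, 2, -1, 0, 0], ![0, 0, 0, 0, -1, 2, -1, 0], ![0, 0, 0, 0, 0, -1, 2, -1],
  ![0, 0, 0, 0, 0, 0, -1, 2]]
/-- Cartan matrices -/
def mF4 : Fin 4 → Fin 4 → ℤ := ![![2, -1, 0, 0], ![-1, 2, -2, 0], ![0, -1, 2, -1], ![0, 0, -1, 2]]

theorem shp_E6 : Shp .E 6 (rootSys chevE6) :=
  shp_of_mat (n := 6) (M := mE6) (fun i j => (rootSys_A_eq_cartan (D := chevE6) i j).trans (cartan_simple_E6 i j)) 0 2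
    ![0, 3, 0, 2, 3, 4] ![0, 3, 1, 2, 3, 4] (by decide +kernel)
theorem shp_E7 : Shp .E 7 (rootSys chevE7) :=
  shp_of_mat (n := 7) (M := mE7) (fun i j => (rootSys_A_eq_cartan (D := chevE7) i j).trans (cartan_simple_E7 i j)) 0 2
    ![0, 3, 0, 2, 3, 4, 5] ![0, 3, 1, 2, 3, 4, 5] (by decide +kernel)
theorem shp_E8 : Shp .E 8 (rootSys chevE8) :=
  shp_of_mat (n := 8) (M := mE8) (fun i j => (rootSys_A_eq_cartan (D := chevE8) i j).trans (cartan_simple_E8 i j)) 0 2
    ![0, 3, 0, 2, 3, 4, 5, 6] ![0, 3, 1, 2, 3, 4, 5, 6] (by decide +kernel)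

theorem shp_F_of {ι : Type*} {R : RootSys ι (Fin 4)} (hA : ∀ i j, R.A i j = mF4 i j) : Shp .F 4 R where
  ord := ord_of_A _ _ (by simp only [hA]; decide)
  noiso := by simp only [hA]; decide
  le2 := by simp only [hA]; decide
  sl h := by simp at h
  tB h := by cases h
  tF _ := ⟨by simp only [E3, hA]; decide, 3, 2, 1, rfl, rfl, rfl,
    ⟨by simp only [E3, hA]; decide, by rw [hA]; rfl, by rw [hA]; rfl, by rw [hA]; rfl⟩, ![1, 1, 1, 2], ![1, 0, 1, 2],
    by decide, by simp only [hA]; decide, by decide, by decide, by rw [hA]; decide, by simp only [E3, hA]; decide⟩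

theorem shp_F : Shp .F 4 (rootSys chevF4) :=
  shp_F_of fun i j => (rootSys_A_eq_cartan (D := chevF4) i j).trans (cartan_simple_F4 i j)

theorem ord_C {n : ℕ} (i j : Fin (n + 1)) : orderOf ((baseC n).R.sp i * (baseC n).R.sp j) = Ty.B.m (n + 1) i j :=
  ord_of_A _ _ (fun i j hij => by
    have := Fin.val_ne_of_ne hij
    have := i.2
    have := j.2
    simp only [baseC_A, chainA, Ty.dbl, Ty.adj]; split_ifs <;> omega) i j

theorem exists_shp {t : Ty} {n : ℕ} (h : t.ok n) : ∃ (ι : Type) (_ : Finite ι) (R : RootSys ι (Fin n)), Shp t n R := by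
  cases t with
  | A => exact ⟨_, inferInstance, _, shp_A h⟩
  | B =>
    obtain ⟨m, rfl⟩ : ∃ m, n = m + 1 := ⟨n - 1, by have : 3 ≤ n := h; omega⟩
    exact ⟨_, inferInstance, _, shp_B (by have : 3 ≤ m + 1 := h; omega)⟩
  | D =>
    obtain ⟨m, rfl⟩ : ∃ m, n = m + 2 := ⟨n - 2, by have : 4 ≤ n := h; omega⟩
    exact ⟨_, inferInstance, _, shp_D (by have : 4 ≤ m + 2 := h; omega)⟩
  | E =>
    rcases h with rfl | rfl | rfl
    exacts [⟨_, inferInstance, _, shp_E6⟩, ⟨_, inferInstance, _, shp_E7⟩, ⟨_, inferInstance, _, shp_E8⟩]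
  | F =>
    obtain rfl : n = 4 := h
    exact ⟨_, inferInstance, _, shp_F⟩

end CL.TB
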