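/-
S1143 (Tits), Mod1: the untwisted model groups.
-/
import Cfsg.Agent.CHEV.TB.Def2
import Cfsg.Agent.CHEV.TB.Shp
import Cfsg.Agent.CHEV.TB.OfBN
import Cfsg.Agent.CHEV.TB.Cox1
import Cfsg.Agent.CHEV.TB.Mod0
import Cfsg.Agent.S0249
import Cfsg.Agent.S0270
import Cfsg.Agent.S0295
import Cfsg.Agent.S0296
import Cfsg.Agent.S1054

set_option autoImplicit false
set_option linter.unusedSectionVars false

namespace CL.TB

open CL.Chev
open scoped MatrixGroups commutatorElement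

universe u

open Cl Cfsg.Lie

theorem bnt_of {κ G ι₀ F : Type*} [Fintype κ] [DecidableEq κ] [Finite ι₀] {R₀ : RootSys ι₀ κ} [Field F] [Fintype F]
    [Group G] {S : StData R₀ F G} (hS : S.Good) (htop : S.grp = ⊤) {m : κ → κ → ℕ} {q : ℕ}
    (hm : ∀ i j, orderOf (R₀.sp i * R₀.sp j) = m i j) (hq : Fintype.card F = q ^ 1) : BNT G m fun _ => q := by
  rw [← funext₂ hm, ← pow_one q, ← hq, ← Nat.card_eq_fintype_card]
  exact bnt_st hS htop

theorem nb_of {t : Ty} {n : ℕ} {ι : Type*} [Finite ι] {R : RootSys ι (Fin n)} (h : Shp t n R) {M : Type} [Group M]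
    [Finite M] {ι₀ κ₀ F : Type*} [Fintype κ₀] [DecidableEq κ₀] [Finite ι₀] {R₀ : RootSys ι₀ κ₀} [Field F] [Fintype F]
    {S : StData R₀ F M} (hS : S.Good) (htop : S.grp = ⊤) (π : Fin n ≃ κ₀)
    (hm : ∀ i j, orderOf (R₀.sp (π i) * R₀.sp (π j)) = t.m n i j) {a b : Fin n} (h1 : R₀.A (π a) (π b) = -2)
    (h2 : R₀.A (π b) (π a) = -1) {q : ℕ} (hq : Fintype.card F = q ^ 1) (ho : Odd q) : NB M R q a b := by
  obtain ⟨B, h3, h4, h5⟩ := exists_bld_st R hS htop π (fun i j => (hm i j).trans (h.ord i j).symm) h.noiso h.le2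
  rw [pow_one] at hq
  refine ⟨_, _, inferInstance, B, fun i => by rw [h3, Nat.card_eq_fintype_card, hq], fun hb => ?_⟩
  obtain ⟨ε, δ, hε, hδ, -, e⟩ := hS.B2_conj (c := R₀.simple (π a)) (d := R₀.simple (π b))
    (m := R₀.σ (π b) (R₀.simple (π a))) (l := R₀.σ (π a) (R₀.simple (π b)))
    ⟨by rw [R₀.pair_simple, R₀.wt_simple, h1], by rw [R₀.pair_simple, R₀.wt_simple, h2],
      by rw [R₀.rt_σ', R₀.wt_simple, h2]; module, by rw [R₀.rt_σ', R₀.wt_simple, h1]; module⟩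
  have h6 := e 1 1
  rw [(hb _ (h4 a 1) _ (h5 a b 1)).eq, mul_inv_cancel_right, left_eq_mul] at h6
  have h7 := hS.x_inj _ _ h6
  have h8 : (2 : F) ≠ 0 := FGL.two_ne_zero_of_odd (hq ▸ ho)
  rcases hε with rfl | rfl <;> rcases hδ with rfl | rfl <;> simp [h8] at h7

theorem md_PSp (F : Type) [Field F] [Fintype F] {n : ℕ} (hn : 3 ≤ n) : Md.{u} (Cfsg.PSp n F) :=
  ⟨inferInstance, Cfsg.Agent.S0270.result n (by omega) (by omega), fun _ _ e =>
    .inr (.inl ⟨F, _, inferInstance, n, by omega, by omega, e⟩)⟩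

theorem md_F4 (F : Type) [Field F] [Fintype F] : Md.{u} (chevF4.group F) :=
  ⟨inferInstance, (Cfsg.Agent.S1054.result chevF4 (by simp)).1, fun _ _ e =>
    .inr (.inr (.inr (.inr (.inr (.inr (.inr (.inl ⟨F, _, inferInstance, e⟩)))))))⟩

/-- `F = GaloisField p k`; `pslSt`, `pomPlusSt`, `stG chevE6/7/8` (CHEV/ClGroups, GlueBN: `Good`, `grp = ⊤`, simplicity), `bnt_st`, `shp_*.ord` -/
theorem md_sl {t : Ty} {n : ℕ} (ht : t = .A ∨ t = .D ∨ t = .E) (hn : t.ok n) {q : ℕ} (hq : IsPrimePow q) :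
    ∃ (M : Type) (_ : Group M), Md.{u} M ∧ BNT M (t.m n) fun _ => q := by
  obtain ⟨F, _, _, hF⟩ := exists_fld hq one_ne_zero
  rcases ht with rfl | rfl | rfl
  · have hn : 3 ≤ n := hn
    exact ⟨_, _, ⟨inferInstance, Cfsg.Agent.S0249.result (n + 1) (by omega), fun _ _ e =>
      .inl ⟨F, _, inferInstance, n + 1, by omega, by omega, e⟩⟩,
      bnt_of (pslSt_good F n) (pslSt_top F n) (shp_A hn).ord hF⟩
  · have hn : 4 ≤ n := hn
    obtain ⟨m, rfl⟩ : ∃ m, n = m + 2 := ⟨n - 2, by omega⟩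
    have h1 : 1 ≤ m := by omega
    exact ⟨_, _, ⟨inferInstance, Cfsg.Agent.S0296.result (m + 2) hn, fun _ _ e =>
      .inr (.inr (.inr (.inr (.inl ⟨F, _, inferInstance, m + 2, hn, e⟩))))⟩,
      bnt_of (pomPlusSt_good F h1) (pomPlusSt_top F h1) (shp_D (by omega)).ord hF⟩
  · rcases hn with rfl | rfl | rfl
    · exact ⟨chevE6.group F, _, ⟨inferInstance, (Cfsg.Agent.S1054.result chevE6 (by simp)).1, fun _ _ e =>
        .inr (.inr (.inr (.inr (.inr (.inr (.inr (.inr (.inl ⟨F, _, inferInstance, e⟩))))))))⟩,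
        bnt_of (S := stG chevE6 F) stG_good stG_top shp_E6.ord hF⟩
    · exact ⟨chevE7.group F, _, ⟨inferInstance, (Cfsg.Agent.S1054.result chevE7 (by simp)).1, fun _ _ e =>
        .inr (.inr (.inr (.inr (.inr (.inr (.inr (.inr (.inr (.inl ⟨F, _, inferInstance, e⟩)))))))))⟩,
        bnt_of (S := stG chevE7 F) stG_good stG_top shp_E7.ord hF⟩
    · exact ⟨chevE8.group F, _, ⟨inferInstance, (Cfsg.Agent.S1054.result chevE8 (by simp)).1, fun _ _ e =>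
        .inr (.inr (.inr (.inr (.inr (.inr (.inr (.inr (.inr (.inr (.inl ⟨F, _, inferInstance, e⟩))))))))))⟩,
        bnt_of (S := stG chevE8 F) stG_good stG_top shp_E8.ord hF⟩

/-- `PSp n F` (`pspSt`, `ord_C`) -/
theorem md_C {n : ℕ} (hn : 3 ≤ n) {q : ℕ} (hq : IsPrimePow q) :
    ∃ (M : Type) (_ : Group M), Md.{u} M ∧ BNT M (Ty.B.m n) fun _ => q := by
  obtain ⟨F, _, _, hF⟩ := exists_fld hq one_ne_zero
  obtain ⟨m, rfl⟩ : ∃ m, n = m + 1 := ⟨n - 1, by omega⟩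
  exact ⟨_, _, md_PSp F hn, bnt_of (pspSt_good F m) (pspSt_top F m) ord_C hF⟩

theorem md_F {q : ℕ} (hq : IsPrimePow q) : ∃ (M : Type) (_ : Group M), Md.{u} M ∧ BNT M (Ty.F.m 4) fun _ => q := by
  obtain ⟨F, _, _, hF⟩ := exists_fld hq one_ne_zero
  exact ⟨_, _, md_F4 F, bnt_of (S := stG chevF4 F) stG_good stG_top shp_F.ord hF⟩

/-- `exists_bld_st` with `π = refl`; two orthogonal short roots whose sum is a long root do not commute in odd characteristic (`Good.B2_conj`, second part) -/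
theorem md_C_nb {n : ℕ} {ι : Type*} [Finite ι] {R : RootSys ι (Fin n)} (h : Shp .B n R) (hn : 3 ≤ n) {a b : Fin n}
    (ha : a.1 + 2 = n) (hb : b.1 + 1 = n) {q : ℕ} (hq : IsPrimePow q) (ho : Odd q) :
    ∃ (M : Type) (_ : Group M), Md.{u} M ∧ NB M R q a b := by
  obtain ⟨F, _, _, hF⟩ := exists_fld hq one_ne_zero
  obtain ⟨m, rfl⟩ : ∃ m, n = m + 1 := ⟨n - 1, by omega⟩
  refine ⟨_, _, md_PSp F hn, nb_of h (pspSt_good F m) (pspSt_top F m) (.refl _) ord_C ?_ ?_ hF ho⟩ <;>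
    simp only [Equiv.refl_apply, baseC_A, chainA] <;> split_ifs <;> omega

/-- `POmega F (quadFormOdd n F)` (`pomOddSt`) -/
theorem md_B_nb {n : ℕ} {ι : Type*} [Finite ι] {R : RootSys ι (Fin n)} (h : Shp .B n R) (hn : 3 ≤ n) {a b : Fin n}
    (ha : a.1 + 2 = n) (hb : b.1 + 1 = n) {q : ℕ} (hq : IsPrimePow q) (ho : Odd q) :
    ∃ (M : Type) (_ : Group M), Md.{u} M ∧ NB M R q b a := by
  obtain ⟨F, _, _, hF⟩ := exists_fld hq one_ne_zero
  obtain ⟨m, rfl⟩ : ∃ m, n = m + 1 := ⟨n - 1, by omega⟩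
  have ho' : Odd (Fintype.card F) := by rwa [hF, pow_one]
  have h1 : 1 ≤ m := by omega
  have h2 : ∃ a : F, a ≠ 0 ∧ a ≠ 1 := ⟨-1, by simp, fun h => FGL.two_ne_zero_of_odd ho' (by linear_combination -h)⟩
  refine ⟨_, _, ⟨inferInstance, Cfsg.Agent.S0295.result ho' _ hn, fun _ _ e =>
    .inr (.inr (.inr (.inl ⟨F, _, inferInstance, m + 1, hn, ho', e⟩)))⟩,
    nb_of h (pomOddSt_good h1 h2) (pomOddSt_top h1 h2) (.refl _) (shp_B (by omega)).ord ?_ ?_ hF ho⟩ <;>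
    simp only [Equiv.refl_apply, baseB_A, chainA] <;> split_ifs <;> omega

/-- in `chevF4` the nodes `0, 1` are short; `π = refl` for `NB .. 1 2` and `π = Fin.revPerm` for `NB .. 2 1` -/
theorem md_F_nb {ι : Type*} [Finite ι] {R : RootSys ι (Fin 4)} (h : Shp .F 4 R) {q : ℕ} (hq : IsPrimePow q) (ho : Odd q) :
    ∃ (M : Type) (_ : Group M), Md.{u} M ∧ NB M R q 1 2 ∧ NB M R q 2 1 := by
  obtain ⟨F, _, _, hF⟩ := exists_fld hq one_ne_zero
  have h1 : (rootSys chevF4).A (1 : Fin 4) (2 : Fin 4) = -2 := by rw [rootSys_A_F4]; rfl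
  have h2 : (rootSys chevF4).A (2 : Fin 4) (1 : Fin 4) = -1 := by rw [rootSys_A_F4]; rfl
  have := (md_F4.{u} F).1
  have key : ∀ π : Fin 4 ≃ Fin 4, (∀ i j, Ty.F.m 4 (π i) (π j) = Ty.F.m 4 i j) → ∀ a b, π a = 1 → π b = 2 →
      NB (chevF4.group F) R q a b := fun π h3 a b ha hb =>
    nb_of (S := stG chevF4 F) h stG_good stG_top π (fun i j => (shp_F.ord (π i) (π j)).trans (h3 i j))
      ((congrArg₂ _ ha hb).trans h1) ((congrArg₂ _ hb ha).trans h2) hF ho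
  exact ⟨_, _, md_F4 F, key (.refl _) (fun _ _ => rfl) 1 2 rfl rfl, key Fin.revPerm (by decide) 2 1 rfl rfl⟩

end CL.TB
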