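/-
S1143 (Tits), Mod2: the twisted model groups.  Use IsLie (CHEV/LieData: isLie_PSU, isLie_minus, isLie_2E6), IsTw.bnPair (CHEV/TwBN) with S = representatives n a (a in kappa'),
orderOf (sW a * sW b) = orderOf (T.w a * T.w b) (compute on roots, or: T.w a = w0 (J a)), cellIdx (sW a) = card (XS (T.pos a) ⊓ Fix) (cellIdx_eq_card; q, q^2, q^3 for
the shapes one, two, a2; see the order formulas in CHEV/TwOrb, TwE6, ClTwU, ClTwO, S1103).
-/
import Cfsg.Agent.CHEV.TB.Def2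
import Cfsg.Agent.CHEV.TB.Shp
import Cfsg.Agent.CHEV.TB.Cox1
import Cfsg.Agent.CHEV.TB.Mod0
import Cfsg.Agent.S1070

set_option autoImplicit false
set_option linter.unusedSectionVars false

namespace CL.TB

open CL.Chev
open scoped MatrixGroups commutatorElement

universe u

/-- generic step: the BN-pair of a twisted group -/
theorem bnt_tw {ι κ κ' F Γ M : Type*} [Fintype κ] [DecidableEq κ] [Finite ι] {R : RootSys ι κ} [Field F] [Group Γ] [Group M]
    {S : StData R F Γ} {T : S.Twist κ'} {j : M →* Γ} (h : T.IsLie j) :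
    BNT M (fun a b => orderOf (T.w a * T.w b)) fun a => Nat.card ↥(S.XS (T.pos a) ⊓ j.range) := by
  have hS := h.good
  have hM := h.isTw
  have hn := (hM.exists_rep hS).choose_spec
  refine ⟨hM.bnPair hS h.inj, Equiv.ofInjective _ fun a b e =>
    T.w_injective (hS.acts_unique (hn a).2 (e ▸ (hn b).2)), fun a b => ?_, fun a => ?_⟩
  · refine orderOf_eq_orderOf_iff.2 fun k => ?_
    have h1 : S.Acts ((j ((hM.exists_rep hS).choose a) * j ((hM.exists_rep hS).choose b)) ^ k)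
        ((T.w a * T.w b) ^ k) := by
      induction k with
      | zero => simpa using S.acts_one
      | succ k ih => rw [pow_succ, pow_succ]; exact ih.mul ((hn a).2.mul (hn b).2)
    rw [BN.sW, BN.sW, ← map_mul, ← map_pow, BN.mk_eq_one_iff]
    rw [← map_mul, ← map_pow] at h1
    exact ⟨fun e => hS.eq_one_of_acts_of_mem_B h1 e, fun e => S.H_le_B (hS.mem_H_of_acts_one
      (Subtype.property (p := fun g => g ∈ S.N.comap j) _) (e ▸ h1))⟩
  · set P := hM.bnPair hS h.inj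
    set n := (hM.exists_rep hS).choose a
    have hs : n ∈ P.S := ⟨a, rfl⟩
    have hB : ∀ {u}, u ∈ S.XS (T.pos a) → u ∈ S.B := fun hu => S.U_le_B (S.XS_le_U (fun r hr => hr.1) hu)
    choose f hf using fun t : ↥(S.XS (T.pos a) ⊓ j.range) => t.2.2
    refine BN.cellIdx_eq_card P (fun t => f t * n) (fun t => ?_) (fun g hg => ?_) fun t t' e => ?_
    · exact (BN.δ_B_mul P (show j (f t) ∈ S.B from hf t ▸ hB t.2.1) n).trans (BN.δ_S P ⟨n, hs⟩)
    · have h1 : g⁻¹ ∈ P.parabolic {n} := by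
        obtain ⟨b, hb, b', hb', rfl⟩ := (BN.δ_eq_δ_iff P).1 (hg.trans (BN.δ_S P ⟨n, hs⟩).symm)
        exact inv_mem (mul_mem (mul_mem (BN.B_le_parabolic _ _ hb) (BN.mem_parabolic_of_mem _ rfl))
          (BN.B_le_parabolic _ _ hb'))
      rw [hM.bnPair_parabolic hS h.inj] at h1
      rcases (hM.mem_P_iff hS ⟨(hn a).1, _, rfl⟩ (hn a).2 ⟨g⁻¹, rfl⟩).1 h1 with h2 | ⟨b, hb, u, hu, e⟩
      · exact absurd (hg.symm.trans ((BN.δ_eq_one_iff P).2 (inv_inv g ▸ P.B.inv_mem h2))) (BN.sW_ne_one P _)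
      · refine ⟨⟨u⁻¹, inv_mem hu⟩, show j _ ∈ S.B from ?_⟩
        have h3 : j (n * n) ∈ S.B := P.sq_mem n hs
        rw [map_inv, inv_eq_iff_eq_inv] at e
        rw [map_mul, map_inv, map_mul, hf, e]
        simpa [mul_assoc] using mul_mem (inv_mem h3) (inv_mem hb.1)
    · have h1 : j _ ∈ S.B := e
      simp only [map_mul, map_inv, mul_inv_rev, hf] at h1
      have h2 := (hn a).2.inv_conj_mem_XS (T' := {r | ¬ R.IsPos r})
        (fun r hr => (T.w_inv a ▸ T.w_mem_ngt.2 hr :).1) (mul_mem (inv_mem t.2.1) t'.2.1)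
      have h3 := hS.eq_one_of_mem_B_V (by simpa only [mul_assoc] using h1) h2
      exact Subtype.ext (inv_mul_eq_one.1 (conj_eq_one_iff.1 ((congrArg _ (inv_inv _)).trans h3)))

theorem bnt_cJ {ι κ κ' F Γ M : Type*} [Fintype κ] [DecidableEq κ] [Finite ι] {R : RootSys ι κ} [Field F] [Group Γ]
    [Group M] {S : StData R F Γ} {T : S.Twist κ'} {j : M →* Γ} (h : T.IsLie j) :
    BNT M (fun a b => orderOf (T.w a * T.w b)) T.cJ := by
  convert bnt_tw h with a
  exact congrArg (fun A : Subgroup Γ => Nat.card A) (le_antisymm (fun x hx => ⟨hx.1, h.isTw.pos_le a hx⟩)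
    fun x hx => ⟨hx.1, h.isTw.le_fix hx.2⟩)

theorem bnt_B {ι κ κ' F Γ M : Type*} [Fintype κ] [DecidableEq κ] [Finite ι] {R : RootSys ι κ} [Field F] [Group Γ]
    [Group M] {S : StData R F Γ} {T : S.Twist κ'} {j : M →* Γ} (h : T.IsLie j) {s : F →+* F} (hQ : T.IsQS s) {n : ℕ}
    (r : Fin n → κ) (h1 : ∀ i j, r j = r i ∨ r j = T.π (r i) → j = i) (h1' : ∀ k, ∃ i, r i = k ∨ r i = T.π k)
    (h4 : ∀ i j : Fin n, i.1 + 2 = n → j.1 + 1 = n → orderOf (T.w (T.c (r i)) * T.w (T.c (r j))) = 4)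
    (h3 : ∀ i j : Fin n, j.1 = i.1 + 1 → j.1 + 1 < n → orderOf (T.w (T.c (r i)) * T.w (T.c (r j))) = 3)
    (h2 : ∀ i j : Fin n, i.1 + 1 < j.1 → orderOf (T.w (T.c (r i)) * T.w (T.c (r j))) = 2) {q : Fin n → ℕ}
    (hq : ∀ i, T.cJ (T.c (r i)) = q i) : BNT M (Ty.B.m n) q := by
  rw [← m_B (fun i => by rw [T.w_mul_self, orderOf_one]) (fun i j => w_symm _ _ _) h4 h3 h2, ← funext hq]
  exact (bnt_cJ h).reindex (Equiv.ofBijective (fun i => T.c (r i)) ⟨fun i j e => h1 _ _ ((c_eq_iff hQ).1 e), fun a => by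
    obtain ⟨k, rfl⟩ := T.c_surj a
    exact (h1' k).imp fun i e => (c_eq_iff hQ).2 e⟩)

open Cl

/-- `PΩ⁻ (2n + 2, q)` -/
theorem md_2D {n : ℕ} (hn : 3 ≤ n) {q : ℕ} (hq : IsPrimePow q) :
    ∃ (M : Type) (_ : Group M), Md.{u} M ∧ BNT M (Ty.B.m n) fun i => if i.1 + 1 = n then q ^ 2 else q := by
  obtain ⟨F, _, _, hF⟩ := exists_fld hq one_ne_zero
  obtain ⟨b, hab⟩ := QuadExt.exists_aniso (F := F)
  obtain ⟨K, _, _, e, hK, ω, h⟩ := exists_qSplit hab
  obtain ⟨m, rfl⟩ : ∃ m, n = m + 1 := ⟨n - 1, by omega⟩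
  have h1 : 1 ≤ m := by omega
  obtain ⟨j, hj⟩ := isLie_minus h hab h1 (by omega)
  have hQ := h.ptw_QS h1
  have hπ : ∀ i, ((h.ptw h1).π i : ℕ) = _ := fun i => by rw [h.ptw_π, dSwap_val]
  have hA := baseD_A (n := m)
  rw [pow_one] at hF
  refine ⟨Cfsg.POmega F (Cfsg.quadFormMinus (m + 1) F 1 b), _, ⟨inferInstance,
    OrthE.isSimpleGroup_POmega (Orth.QMinus (m + 1) F 1 b) (Orth.QMinus_nondeg _ F hab) (by simp; omega), fun G _ e =>
      .inr (.inr (.inr (.inr (.inr (.inl ⟨F, _, inferInstance, m + 2, 1, b, by omega, hab, e⟩)))))⟩,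
    bnt_B hj hQ Fin.castSucc (fun i j => ?_) (fun k => ?_) (fun i j a b => ?_) (fun i j a b => ?_) (fun i j a => ?_)
      fun i => ?_⟩
  · have := i.2
    have := j.2
    simp only [Fin.ext_iff, hπ, Fin.val_castSucc]
    split_ifs <;> omega
  · refine ⟨⟨min k m, by omega⟩, ?_⟩
    have := k.2
    simp only [Fin.ext_iff, hπ, Fin.val_castSucc]
    split_ifs <;> omega
  · rw [w_symm]
    refine ord_two_one hQ ?_ ?_ ?_ ?_ <;> simp only [Fin.ext_iff, hA, hπ, chainA, Fin.val_castSucc] <;>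
      split_ifs <;> omega
  · refine ord_one_one hQ ?_ ?_ ?_ ?_ <;> simp only [Fin.ext_iff, hA, hπ, chainA, Fin.val_castSucc] <;>
      split_ifs <;> omega
  · have := j.2
    refine ord_two hQ ?_ ?_ ?_ ?_ <;> simp only [hA, hπ, chainA, Fin.val_castSucc] <;> split_ifs <;> omega
  · have := i.2
    split_ifs with a
    · rw [cJ_orth hQ hj.good, Nat.card_eq_fintype_card, hK, hF]
      simp only [hA, hπ, chainA, Fin.val_castSucc]
      split_ifs <;> omega
    · rw [cJ_fix hQ hj.good, ← hF]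
      · exact SqField.card_fixed hK
      · simp only [Fin.ext_iff, hπ, Fin.val_castSucc]
        split_ifs <;> omega

theorem md_PSU {F : Type} [Field F] [Fintype F] {q : ℕ} (hF : Fintype.card F = q ^ 2) {m : ℕ} (hm : 4 ≤ m) :
    Md.{u} (Cfsg.PSU m F q) :=
  ⟨inferInstance, Uni.isSimpleGroup_PSU hF (by omega) (by omega), fun _ _ e =>
    .inr (.inr (.inl ⟨F, _, _, m, q, hF, by omega, by omega, e⟩))⟩

/-- `PSU (2n, q)` -/
theorem md_2A0 {n : ℕ} (hn : 3 ≤ n) {q : ℕ} (hq : IsPrimePow q) :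
    ∃ (M : Type) (_ : Group M), Md.{u} M ∧ BNT M (Ty.B.m n) fun i => if i.1 + 1 = n then q else q ^ 2 := by
  obtain ⟨F, _, _, hF⟩ := exists_fld hq two_ne_zero
  obtain ⟨m, hm⟩ : ∃ m, m + 1 = 2 * n := ⟨2 * n - 1, by omega⟩
  obtain ⟨j, hj⟩ := isLie_PSU hF (n := m) (by omega) (by omega)
  have hQ := psuTw_QS hF m
  have hπ : ∀ i, ((psuTw hF m).π i : ℕ) = _ := fun i => by rw [psuTw_π, Fin.val_rev]
  have hA := baseA_A (n := m)
  refine ⟨_, _, md_PSU hF (by omega), bnt_B hj hQ (Fin.castLE (by omega)) (fun i j => ?_) (fun k => ?_)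
    (fun i j a b => ?_) (fun i j a b => ?_) (fun i j a => ?_) fun i => ?_⟩
  · have := i.2
    have := j.2
    simp only [Fin.ext_iff, hπ, Fin.val_castLE]
    omega
  · have := k.2
    refine ⟨⟨min k (m - (k + 1)), by omega⟩, ?_⟩
    simp only [Fin.ext_iff, hπ, Fin.val_castLE]
    omega
  · refine ord_two_one hQ ?_ ?_ ?_ ?_ <;> simp only [Fin.ext_iff, hA, hπ, chainA, Fin.val_castLE] <;>
      (try split_ifs) <;> omega
  · refine ord_two_two hQ ?_ ?_ ?_ ?_ ?_ ?_ <;> simp only [hA, hπ, chainA, Fin.val_castLE] <;> split_ifs <;> omega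
  · have := j.2
    refine ord_two hQ ?_ ?_ ?_ ?_ <;> simp only [hA, hπ, chainA, Fin.val_castLE] <;> split_ifs <;> omega
  · have := i.2
    split_ifs with a
    · rw [cJ_fix hQ hj.good]
      · exact SqField.card_fixed hF
      · simp only [Fin.ext_iff, hπ, Fin.val_castLE]
        omega
    · rw [cJ_orth hQ hj.good, Nat.card_eq_fintype_card, hF]
      simp only [hA, hπ, chainA, Fin.val_castLE]
      split_ifs <;> omega

/-- `PSU (2n + 1, q)` -/
theorem md_2A1 {n : ℕ} (hn : 3 ≤ n) {q : ℕ} (hq : IsPrimePow q) :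
    ∃ (M : Type) (_ : Group M), Md.{u} M ∧ BNT M (Ty.B.m n) fun i => if i.1 + 1 = n then q ^ 3 else q ^ 2 := by
  obtain ⟨F, _, _, hF⟩ := exists_fld hq two_ne_zero
  obtain ⟨m, hm⟩ : ∃ m, m = 2 * n := ⟨_, rfl⟩
  obtain ⟨j, hj⟩ := isLie_PSU hF (n := m) (by omega) (by omega)
  have hQ := psuTw_QS hF m
  have hπ : ∀ i, ((psuTw hF m).π i : ℕ) = _ := fun i => by rw [psuTw_π, Fin.val_rev]
  have hA := baseA_A (n := m)
  refine ⟨_, _, md_PSU hF (by omega), bnt_B hj hQ (Fin.castLE (by omega)) (fun i j => ?_) (fun k => ?_)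
    (fun i j a b => ?_) (fun i j a b => ?_) (fun i j a => ?_) fun i => ?_⟩
  · have := i.2
    have := j.2
    simp only [Fin.ext_iff, hπ, Fin.val_castLE]
    omega
  · have := k.2
    refine ⟨⟨min k (m - (k + 1)), by omega⟩, ?_⟩
    simp only [Fin.ext_iff, hπ, Fin.val_castLE]
    omega
  · refine ord_two_a2 hQ ?_ ?_ ?_ ?_ ?_ ?_ ?_ <;> simp only [hA, hπ, chainA, Fin.val_castLE] <;> split_ifs <;> omega
  · refine ord_two_two hQ ?_ ?_ ?_ ?_ ?_ ?_ <;> simp only [hA, hπ, chainA, Fin.val_castLE] <;> split_ifs <;> omega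
  · have := j.2
    refine ord_two hQ ?_ ?_ ?_ ?_ <;> simp only [hA, hπ, chainA, Fin.val_castLE] <;> split_ifs <;> omega
  · have := i.2
    split_ifs with a
    · rw [cJ_a2 hQ hj.good, Nat.card_eq_fintype_card, hF, pow_succ q 2]
      · exact congrArg _ (SqField.card_fixed hF)
      all_goals
        simp only [hA, hπ, chainA, Fin.val_castLE]
        split_ifs <;> omega
    · rw [cJ_orth hQ hj.good, Nat.card_eq_fintype_card, hF]
      simp only [hA, hπ, chainA, Fin.val_castLE]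
      split_ifs <;> omega

/-- `²E₆(q)` -/
theorem md_2E {q : ℕ} (hq : IsPrimePow q) :
    ∃ (M : Type) (_ : Group M), Md.{u} M ∧ BNT M (Ty.F.m 4) fun i => if i.1 ≤ 1 then q else q ^ 2 := by
  obtain ⟨F, _, _, hF⟩ := exists_fld hq two_ne_zero
  obtain ⟨T, h, hj⟩ := isLie_2E6 hq (Nat.card_eq_fintype_card.trans hF)
  refine ⟨Cfsg.Lie.twistedE6 F q, _, ⟨inferInstance, (Cfsg.Agent.S1070.result hq hF).1, fun G _ e =>
    .inr (.inr (.inr (.inr (.inr (.inr (.inr (.inr (.inr (.inr (.inr (.inl ⟨F, _, _, q, hq, hF, e⟩)))))))))))⟩, ?_⟩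
  have e1 : (fun a b => orderOf (T.w a * T.w b)) = Ty.F.m 4 := funext₂ fun a b => by
    refine (T.orderOf_s_mul_s a b).symm.trans ((h.orderOf_s a b).trans ?_)
    fin_cases a <;> fin_cases b <;> rfl
  have e2 : T.cJ = fun i : Fin 4 => if i.1 ≤ 1 then q else q ^ 2 := funext fun a =>
    (h.cJ_eq hj.good a).trans (by simp only [Nat.lt_succ_iff])
  exact e1 ▸ e2 ▸ bnt_cJ hj

end CL.TB
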