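/-
S1143 (Tits), MoufS: the Moufang property when every node lies on a simple edge.
-/
import Cfsg.Agent.CHEV.TB.A2F
import Cfsg.Agent.CHEV.TB.Plane

set_option autoImplicit false
set_option linter.unusedSectionVars false

namespace CL.TB

open CL.Chev
open scoped MatrixGroups commutatorElement

namespace Bld

variable {ι κ G Ω : Type*} [Fintype κ] [DecidableEq κ] [Finite ι] {R : RootSys ι κ} [Group G] [MulAction G Ω]
  [Finite G] [Finite Ω] [FaithfulSMul G Ω] {B : Bld R G Ω}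

/-- `pa` transported to `c w` by an `n` inducing `w`; any multiple of `q k - 1` will do -/
theorem pa_W {k l : κ} (h : E3 R k l) {w : R.W} {g g' : G} (h1 : g • B.c w = B.c w)
    (h2 : g • B.c (w * R.sW k) = B.c (w * R.sW k)) (h1' : g' • B.c w = B.c w)
    (h2' : g' • B.c (w * R.sW k) = B.c (w * R.sW k)) {e : ℕ} (he : B.q k - 1 ∣ e) :
    ∀ y ∈ B.pan (B.c w) k, ⁅g, g'⁆ ^ e • y = y := by
  obtain ⟨K, _, _, ⟨P⟩⟩ := exists_A2 (B := B) h
  obtain ⟨n, hn⟩ := B.exists_n w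
  obtain ⟨m, rfl⟩ := he
  have k1 : ∀ {g : G} {v : R.W}, g • B.c (w * v) = B.c (w * v) → (n⁻¹ * g * n) • B.c v = B.c v := fun {g v} e => by
    rw [mul_smul, mul_smul, hn, e, ← hn, inv_smul_smul]
  have := P.pa h (k1 (by rwa [mul_one])) (k1 h2) (k1 (by rwa [mul_one])) (k1 h2')
  intro y hy
  obtain ⟨y, rfl⟩ := MulAction.surjective n y
  rw [← mul_one w, ← hn, B.smul_mem_pan] at hy
  have e1 : ⁅g, g'⁆ ^ (B.q k - 1) = n * ⁅n⁻¹ * g * n, n⁻¹ * g' * n⁆ ^ (B.q k - 1) * n⁻¹ := by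
    rw [← conj_pow]
    congr 1
    simp only [commutatorElement_def]
    group
  rw [pow_mul]
  refine MulAction.mem_stabilizer_iff.1 (pow_mem ?_ m)
  rw [MulAction.mem_stabilizer_iff, e1, conj_fix]
  exact this y hy

theorem _root_.CL.TB.El_commutator {K : Type*} [Field K] {a b c : Fin 3} (h1 : a ≠ b) (h2 : a ≠ c) (h3 : b ≠ c)
    (t u : K) : ⁅El a b t, El b c u⁆ = El a c (t * u) := by
  rw [commutatorElement_def, El_comm h1 h2 h3]
  group

theorem _root_.CL.TB.A2.Ind.comm {i j : κ} {K : Type*} [Field K] [Finite K] {P : A2 B i j K} {g g' : G}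
    {A A' : SL(3, K)} (h : P.Ind g A) (h' : P.Ind g' A') : P.Ind ⁅g, g'⁆ ⁅A, A'⁆ :=
  ((h.mul h').mul h.inv).mul h'.inv

/-- Lifts `g₁` of `El a b s`, `g₂` of `El b c 1` (`a, b, c` distinct), `γ = ⁅g₁, g₂⁆ ^ e` induces `El a c (e s)` (`El_comm`, `El_pow`); choose
`s = t / e`.  Walls in `Φ_J`: `Ind.tw`.  For `β ∉ Φ_J`, say `β > 0` (`Tw.neg`): take `v ∈ W_J` with `Ps v` both roots (`v` = the permutation
sorting `a, b, c`; or `exists_W_isPos_pair` + `exists_coset`), `cross` from `v` to `v d0` gives `w α_k = β` with `c w`, `c (w s_k)` fixed by `g₁, g₂`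
(`Ind.mem_Fx`); `pa_W`. -/
theorem exists_elation {i j : κ} (h : E3 R i j) {K : Type*} [Field K] [Finite K] (P : A2 B i j K) {a c : Fin 3}
    (hac : a ≠ c) {e : ℕ} (he : (e : K) ≠ 0) (t : K) : ∃ g, P.Ind g (El a c t) ∧
      ∀ β, β ≠ rt3 R i j a c → β ≠ rt3 R i j c a →
        (∀ (w : R.W) k, w.1 (R.simple k) = β ∨ w.1 (R.simple k) = R.neg β → (∃ l, E3 R k l) ∧ B.q k - 1 ∣ e) →
        B.Tw g β := by
  obtain ⟨b, hab, hbc⟩ : ∃ b, a ≠ b ∧ b ≠ c := by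
    revert a c
    decide
  obtain ⟨g₁, h₁⟩ := P.exists_ind (El a b (t / e))
  obtain ⟨g₂, h₂⟩ := P.exists_ind (El b c 1)
  have h₃ := (h₁.comm h₂).pow e
  rw [El_commutator hab hac hbc, El_pow, mul_one, mul_div_cancel₀ _ he] at h₃
  refine ⟨_, h₃, fun β b1 b2 b3 => ?_⟩
  by_cases hβ : β ∈ R.sub {i, j}
  · exact h₃.tw h hac hβ b1 b2
  obtain ⟨u, i', -, -, u1, u2, -⟩ := pair_std (R := R) (r := rt3 R i j a b) (s := rt3 R i j b c)
    (fun e => hab (h.rt3_inj hbc hab e).1.symm)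
    (fun e => hac (h.rt3_inj hbc hab.symm (e.trans (rt3_neg hab).symm)).2.symm)
  obtain ⟨v, hv, -, v1⟩ := exists_coset {i, j} u
  have m1 := h.mem_sub.2 ⟨a, b, hab, rfl⟩
  have m2 := h.mem_sub.2 ⟨b, c, hbc, rfl⟩
  have p1 := (v1 _ m1).2 (u1 ▸ (ps_apply u _).2 (R.isPos_simple i'))
  have p2 := (v1 _ m2).2 u2
  have key : ∀ β, β ∉ R.sub {i, j} → R.IsPos β →
      (∀ (w : R.W) k, w.1 (R.simple k) = β → (∃ l, E3 R k l) ∧ B.q k - 1 ∣ e) → B.Tw (⁅g₁, g₂⁆ ^ e) β := by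
    intro β c1 c2 c3
    obtain ⟨w, k, d1, d2⟩ := cross ((ps_of_not_sub hv c1).2 c2) (fun d => (ps_d0_of_not_sub hv c1).1 d c2)
    obtain ⟨⟨l, hl⟩, d3⟩ := c3 w k d1
    have f1 := B.mem_Fx.1 (h₁.mem_Fx h hab)
    have f2 := B.mem_Fx.1 (h₂.mem_Fx h hbc)
    have e1 := d2 _ p1 ((ps_d0_of_sub hv m1).2 p1)
    have e2 := d2 _ p2 ((ps_d0_of_sub hv m2).2 p2)
    exact ⟨w, k, d1, pa_W hl (f1 _ e1.1) (f1 _ e1.2) (f2 _ e2.1) (f2 _ e2.2) d3⟩
  by_cases hp : R.IsPos β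
  · exact key β hβ hp fun w k e => b3 w k (.inl e)
  · exact R.neg_neg β ▸ (key (R.neg β) (by rwa [R.neg_mem_sub]) ((R.isPos_neg β).2 hp)
      fun w k e => b3 w k (.inr e)).neg

theorem _root_.CL.TB.A2.card_K' {i j : κ} {K : Type*} [Field K] [Finite K] (P : A2 B i j K) (h : E3 R i j) :
    Nat.card K = B.q i := by
  have h1 : ∀ u, B.δ (B.c 1) (P.ρ (El 0 1 u) (B.c (R.sW i))) = R.sW i := fun u => by
    obtain ⟨g, hg⟩ := P.exists_ind (El 0 1 u)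
    rw [← hg.2 _ (B.c_mem_Res.2 (R.sp_mem_WJ (.inl rfl))),
      ← (hg.fix h (by decide) (one_mem _) (ps_one.2 (R.isPos_simple i))).1, B.δ_smul, B.δ_c, inv_one, one_mul]
  refine Nat.card_congr (Equiv.ofBijective (fun u => ⟨_, h1 u⟩) ⟨fun u u' e => ?_, fun y => ?_⟩)
  · refine (P.existsUnique_El h (a := 0) (b := 1) (by decide) (v := 1) (one_mem _) (.inl rfl) rfl (h1 u)).unique ?_ ?_
    · rw [one_mul]
    · rw [one_mul]
      exact congrArg Subtype.val e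
  · obtain ⟨u, hu⟩ := P.pan_i y.1 y.2
    exact ⟨u, Subtype.ext hu.symm⟩

/-- a power of `p` which is at least two vanishes in a field of order a power of `p` -/
theorem _root_.CL.TB.cast_q_sub {K : Type*} [Field K] [Finite K] {p e e' : ℕ} (h : Nat.card K = p ^ e)
    (h2 : 2 ≤ p ^ e') : ((p ^ e' - 1 : ℕ) : K) = -1 := by
  have := Fintype.ofFinite K
  have h1 := FiniteField.cast_card_eq_zero K
  rw [← Nat.card_eq_fintype_card, h, Nat.cast_pow] at h1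
  rw [Nat.cast_sub (by omega), Nat.cast_pow, eq_zero_of_pow_eq_zero h1, zero_pow (fun e => by simp [e] at h2),
    Nat.cast_one, zero_sub]

/-- `e = ∏ k, (q k - 1)` is prime to `p = char K` (`card_K`, `two_le_q`); `exists_elation` for `(a, c) = (0, 1)`, `mem_X_iff`, `pan_i`. -/
theorem mouf_S (h : ∀ i, ∃ j, E3 R i j) {p : ℕ} (hp : p.Prime) (hq : ∀ i, ∃ e, B.q i = p ^ e) (i : κ) : B.Mouf i := by
  obtain ⟨j, hj⟩ := h i
  obtain ⟨K, _, _, ⟨P⟩⟩ := exists_A2 (B := B) hj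
  obtain ⟨e, he⟩ := hq i
  have h0 : ((∏ k, (B.q k - 1) : ℕ) : K) ≠ 0 := by
    rw [Nat.cast_prod, Finset.prod_ne_zero_iff]
    intro k _
    obtain ⟨e', he'⟩ := hq k
    have := B.two_le_q k
    rw [he'] at this ⊢
    rw [cast_q_sub ((P.card_K' hj).trans he) this]
    exact neg_ne_zero.2 one_ne_zero
  have h4 : ∀ k, B.q k - 1 ∣ ∏ k, (B.q k - 1) := fun k =>
    Finset.dvd_prod_of_mem (fun k => B.q k - 1) (Finset.mem_univ k)
  generalize ∏ k, (B.q k - 1) = n at h0 h4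
  intro y hy
  obtain ⟨u, hu⟩ := P.pan_i y hy
  have h01 : (0 : Fin 3) ≠ 1 := by decide
  obtain ⟨g, h1, h2⟩ := exists_elation hj P h01 h0 u
  have e1 : rt3 R i j 0 1 = R.simple i := rfl
  have e2 : rt3 R i j 1 0 = R.neg (R.simple i) := rfl
  have h3 := h1.mem_Fx hj h01
  rw [e1, e2] at h2
  rw [e1] at h3
  refine ⟨g, mem_X_iff.2 ⟨h3, fun β b1 b2 => h2 β b1 b2 fun w k _ => ⟨h k, h4 k⟩⟩, ?_⟩
  rw [hu]
  exact h1.2 _ (B.c_mem_Res.2 (R.sp_mem_WJ (.inl rfl)))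

theorem q_eq_of_E3 {i j : κ} (h : E3 R i j) : B.q i = B.q j := (B.q_conj h.conj).symm
theorem isPrimePow_q {i j : κ} (h : E3 R i j) : IsPrimePow (B.q i) := by
  obtain ⟨K, _, _, ⟨P⟩⟩ := exists_A2 (B := B) h
  have := Fintype.ofFinite K
  rw [← P.card_K' h, Nat.card_eq_fintype_card]
  exact FiniteField.isPrimePow_card K

end Bld

end CL.TB
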