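/-
S1143 (Tits), MoufA: the Moufang property for the long roots in type B_n.
-/
import Cfsg.Agent.CHEV.TB.MoufS
import Cfsg.Agent.CHEV.TB.GQ2

set_option autoImplicit false
set_option maxHeartbeats 400000
set_option linter.unusedSectionVars false

namespace CL.TB

open CL.Chev
open scoped MatrixGroups commutatorElement

section T

variable {K : Type*} [Field K]

/-- the elations with centre `e₀` -/
def MA.T (u v : K) : SL(3, K) := El 0 1 u * El 0 2 v

theorem MA.T_mul (u v u' v' : K) : MA.T u v * MA.T u' v' = MA.T (u + u') (v + v') := by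
  rw [MA.T, MA.T, MA.T, El_add, El_add, mul_assoc, mul_assoc, ← mul_assoc (El 0 2 v),
    ← (El_row (a := 0) (b := 1) (c := 2) (by decide) (by decide) u' v).eq, mul_assoc]

theorem MA.T_zero : MA.T (0 : K) 0 = 1 := by rw [MA.T, El_zero, El_zero, mul_one]

theorem MA.T_inv (u v : K) : (MA.T u v)⁻¹ = MA.T (-u) (-v) :=
  inv_eq_of_mul_eq_one_right (by rw [MA.T_mul, add_neg_cancel, add_neg_cancel, MA.T_zero])

theorem MA.T_comm (u v t : K) : ⁅MA.T u v, El 1 2 t⁆ = El 0 2 (u * t) := by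
  rw [← El_commutator (a := 0) (b := 1) (c := 2) (by decide) (by decide) (by decide), MA.T,
    commutatorElement_def, commutatorElement_def, mul_assoc (El 0 1 u),
    (El_col (a := 0) (b := 1) (c := 2) (by decide) (by decide) v t).eq]
  group

end T

namespace Bld

variable {ι κ G Ω : Type*} [Fintype κ] [DecidableEq κ] [Finite ι] {R : RootSys ι κ} [Group G] [MulAction G Ω]
  [Finite G] [Finite Ω] [FaithfulSMul G Ω] {B : Bld R G Ω}

theorem MA.long {a1 a2 b : κ} (h : ShB R a1 a2 b) {β : ι} (hβ : R.len β = R.len (R.simple a2)) (w : R.W) (k : κ)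
    (e : w.1 (R.simple k) = β ∨ w.1 (R.simple k) = R.neg β) : (∃ l, E3 R k l) ∧ B.q k = B.q a2 := by
  have h1 : R.len (R.simple k) = R.len (R.simple a2) := by
    rw [← RootSys.W_len w.2, ← hβ]
    rcases e with e | e <;> rw [e]
    exact R.len_neg β
  have hk : k ≠ b := fun e' => by
    have h2 := R.len_symm a2 b
    have h3 := R.len_pos (R.simple b)
    rw [h.h2b, h.hb2, ← h1, e'] at h2
    omega
  obtain ⟨u, hu⟩ := h.orb k hk
  exact ⟨h.edge k hk, (B.q_conj hu).symm⟩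

theorem MA.not_sub {a1 a2 b : κ} (h : B3 R a1 a2 b) {c : Fin 3} (hc : 0 ≠ c) : rt3 R a1 a2 0 c ∉ R.sub {a2, b} := by
  intro e
  have h1 : a1 ≠ b := fun e' => by
    have := h.h1b
    rw [e', R.A_self] at this
    omega
  have h2 := e a1 (by simp [h.e12.ne, h1])
  rw [h.e12.rt_rt3 hc] at h2
  fin_cases c <;> simp [R.rt_simple, h.e12.ne] at hc h2

theorem MA.conj_fix {J : Set κ} {g x : G} (hg : g ∈ fixingSubgroup G (B.Res J)) (hx : x • B.c 1 ∈ B.Res J) :
    x * g * x⁻¹ ∈ fixingSubgroup G (B.Res J) := by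
  rw [mem_fixingSubgroup_iff] at hg ⊢
  intro y hy
  obtain ⟨y, rfl⟩ := MulAction.surjective x y
  rw [B.smul_mem_Res_of (B.self_mem_res _ _) hx] at hy
  rw [Bld.conj_fix, hg y hy]

/-- steps (1) and (2) -/
theorem MA.exists_fix {a1 a2 b : κ} (h : ShB R a1 a2 b) {K : Type*} [Field K] [Finite K] (P : A2 B a1 a2 K) (t : K) :
    ∃ g ∈ fixingSubgroup G (B.Res {a2, b}), P.Ind g (El 0 2 t) := by
  have hE := h.e12
  obtain ⟨p, e, hp, he, hq⟩ := (isPrimePow_nat_iff _).1 (isPrimePow_q (B := B) hE.symm)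
  have hK : Nat.card K = B.q a2 := (P.card_K' hE).trans (q_eq_of_E3 hE)
  have : Fact p.Prime := ⟨hp⟩
  have h0 : ((B.q a2 - 1 : ℕ) : K) ≠ 0 := by
    have := B.two_le_q a2
    rw [← hq] at this ⊢
    rw [cast_q_sub (hK.trans hq.symm) this]
    exact neg_ne_zero.2 one_ne_zero
  let E : Subgroup G :=
    { carrier := {g | (∃ u v, P.Ind g (MA.T u v)) ∧
        ∀ v : R.W, v.1 ∈ R.WJ {a2, b} → ∀ y ∈ B.pan (B.c v) a2, g • y = y}
      one_mem' := ⟨⟨0, 0, MA.T_zero (K := K) ▸ A2.Ind.one P⟩, fun _ _ _ _ => one_smul _ _⟩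
      mul_mem' := by
        rintro g g' ⟨⟨u, v, a⟩, c⟩ ⟨⟨u', v', a'⟩, c'⟩
        exact ⟨⟨_, _, MA.T_mul u v u' v' ▸ a.mul a'⟩, fun w hw y hy => by rw [mul_smul, c' w hw y hy, c w hw y hy]⟩
      inv_mem' := by
        rintro g ⟨⟨u, v, a⟩, c⟩
        exact ⟨⟨_, _, MA.T_inv u v ▸ a.inv⟩, fun w hw y hy => by rw [inv_smul_eq_iff, c w hw y hy]⟩ }
  have uq : ∀ {g g' : G} {u v u' v' : K}, P.Ind g (MA.T u v) → P.Ind g' (MA.T u' v') →
      (∀ y ∈ B.Res {a1, a2}, (g⁻¹ * g') • y = y) → (u, v) = (u', v') := fun {g g' u v u' v'} a a' c => by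
    have d := a.inv.mul a'
    rw [MA.T_inv, MA.T_mul] at d
    obtain ⟨d1, d2⟩ := P.eq_zero_of_ind hE d c
    rw [neg_add_eq_zero.1 d1, neg_add_eq_zero.1 d2]
  have one : ∀ (c : Fin 3) (hc : 0 ≠ c) (u : K), ∃ g, P.Ind g (El 0 c u) ∧
      ∀ v : R.W, v.1 ∈ R.WJ {a2, b} → ∀ y ∈ B.pan (B.c v) a2, g • y = y := by
    intro c hc u
    obtain ⟨g, a1', a2'⟩ := exists_elation hE P hc h0 u
    refine ⟨g, a1', fun v hv => ?_⟩
    have m : v.1 (R.simple a2) ∈ R.sub {a2, b} := (RootSys.WJ_mem_sub hv).2 (R.simple_mem_sub.2 (.inl rfl))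
    have n := MA.not_sub h.toB3 hc
    refine (a2' _ (fun e => n (e ▸ m)) (fun e => n ?_) fun w k e => ?_).pan (.inl rfl) (B.self_mem_pan _ _)
      (B.mem_Fx.1 (a1'.mem_Fx hE hc) v ((ps_of_not_sub hv n).2 ((hE.isPos_rt3 hc).2 (Fin.pos_iff_ne_zero.2 hc.symm))))
    · rwa [e, rt3_neg hc, R.neg_mem_sub] at m
    · have := MA.long (B := B) h (RootSys.W_len v.2 _) w k e
      exact ⟨this.1, by rw [this.2]⟩
  choose f1 f2 hf using fun g : E => g.2.1
  let φ : E →* Multiplicative (K × K) := MonoidHom.mk' (fun g => Multiplicative.ofAdd (f1 g, f2 g)) fun g g' =>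
    congrArg Multiplicative.ofAdd (uq (hf (g * g')) (MA.T_mul (f1 g) (f2 g) (f1 g') (f2 g') ▸ (hf g).mul (hf g')) fun y _ => by
      rw [Subgroup.coe_mul, inv_mul_cancel, one_smul])
  have hφ : Function.Surjective φ := by
    rintro ⟨u, v⟩
    obtain ⟨g, a, c⟩ := one 1 (by decide) u
    obtain ⟨g', a', c'⟩ := one 2 (by decide) v
    have m : g * g' ∈ E := ⟨⟨u, v, a.mul a'⟩, fun w hw y hy => by rw [mul_smul, c' w hw y hy, c w hw y hy]⟩
    exact ⟨⟨_, m⟩, congrArg Multiplicative.ofAdd (uq (hf ⟨_, m⟩) (a.mul a') fun y _ => by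
      rw [inv_mul_cancel, one_smul])⟩
  obtain ⟨S⟩ : Nonempty (Sylow p E) := inferInstance
  have hM : IsPGroup p (Multiplicative (K × K)) := IsPGroup.of_card (n := e + e) (by
    rw [Nat.card_congr Multiplicative.toAdd, Nat.card_prod, hK, ← hq, pow_add])
  have hS : ⊤ = (S : Subgroup E).map φ := (S.mapSurjective hφ).3 (hM.to_subgroup ⊤) le_top
  have lift : ∀ x : K × K, ∃ g : (S : Subgroup E).map E.subtype, P.Ind g.1 (MA.T x.1 x.2) := fun x => by
    obtain ⟨g, a, c⟩ : Multiplicative.ofAdd x ∈ (S : Subgroup E).map φ := hS ▸ Subgroup.mem_top _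
    refine ⟨⟨g, g, a, rfl⟩, ?_⟩
    rw [← Multiplicative.ofAdd.injective c]
    exact hf g
  choose l hl using lift
  have hb := gq_bound h.h2b h.hb2 hp hq.symm (S.isPGroup'.map E.subtype) (by
    rintro _ ⟨g, -, rfl⟩
    exact g.2.2)
  obtain ⟨g, a, u, v, c, d⟩ : ∃ g ∈ fixingSubgroup G (B.Res {a2, b}), ∃ u v, P.Ind g (MA.T u v) ∧ (u ≠ 0 ∨ v ≠ 0) := by
    by_contra h1
    push Not at h1
    have := Nat.card_le_card_of_injective (fun x : K × K => (QuotientGroup.mk (l x) :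
      (S : Subgroup E).map E.subtype ⧸ (fixingSubgroup G (B.Res {a2, b})).subgroupOf _)) fun x y e => by
        have d := (hl x).inv.mul (hl y)
        rw [MA.T_inv, MA.T_mul] at d
        obtain ⟨d1, d2⟩ := h1 _ (Subgroup.mem_subgroupOf.1 (QuotientGroup.eq.1 e)) _ _ d
        exact Prod.ext (neg_add_eq_zero.1 d1) (neg_add_eq_zero.1 d2)
    rw [Nat.card_prod, hK, ← pow_two] at this
    exact hb.not_ge this
  have two : ∀ g ∈ fixingSubgroup G (B.Res {a2, b}), ∀ u v, P.Ind g (MA.T u v) → u ≠ 0 →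
      ∃ g ∈ fixingSubgroup G (B.Res {a2, b}), P.Ind g (El 0 2 t) := by
    intro g a u v c d
    obtain ⟨x, hx⟩ := P.exists_ind (El 1 2 (u⁻¹ * t))
    have e1 := c.comm hx
    rw [MA.T_comm, mul_inv_cancel_left₀ d] at e1
    refine ⟨_, ?_, e1⟩
    rw [commutatorElement_def, mul_assoc, mul_assoc, ← mul_assoc x]
    refine mul_mem a (MA.conj_fix (inv_mem a) ?_)
    rw [(hx.fix hE (by decide) (one_mem _) (ps_one.2 (R.isPos_simple a2))).1]
    exact B.self_mem_res _ _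
  by_cases hu : u = 0
  · obtain ⟨x, hx⟩ := P.exists_ind (nEl 1 2 1)
    obtain ⟨k, k0, k1⟩ := nEl_conj (K := K) (a := 1) (b := 2) (c := 0) (d := 2) (by decide) (by decide) one_ne_zero
    have e1 := (hx.mul c).mul hx.inv
    rw [hu, MA.T, El_zero, one_mul, k1, show Equiv.swap (1 : Fin 3) 2 0 = 0 by decide,
      show Equiv.swap (1 : Fin 3) 2 2 = 1 by decide] at e1
    refine two _ (MA.conj_fix a ?_) (k * v) 0 (by rwa [MA.T, El_zero, mul_one])
      (mul_ne_zero k0 (d.resolve_left (not_not.2 hu)))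
    rw [hx.2 _ (B.self_mem_res _ _), P.n_j 1 (one_mem _), mul_one]
    exact B.c_mem_Res.2 (R.sp_mem_WJ (.inl rfl))
  · exact two g a u v c hu

/-- step (3) -/
theorem MA.exists_long {a1 a2 b : κ} (h : ShB R a1 a2 b) {K : Type*} [Field K] [Finite K] (P : A2 B a1 a2 K) (t : K) :
    ∃ g ∈ fixingSubgroup G (B.Res {a2, b}), P.Ind g (El 0 2 t) ∧ ∀ β, R.len β = R.len (R.simple a2) →
      β ≠ rt3 R a1 a2 0 2 → β ≠ R.neg (rt3 R a1 a2 0 2) → B.Tw g β := by
  have hE := h.e12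
  have hK : Nat.card K = B.q a2 := (P.card_K' hE).trans (q_eq_of_E3 hE)
  have h02 : (0 : Fin 3) ≠ 2 := by decide
  have tw : ∀ {g : G} {β : ι} {w : R.W} {k : κ}, w.1 (R.simple k) = β ∨ w.1 (R.simple k) = R.neg β →
      (∀ y ∈ B.pan (B.c w) k, g • y = y) → B.Tw g β := by
    rintro g β w k (e | e) c
    · exact ⟨w, k, e, c⟩
    · exact R.neg_neg β ▸ Tw.neg ⟨w, k, e, c⟩
  by_cases h2 : B.q a2 = 2
  · obtain ⟨g, a, c⟩ := MA.exists_fix h P t
    refine ⟨g, a, c, fun β b1 b2 b3 => ?_⟩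
    obtain ⟨w, k, d1, d2, d3⟩ := exists_panel b2 b3
    have f := B.mem_Fx.1 (c.mem_Fx hE h02)
    refine tw d1 ?_
    rintro y (rfl | hy)
    · exact f w d2
    by_cases e : y = B.c (w * R.sW k)
    · rw [e, f _ d3]
    have k1 := B.card_adj (B.c w) k
    rw [(MA.long h b1 w k d1).2, h2, Nat.card_eq_two_iff' ⟨_, B.δ_c_sW w k⟩] at k1
    exact congrArg Subtype.val (k1.unique (y₁ := ⟨g • y, by rw [← f w d2, B.δ_smul, hy]⟩) (y₂ := ⟨y, hy⟩)
      (fun e' => e (MulAction.injective g ((congrArg Subtype.val e').trans (f _ d3).symm)))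
      fun e' => e (congrArg Subtype.val e'))
  · obtain ⟨s, s0, s1⟩ : ∃ s : K, s ≠ 0 ∧ s ≠ 1 := by
      have := Fintype.ofFinite K
      obtain ⟨x, y, z, -, -, -, a, b, c⟩ := Finset.two_lt_card_iff.1 (show 2 < (Finset.univ : Finset K).card by
        have := B.two_le_q a2
        rw [Finset.card_univ, ← Nat.card_eq_fintype_card, hK]
        omega)
      by_contra h0
      push Not at h0
      by_cases ex : x = 0 <;> by_cases ey : y = 0 <;> by_cases ez : z = 0 <;> simp_all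
    obtain ⟨p, e, hp, he, hq⟩ := (isPrimePow_nat_iff _).1 (isPrimePow_q (B := B) hE.symm)
    have h0 : ((B.q a2 - 1 : ℕ) : K) = -1 := by
      have := B.two_le_q a2
      rw [← hq] at this ⊢
      exact cast_q_sub (hK.trans hq.symm) this
    obtain ⟨g, a, c⟩ := MA.exists_fix h P ((1 - s)⁻¹ * t)
    obtain ⟨x, hx⟩ := P.exists_ind (Dg (Units.mk0 s s0) (Units.mk0 s s0)⁻¹)
    have hH := B.mem_H.1 (hx.mem_H hE)
    have e1 := (hx.comm c).pow (B.q a2 - 1)
    rw [commutatorElement_def (Dg _ _), Dg_conj02, El_inv, ← El_add, El_pow, h0,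
      show -1 * (_ + _) = t by
        have := sub_ne_zero.2 s1.symm
        simp only [Units.val_mk0, Units.val_inv_eq_inv_val]
        field_simp
        ring] at e1
    refine ⟨_, pow_mem ?_ _, e1, fun β b1 b2 b3 => ?_⟩
    · exact mul_mem (MA.conj_fix a (by rw [hH]; exact B.self_mem_res _ _)) (inv_mem a)
    · obtain ⟨w, k, d1, d2, d3⟩ := exists_panel b2 b3
      have f := B.mem_Fx.1 (c.mem_Fx hE h02)
      obtain ⟨⟨l, k1⟩, k2⟩ := MA.long (B := B) h b1 w k d1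
      exact tw d1 (pa_W k1 (hH _) (hH _) (f _ d2) (f _ d3) (by rw [k2]))

/-- `J = {a1, a2}`, `J' = {a2, b}`, `P : A2 B a1 a2 K`, `q = |K| = p ^ e`; all `q k` (`k ≠ b`) equal `q` (`orb`, `q_conj`); a root `β = ± w α_k` has
`len β = len α_{a2}` iff `k ≠ b` (`W_len`, `len_neg`, `len_symm`, `orb`).
(1) `E = {g | ∃ u v, Ind g (El 0 1 u * El 0 2 v) ∧ g` is trivial on `pan (c v) a2` for all `v ∈ W_{J'}}` is a subgroup (`El_row`).  By `exists_elation`
(`e = q - 1`; the roots `rt3 0 1`, `rt3 0 2` are not in `Φ_{J'}`, `ps_of_not_sub`, `Tw.pan`) `E` maps onto `K × K`, with kernel `E ⊓ Fix (Res J)` (`eq_zero_of_ind`).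
A Sylow `p`-subgroup `S` of `E` still has `relIndex (Fix (Res J)) S = q²`, `gq_bound` gives `relIndex (Fix (Res J')) S < q²`; so some `g ∈ S` is trivial on
`Res J'` and induces `El 0 1 u * El 0 2 v ≠ 1`.
(2) `𝒦 = {g | trivial on Res J', ∃ u v, Ind g (El 0 1 u * El 0 2 v)}` is a subgroup normalised by lifts of `El 1 2 t`, `nEl 1 2 1`, `Dg s t` (they stabilise
`pan (c 1) a2`, so `Res J'`: `smul_mem_Res_of`); conjugating (or `⁅El 0 1 u, El 1 2 t⁆ = El 0 2 (u t)`) gives for every `v` some `g ∈ 𝒦` inducing `El 0 2 v`.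
(3) If `q = 2` such `g ∈ Fx r₀` is trivial on all long walls (`exists_panel`: it fixes two of three chambers, `ncard_pan`).  If `q > 2` take `t ≠ 0, 1`, `h` a lift of
`Dg t t⁻¹` (`Ind.mem_H`) and `γ = ⁅h, g⁆ ^ (q - 1) ∈ 𝒦`, inducing `El 0 2 (-(t - 1) v)`, trivial on all long walls (`exists_panel`, `pa_W`).
(4) `walls` for `T = {β | Tw γ β}` (`Tw.neg`, `Tw.refl`, `tw_of_res`), `mem_X_iff`: `γ ∈ X r₀`.  `existsUnique_El` at `v = s_{a1}`, `k = a2` and `mouf_of`. -/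
theorem mouf_A {a1 a2 b : κ} (h : ShB R a1 a2 b) : B.Mouf a2 := by
  obtain ⟨K, _, _, ⟨P⟩⟩ := exists_A2 (B := B) h.e12
  have h02 : (0 : Fin 3) ≠ 2 := by decide
  have e1 : rt3 R a1 a2 0 2 = R.σ a1 (R.simple a2) := rfl
  have m1 : (R.sW a1).1 ∈ R.WJ {a1, a2} := R.sp_mem_WJ (.inl rfl)
  have m2 : (R.sW a2).1 ∈ R.WJ {a1, a2} := R.sp_mem_WJ (.inr rfl)
  refine mouf_of (R.sW a1) fun y hy => ?_
  obtain ⟨u, hu, -⟩ := P.existsUnique_El h.e12 h02 m1 (.inr rfl) e1.symm hy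
  obtain ⟨g, a, c, d⟩ := MA.exists_long h P u
  have f := c.mem_Fx h.e12 h02
  rw [e1] at d f
  refine ⟨g, mem_X_iff.2 ⟨f, h.walls {β | B.Tw g β} (fun β hβ => Tw.neg hβ)
    (fun β hβ γ hγ => Tw.refl f hβ hγ) d fun β hβ => ?_⟩, ?_⟩
  · exact tw_of_res (u := 1) ((mem_fixingSubgroup_iff G).1 a) hβ
  · rw [hu]
    exact c.2 _ (B.c_mem_Res.2 (mul_mem m1 m2))

end Bld

end CL.TB
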