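/-
S1143 (Tits), MoufB: the Moufang property for the short roots.
-/
import Cfsg.Agent.CHEV.TB.A2F
import Cfsg.Agent.CHEV.TB.Plane

set_option autoImplicit false
set_option linter.unusedSectionVars false

namespace CL.TB

open CL.Chev
open scoped MatrixGroups commutatorElement

namespace Bld

variable {ι κ G Ω : Type*} [Fintype κ] [DecidableEq κ] [Finite ι] {R : RootSys ι κ} [Group G] [MulAction G Ω]
  [Finite G] [Finite Ω] [FaithfulSMul G Ω] {B : Bld R G Ω}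

omit [Finite ι] in
theorem sW_app (i : κ) (r : ι) : (R.sW i).1 r = R.σ i r := rfl
omit [Finite ι] in
theorem mul_app (u v : R.W) (r : ι) : (u * v).1 r = u.1 (v.1 r) := rfl
theorem ps_sW (i : κ) (r : ι) : Ps R (R.sW i) r ↔ 0 < R.ht (R.σ i r) := by
  rw [Ps, RootSys.sW_val, R.sp_inv]; rfl
theorem ps_sW_mul (i : κ) (w : R.W) (r : ι) : Ps R (R.sW i * w) r ↔ Ps R w (R.σ i r) := by
  rw [← ps_mul (R.sW i) w, sW_app, R.σ_σ]

/-- an element trivial on all panels at the chambers of `K` that fixes `c (s_b s_a)` lies in `X r₂` -/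
theorem mem_X_short {a1 a b : κ} (h : B3 R a1 a b) {x : G}
    (hx : ∀ w, Ps R w (R.simple a) → Ps R w (R.simple b) → ∀ k, ∀ z ∈ B.pan (B.c w) k, x • z = z)
    (h1 : x • B.c (R.sW b * R.sW a) = B.c (R.sW b * R.sW a)) : x ∈ B.X (R.σ a (R.simple b)) := by
  obtain ⟨⟨e1, e2⟩, e3, e4, e5⟩ := h
  have e6 := (R.A_eq_zero_comm _ _).1 e5
  have ha : a ∈ ({a, b} : Set κ) := .inl rfl
  have hb : b ∈ ({a, b} : Set κ) := .inr rfl
  have n1 : a1 ≠ a := fun e => by simp [e, R.A_self] at e1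
  have n2 : a1 ≠ b := fun e => by simp [e, R.A_self] at e5
  have n3 : a ≠ b := fun e => by simp [e, R.A_self] at e3
  have d : ∀ j ∈ ({a, b} : Set κ), Ps R (d0 R {a, b}) (R.simple j) := fun j hj => by
    simpa using (ps_d0_of_sub (v := 1) (one_mem _) (R.simple_mem_sub.2 hj)).2 (ps_one.2 (R.isPos_simple j))
  have hF : x ∈ B.Fx (R.σ a (R.simple b)) := B.mem_Fx.2 fun w hw => by
    obtain ⟨_, -, k, -⟩ := exists_d0_conj (R := R) {a, b}
    obtain ⟨k, -, e⟩ := k a ha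
    refine hull h1 (b := R.sW a * d0 R {a, b}) (hx _ (d a ha) (d b hb) k _ (WD.mul_sW_eq e ▸ B.c_mem_pan _ k)) fun γ p1 p2 => ?_
    have m : γ ∈ R.sub {a, b} := by
      by_contra c
      exact (ps_d0_of_not_sub (v := R.sW a) (R.sp_mem_WJ ha) c).1 p2
        ((ps_of_not_sub (v := R.sW b * R.sW a) (mul_mem (R.sp_mem_WJ hb) (R.sp_mem_WJ ha)) c).1 p1)
    rw [ps_d0_of_sub (v := R.sW a) (R.sp_mem_WJ ha) m, ps_sW] at p2
    rw [← R.σ_σ a γ, ps_sW_mul, ps_sW] at p1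
    rcases (E4_pos e3 e4).1 ⟨(R.σ_mem_sub ha).2 m, p2⟩ with e | e | e | e <;> rw [e] at p1
    iterate 3 simp [R.ht_σ, R.wt_σ, R.wt_simple, R.ht_simple, R.A_self, e3, e4] at p1
    rwa [← R.σ_σ a γ, e]
  have p1 := ps_one.2 (R.isPos_simple a)
  have p2 := ps_one.2 (R.isPos_simple b)
  have out : ∀ β, β ∉ R.sub {a, b} → R.IsPos β → B.Tw x β := fun β hβ p => by
    obtain ⟨w, i, e, k⟩ := cross (a := 1) (b := d0 R {a, b}) (ps_one.2 p) fun c =>
      (ps_d0_of_not_sub (v := 1) (one_mem _) hβ).1 (by rwa [one_mul]) p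
    exact ⟨w, i, e, hx w (k _ p1 (d a ha)).1 (k _ p2 (d b hb)).1 i⟩
  have r3 : R.rt (R.σ a1 (R.σ b (R.simple a))) = Pi.single a1 1 + Pi.single a 1 + Pi.single b 2 := by
    simp only [R.rt_σ', R.wt_σ, R.wt_simple, R.rt_simple, e1, e4, e5]
    ext m; simp [Pi.single_apply]; split_ifs <;> simp
  have pos : ∀ β, R.IsPos β → β ≠ R.σ a (R.simple b) → B.Tw x β := fun β p n => by
    by_cases hβ : β ∈ R.sub {a, b}
    swap
    · exact out β hβ p
    rcases (E4_pos e3 e4).1 ⟨hβ, p⟩ with e | e | e | e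
    · exact ⟨1, a, e.symm, hx 1 p1 p2 a⟩
    · exact absurd e n
    · have := Tw.refl hF (β := R.σ a1 (R.σ b (R.simple a))) (γ := R.simple a1)
        (out _ (fun c => by simpa [r3, n1, n2] using c a1 (by simp [n1, n2])) (R.isPos_of_pos (i := a1) (by simp [r3, n1, n2])))
        (out _ (by simp [R.simple_mem_sub, n1, n2]) (R.isPos_simple _))
        (by simp [R.pair_simple, R.wt_σ, R.wt_simple, R.A_self, e1, e4, e5])
        (fun c => by simpa [r3, R.rt_simple, n1.symm, n3] using congrArg (R.rt · a) c)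
        (fun c => by simpa [r3, R.rt_neg, R.rt_simple, n1.symm, n3] using congrArg (R.rt · a) c) ?_
      · rwa [R.refl_simple, show R.sp a1 _ = R.σ a1 _ from rfl, R.σ_σ, ← e] at this
      · rintro ⟨u, v, c, hc, k⟩
        have k1 := congrFun k a
        have k2 := congrFun k b
        rw [r3] at k1 k2
        simp [R.rt_σ', R.wt_simple, R.rt_simple, e3, n1.symm, n2.symm, n3, n3.symm] at k1 k2
        omega
    · exact ⟨1, b, e.symm, hx 1 p1 p2 b⟩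
  refine mem_X_iff.2 ⟨hF, fun β c1 c2 => ?_⟩
  by_cases p : R.IsPos β
  · exact pos β p c1
  · exact R.neg_neg β ▸ (pos _ ((R.isPos_neg β).2 p) fun e => c2 (R.neg_eq_iff.1 e)).neg

/-- `a = a2`, `J' = {a, b}`, `r₁ = α_a`, `r₂ = σ_a α_b`, `r₃ = σ_b α_a`, `r₄ = α_b`, `K = {w | Ps w r₁ ∧ Ps w r₄} ∋ 1, d0 J'`.  By `mouf_of` at `w = s_a` it suffices:
for `δ (c s_a) y = s_b` find `x ∈ X r₂` with `x c_{s_a s_b} = y`.
Fix `1 ≠ u' ∈ X r₁`.  `δ (c s_a) (u' c s_a) = s_a` (`X_free`), so `δ (u' c s_a) (c (s_a s_b s_a)) = s_a s_b s_a`, and `δ (u' y) (c (s_a s_b s_a)) = s_b s_a s_b s_a = w_{J'}`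
(`wd2L'`); `wd3` gives `z`, `b`-adjacent to `c (s_a s_b s_a)`, with `δ (u' y) z = s_a s_b s_a`.  `Fx_trans` at `w = s_a s_b s_a` (`w α_b = α_b`) gives `g ∈ Fx r₄` with
`g c_{w_{J'}} = z`.  `pe` (for the edge `a2, a1`, applied to `g⁻¹`, `u'`) gives `u ∈ X r₁` with `g u g⁻¹ = u'` on `pan (c 1) a`; `u ≠ 1`.
`c' = u'⁻¹ g u g⁻¹` is trivial on all panels at chambers of `K` (walls `≠ r₁`: `mem_X`, `g` fixes `c w`; wall `r₁`: `Tw.pan`).  It fixes `c s_b`; choose `c₃ ∈ X r₃`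
(`Mouf.trans` at `w = s_b`) with `x = c' c₃⁻¹` fixing `c (s_b s_a)`.  `r₃ ∈ QC r₁ r₄`, so `x` is still trivial on all panels at chambers of `K`.  It fixes `c (s_b s_a)` and
`c (s_a d0)` (adjacent to `c d0`, `exists_d0_conj`); `hull` (`ps_d0_*`, `E4_pos`): `x ∈ Fx r₂`.  Walls: `β ∉ Φ_{J'}` by `cross` from `1` to `d0`; `r₁, r₄` at `c 1`;
`r₃ = refl γ β`, `γ = α_{a1}`, `β = σ_{a1} r₃` by `Tw.refl` (`r₂` is not in their span).  So `x ∈ X r₂` (`mem_X_iff`).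
Finally `c₃` and `g` fix `c (s_a s_b)`, so `x c_{s_a s_b} = u'⁻¹ g u c_{s_a s_b}`; `δ (u c_{s_a s_b}) (c w_{J'}) = s_a s_b s_a` (`u` fixes `c (s_b s_a s_b)`,
`δ (c (s_a s_b)) (c (s_b s_a s_b)) = s_a s_b s_a`; the only chamber of `pan (c w_{J'}) a` at distance `s_a s_b` from `u c_{s_a s_b}` is `u c_{w_{J'}} ≠ c_{w_{J'}}`, `X_free` at
`w = s_b s_a s_b`); so `g u c_{s_a s_b}` and `u' y` lie in `pan (u' c s_a) b` at distance `s_a s_b s_a` from `z`: equal (`eq_of_pan`, inverted). -/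
theorem mouf_B {a1 a2 b : κ} (h : B3 R a1 a2 b) (hM : B.Mouf a2) : B.Mouf b := by
  generalize a2 = a at h hM
  obtain ⟨K, _, _, ⟨P⟩⟩ := exists_A2 (B := B) h.e12.symm
  have e3 := h.h2b
  have e4 := h.hb2
  have br := E4_braid e3 e4
  refine mouf_of (R.sW a) fun y hy => ?_
  obtain ⟨u', hu', n'⟩ := hM.exists_ne_one 1
  have c1 : B.δ (B.c 1) (B.c (R.sW a)) = R.sW a := by simpa using B.δ_c_sW 1 a
  have m1 : u' • B.c (R.sW a) ≠ _ := fun e => n' (X_free hu' c1 e)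
  have q1 : Ps R (R.sW b * R.sW a) (R.simple a) := by
    simp [ps_sW_mul, ps_sW, R.ht_σ, R.wt_σ, R.wt_simple, R.ht_simple, R.A_self, e3, e4]
  have q2 : (R.sW a * (R.sW b * R.sW a)).1 (R.simple b) = R.simple b := R.rt_inj (by
    simp only [mul_app, sW_app, R.rt_σ', R.wt_σ, R.wt_simple, R.A_self, e3, e4]; module)
  have q3 : (R.sW b * (R.sW a * R.sW b)).1 (R.simple a) = R.simple a := R.rt_inj (by
    simp only [mul_app, sW_app, R.rt_σ', R.wt_σ, R.wt_simple, R.A_self, e3, e4]; module)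
  have d1 : B.δ (u' • B.c (R.sW a)) (B.c (R.sW a * (R.sW b * R.sW a))) = R.sW a * (R.sW b * R.sW a) := by
    rw [B.wd2L' (B.δ_of_mem_pan (.inr (δ_X_smul hu' c1)) (.inr c1) m1) (by rwa [B.δ_c, inv_mul_cancel_left]), B.δ_c,
      inv_mul_cancel_left]
  have d2 : B.δ (u' • y) (B.c (R.sW a * (R.sW b * R.sW a))) = R.sW a * (R.sW b * R.sW a) * R.sW b := by
    rw [B.wd2L' (y := u' • B.c (R.sW a)) (by rw [B.δ_smul]; exact B.δ_symm hy) (by
      rw [d1]; simp [ps_sW_mul, ps_sW, R.ht_σ, R.wt_σ, R.wt_simple, R.ht_simple, R.A_self, e3, e4]), d1]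
    simpa only [mul_assoc] using br.symm
  obtain ⟨z, z1, z2⟩ := B.wd3 (u' • y) (B.c (R.sW a * (R.sW b * R.sW a))) b
  rw [d2, WD.mul_sW_sW] at z2
  obtain ⟨g, hg, eg⟩ := Fx_trans (B.δ_c_sW (R.sW a * (R.sW b * R.sW a)) b) z1
  rw [q2, mem_Fx] at hg
  have p1 := ps_one.2 (R.isPos_simple a)
  have p2 := ps_one.2 (R.isPos_simple b)
  obtain ⟨u, hu, eu⟩ := P.pe h.e12.symm hM (g := g⁻¹) (inv_smul_eq_iff.2 (hg 1 p2).symm) hu'
  replace hu' : u' ∈ B.X (R.simple a) := hu'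
  have gs : g • B.c (R.sW a) = _ := hg _ (by simp [ps_sW, R.ht_σ, R.wt_simple, R.ht_simple, e3])
  have gu : g • u • B.c (R.sW a) = u' • B.c (R.sW a) := by
    rw [← eu _ (.inr c1), inv_inv, mul_smul, mul_smul, smul_inv_smul, gs]
  have n : u ≠ 1 := fun e => m1 (by rw [← gu, e, one_smul, gs])
  have hc : ∀ w, Ps R w (R.simple a) → Ps R w (R.simple b) → ∀ k, ∀ z ∈ B.pan (B.c w) k, (u'⁻¹ * (g * u * g⁻¹)) • z = z :=
    fun w w1 w2 k => by
    have st : ∀ {w k z}, Ps R w (R.simple b) → z ∈ B.pan (B.c w) k → g⁻¹ • z ∈ B.pan (B.c w) k := fun w2 hz => by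
      rwa [← B.smul_mem_pan g, hg _ w2, smul_inv_smul]
    by_cases e : w.1 (R.simple k) = R.simple a
    · refine Tw.pan ⟨1, a, rfl, fun z hz => ?_⟩ (.inl e) (B.self_mem_pan _ k) ?_
      · rw [mul_smul, mul_smul, mul_smul, ← eu _ (st p2 hz), inv_inv, smul_smul, smul_smul]; simp [mul_assoc]
      · rw [mul_smul, mul_smul, mul_smul, inv_smul_eq_iff.2 (hg w w2).symm, (B.mem_X.1 hu).1 w w1, hg w w2,
          (B.mem_X.1 (inv_mem hu')).1 w w1]
    · intro z hz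
      rw [mul_smul, mul_smul, mul_smul, (B.mem_X.1 hu).2 w k w1 e _ (st w2 hz), smul_inv_smul,
        (B.mem_X.1 (inv_mem hu')).2 w k w1 e z hz]
  have ct : (u'⁻¹ * (g * u * g⁻¹)) • B.c (R.sW b) = _ := hc 1 p1 p2 b _ (by simpa using B.c_mem_pan 1 b)
  obtain ⟨c₃, h₃, e₃⟩ := hM.trans (R.sW b) (B.δ_c_sW _ a) (z := (u'⁻¹ * (g * u * g⁻¹))⁻¹ • B.c (R.sW b * R.sW a))
    (by rw [← B.δ_smul (u'⁻¹ * (g * u * g⁻¹)), ct, smul_inv_smul, B.δ_c_sW])
  have qc : QC R (R.simple a) (R.simple b) ((R.sW b).1 (R.simple a)) := ⟨1, 2, 1, one_pos, two_pos, one_pos, by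
    simp only [sW_app, R.rt_σ', R.wt_simple, e4]; module⟩
  have nab : R.simple a ≠ R.simple b := fun e => by simp [R.simple_injective e, R.A_self] at e3
  refine ⟨u'⁻¹ * (g * u * g⁻¹) * c₃, mem_X_short h (fun w w1 w2 k z hz => by
    rw [mul_smul, (B.mem_X.1 h₃).2 w k (qc.ps w1 w2) (qc.ne_simple nab w1 w2 k) z hz, hc w w1 w2 k z hz])
    (by rw [mul_smul, e₃, smul_inv_smul]), ?_⟩
  rw [mul_smul, (B.mem_X.1 h₃).1 _ (by
      simp [sW_app, ps_sW_mul, ps_sW, R.ht_σ, R.wt_σ, R.wt_simple, R.ht_simple, R.A_self, e3, e4]),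
    mul_smul, mul_smul, mul_smul, inv_smul_eq_iff.2 (hg (R.sW a * R.sW b) (by
      simp [ps_sW_mul, ps_sW, R.ht_σ, R.wt_σ, R.wt_simple, R.ht_simple, R.A_self, e3, e4])).symm, inv_smul_eq_iff]
  have w1 : R.sW a * (R.sW b * R.sW a) * R.sW b = R.sW b * (R.sW a * R.sW b) * R.sW a := by simpa only [mul_assoc] using br
  have hu2 : u ∈ B.X ((R.sW b * (R.sW a * R.sW b)).1 (R.simple a)) := q3.symm ▸ hu
  have d3 := B.δ_c_sW (R.sW b * (R.sW a * R.sW b)) a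
  have d4 : B.δ (u • B.c (R.sW b * (R.sW a * R.sW b) * R.sW a)) (u • B.c (R.sW a * R.sW b)) = R.sW b * R.sW a := by
    rw [B.δ_smul, B.δ_c, ← w1, inv_mul_eq_iff_eq_mul, ← mul_assoc, WD.mul_sW_sW, ← mul_assoc, WD.mul_sW_sW]
  refine B.eq_of_pan (x := z) (y := u' • B.c (R.sW a)) (i := b) (.inr (by rw [← gu, B.δ_smul, B.δ_smul, B.δ_c_sW]))
    (.inr (by rwa [B.δ_smul])) ?_ ?_
  all_goals
    rw [← eg, B.δ_smul, w1, B.wd2L' (B.δ_of_mem_pan (.inr d3) (.inr (δ_X_smul hu2 d3)) fun e => n (X_free hu2 d3 e.symm))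
      (by rwa [d4]), d4]
  · rw [← w1, eg, B.δ_inv, z2]; simp [mul_assoc, WD.sW_inv]
  · rw [q2]; exact R.isPos_simple b

end Bld

end CL.TB
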