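/-
S1143 (Tits), Main.
-/
import Cfsg.Agent.CHEV.TB.Mod1
import Cfsg.Agent.CHEV.TB.Mod2
import Cfsg.Agent.CHEV.TB.Cox2
import Cfsg.Agent.CHEV.TB.Asm
import Cfsg.Agent.CHEV.TB.B2i
import Cfsg.Agent.CHEV.TB.MoufA
import Cfsg.Agent.CHEV.TB.MoufB

set_option autoImplicit false
set_option linter.unusedSectionVars false

namespace CL.TB

open CL.Chev
open scoped MatrixGroups commutatorElement

universe u

/-- `exists_bld` -/
theorem BNT.bld {t : Ty} {n : ℕ} {ι : Type*} [Finite ι] {R : RootSys ι (Fin n)} (hR : Shp t n R) {G : Type u} [Group G] [Finite G]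
    {q : Fin n → ℕ} (h : BNT G (t.m n) q) :
    ∃ (Ω : Type u) (_ : MulAction G Ω) (_ : Finite Ω) (B : Bld R G Ω), ∀ i, B.q i = q i := by
  obtain ⟨P, e, hm, hq⟩ := h
  obtain ⟨B, -, -, -, -, hB⟩ := exists_bld R P e (fun i j => (hm i j).trans (hR.ord i j).symm) hR.noiso hR.le2
  exact ⟨_, _, inferInstance, B, fun i => (hB i).trans (hq i)⟩

/-- `mouf_A`, `Mouf.conj` with `orb`, `mouf_B` -/
theorem mouf_of_B {ι κ G Ω : Type*} [Fintype κ] [DecidableEq κ] [Finite ι] {R : RootSys ι κ} [Group G] [MulAction G Ω]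
    [Finite G] [Finite Ω] [FaithfulSMul G Ω] (B : Bld R G Ω) {a1 a2 b : κ} (h : ShB R a1 a2 b) (i : κ) : B.Mouf i := by
  by_cases e : i = b
  · exact e ▸ Bld.mouf_B h.toB3 (Bld.mouf_A h)
  · exact let ⟨_, hw⟩ := h.orb i e; (Bld.mouf_A h).conj hw

/-- type `B₃`, no simplicity: `BNT.bld`, `exists_img`, `mouf_of_B`, `b2_cases`, `isPrimePow_q`, `q_eq_of_E3` -/
theorem bnt_B3 {G : Type*} [Group G] [Finite G] {q : Fin 3 → ℕ} (h : BNT G (Ty.B.m 3) q) :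
    IsPrimePow (q 1) ∧ q 0 = q 1 ∧ (q 2 = q 1 ∨ q 2 = q 1 ^ 2 ∨ q 2 ^ 2 = q 1 ∨ q 2 ^ 2 = q 1 ^ 3) := by
  obtain ⟨ι, _, R, hR⟩ := exists_shp (t := .B) (n := 3) le_rfl
  obtain ⟨Ω, _, _, B, hq⟩ := h.bld hR
  obtain ⟨B', hq'⟩ := B.exists_img
  obtain ⟨a1, a2, b, e1, e2, e3, hB, -⟩ := hR.tB rfl
  obtain rfl : a1 = 0 := Fin.ext (by simpa using e1)
  obtain rfl : a2 = 1 := Fin.ext (by simpa using e2)
  obtain rfl : b = 2 := Fin.ext (by simpa using e3)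
  simp only [← hq, ← hq']
  exact ⟨Bld.isPrimePow_q hB.e12.symm, Bld.q_eq_of_E3 hB.e12, Bld.b2_cases hB.toB3 (mouf_of_B B' hB)⟩

section fin

variable {ι κ Ω Ω' : Type*} {G : Type u} {M : Type} [Fintype κ] [DecidableEq κ] [Finite ι] {R : RootSys ι κ} [Group G]
  [MulAction G Ω] [Finite G] [Finite Ω] [IsSimpleGroup G] [Group M] [MulAction M Ω'] [Finite Ω'] {B : Bld R G Ω} {B' : Bld R M Ω'}

theorem fin_B2 (hM : Md.{u} M) {a1 a2 b : κ} (h : B3 R a1 a2 b) {par : κ → κ} {rk : κ → ℕ} (hT : Tree R b a2 par rk)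
    [FaithfulSMul G Ω] (m : ∀ i, B.Mouf i) (m' : ∀ [Finite M] [FaithfulSMul M Ω'] i, B'.Mouf i) (h1 : B.q a2 = B'.q a2)
    (h2 : B.q b = B'.q b)
    (hb : B.q b = B.q a2 → Odd (B.q a2) → (¬ B.Bit a2 b ∧ ¬ B'.Bit a2 b) ∨ (B.Bit a2 b ∧ ¬ B'.Bit b a2)) : IsL G := by
  obtain ⟨_, _, k⟩ := hM
  have : Nonempty κ := ⟨b⟩
  have := B'.faithful_of_simple
  obtain ⟨Ψ, hΨ⟩ := Bld.b2_iso h m m' h1 h2 fun e o => (hb e o).elim (fun c => iff_of_false c.1 c.2) fun c =>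
    iff_of_true c.1 ((Bld.b2_xor h m' (by rw [← h1, ← h2, e]) (h1 ▸ o)).2 c.2)
  exact k G (Bld.assemble m m' hT hΨ)

end fin

/-- all `q i` equal a prime power (`q_eq_of_E3` along the tree), `mouf_S` for `G` and the model `md_sl`, `start_A2`, `assemble` -/
theorem main_sl {t : Ty} {n : ℕ} (ht : t = .A ∨ t = .D ∨ t = .E) (hn : t.ok n) {G : Type u} [Group G] [Finite G]
    [IsSimpleGroup G] {q : Fin n → ℕ} (h : BNT G (t.m n) q) : IsL G := by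
  obtain ⟨ι, _, R, hR⟩ := exists_shp hn
  obtain ⟨Ω, _, _, B, -⟩ := h.bld hR
  obtain ⟨ed, root, a, par, rk, hT, e⟩ := hR.sl ht
  have : Nonempty (Fin n) := ⟨a⟩
  have := B.faithful_of_simple
  have k : ∀ i, B.q i = B.q root := fun i => by
    induction hi : rk i using Nat.strong_induction_on generalizing i with
    | _ m ih =>
      by_cases h1 : i = root
      · rw [h1]
      by_cases h2 : i = a
      · rw [h2, Bld.q_eq_of_E3 e]
      rw [← Bld.q_eq_of_E3 (hT.edge i h1 h2), ih _ (hi ▸ hT.lt i h1) _ rfl]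
  have hq := Bld.isPrimePow_q (B := B) e.symm
  obtain ⟨M, _, ⟨_, _, hM⟩, h'⟩ := md_sl.{u} ht hn hq
  obtain ⟨Ω', _, _, B', hq'⟩ := h'.bld hR
  have := B'.faithful_of_simple
  obtain ⟨p, f, hp, -, hf⟩ := (isPrimePow_nat_iff _).1 hq
  have m := Bld.mouf_S (B := B) ed hp fun i => ⟨f, by rw [k, hf]⟩
  have m' := Bld.mouf_S (B := B') ed hp fun i => ⟨f, by rw [hq', hf]⟩
  obtain ⟨Ψ, hΨ⟩ := Bld.start_A2 m m' e (by rw [k, hq'])
  exact hM G (Bld.assemble m m' hT hΨ)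

/-- `q i = x` for `i ≠ b` (`orb`, `q_conj`), `b2_cases`; models `md_2D`, `md_2A0`, `md_2A1` (`q b ^ 2 = x` or `x ^ 3`: write `x = p ^ e`, `q b = p ^ f`), `md_C` for `q b = x` even;
for `q b = x` odd `md_C_nb` if `¬ Bit a2 b`, else `md_B_nb` and `b2_xor` for the model; `b2_iso`, `assemble` -/
theorem main_B {n : ℕ} (hn : 3 ≤ n) {G : Type u} [Group G] [Finite G] [IsSimpleGroup G] {q : Fin n → ℕ}
    (h : BNT G (Ty.B.m n) q) : IsL G := by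
  obtain ⟨ι, _, R, hR⟩ := exists_shp (t := .B) hn
  obtain ⟨Ω, _, _, B, -⟩ := h.bld hR
  obtain ⟨a1, a2, b, -, e2, e3, hB, par, rk, hT⟩ := hR.tB rfl
  have : Nonempty (Fin n) := ⟨b⟩
  have := B.faithful_of_simple
  have m := mouf_of_B B hB
  have hq := Bld.isPrimePow_q (B := B) hB.e12.symm
  have x2 := hq.two_le
  have n2 : ¬ a2.1 + 1 = n := by omega
  have k : ∀ {q' : Fin n → ℕ}, (∃ (M : Type) (_ : Group M), Md.{u} M ∧ BNT M (Ty.B.m n) q') → B.q a2 = q' a2 → B.q b = q' b →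
      (B.q b = B.q a2 → ¬ Odd (B.q a2)) → IsL G := fun ⟨M, _, hM, h'⟩ h1 h2 h3 => by
    have := hM.1
    obtain ⟨Ω', _, _, B', hq'⟩ := h'.bld hR
    exact fin_B2 (B' := B') hM hB.toB3 hT m (mouf_of_B B' hB) (hq' _ ▸ h1) (hq' _ ▸ h2) fun e o => absurd o (h3 e)
  rcases Bld.b2_cases hB.toB3 m with e | e | e | e
  · by_cases o : Odd (B.q a2)
    swap
    · exact k (md_C hn hq) rfl e fun _ => o
    by_cases c : B.Bit a2 b
    · obtain ⟨M, _, hM, Ω', _, _, B', hq', c'⟩ := md_B_nb.{u} hR hn e2 e3 hq o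
      exact fin_B2 (B' := B') hM hB.toB3 hT m (mouf_of_B B' hB) (hq' _).symm (e.trans (hq' _).symm) fun _ _ => .inr ⟨c, c'⟩
    · obtain ⟨M, _, hM, Ω', _, _, B', hq', c'⟩ := md_C_nb.{u} hR hn e2 e3 hq o
      exact fin_B2 (B' := B') hM hB.toB3 hT m (mouf_of_B B' hB) (hq' _).symm (e.trans (hq' _).symm) fun _ _ => .inl ⟨c, c'⟩
  · exact k (md_2D hn hq) (if_neg n2).symm (e.trans (if_pos e3).symm) fun c => by nlinarith
  · exact k (md_2A0 hn ((isPrimePow_pow_iff two_ne_zero).1 (e ▸ hq))) (e.symm.trans (if_neg n2).symm) (if_pos e3).symm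
      fun c => by nlinarith
  · obtain ⟨r, h1, h2⟩ := Nat.exists_eq_pow_of_exponent_coprime_of_pow_eq_pow (by norm_num) e
    exact k (md_2A1 hn ((isPrimePow_pow_iff two_ne_zero).1 (h2 ▸ hq))) (h2.trans (if_neg n2).symm) (h1.trans (if_pos e3).symm)
      fun c => by rw [c] at e; nlinarith

theorem bnt_F {G : Type*} [Group G] [Finite G] {q : Fin 4 → ℕ} (h : BNT G (Ty.F.m 4) q) :
    IsPrimePow (q 1) ∧ IsPrimePow (q 2) ∧ (q 1 = q 2 ∨ q 2 = q 1 ^ 2 ∨ q 1 = q 2 ^ 2) ∧ ∃ p : ℕ, p.Prime ∧ ∀ i, ∃ e, q i = p ^ e := by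
  obtain ⟨H, h1⟩ := h.para ⟨![0, 1, 2], by decide⟩
  obtain ⟨H', h2⟩ := h.para ⟨![3, 2, 1], by decide⟩
  obtain ⟨a1, a2, a3⟩ := bnt_B3 (G := H) (by convert h1 using 3; decide +revert)
  obtain ⟨b1, b2, b3⟩ := bnt_B3 (G := H') (by convert h2 using 3; decide +revert)
  change IsPrimePow (q 1) at a1
  change IsPrimePow (q 2) at b1
  change q 0 = q 1 at a2
  change q 3 = q 2 at b2
  change q 2 = q 1 ∨ q 2 = q 1 ^ 2 ∨ q 2 ^ 2 = q 1 ∨ q 2 ^ 2 = q 1 ^ 3 at a3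
  change q 1 = q 2 ∨ q 1 = q 2 ^ 2 ∨ q 1 ^ 2 = q 2 ∨ q 1 ^ 2 = q 2 ^ 3 at b3
  have c : q 1 = q 2 ∨ q 2 = q 1 ^ 2 ∨ q 1 = q 2 ^ 2 := by
    rcases a3 with e | e | e | e
    exacts [.inl e.symm, .inr (.inl e), .inr (.inr e.symm), by
      rcases b3 with f | f | f | f
      exacts [.inl f, .inr (.inr f), .inr (.inl f.symm), by
        have : q 1 ^ 4 = q 1 ^ 9 := by
          calc _ = (q 1 ^ 2) ^ 2 := by ring
            _ = (q 2 ^ 2) ^ 3 := by rw [f]; ring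
            _ = _ := by rw [e]; ring
        exact absurd (Nat.pow_right_injective a1.two_le this) (by norm_num)]]
  refine ⟨a1, b1, c, ?_⟩
  obtain ⟨p, e, hp, -, he⟩ := (isPrimePow_nat_iff _).1 a1
  obtain ⟨p', e', hp', -, he'⟩ := (isPrimePow_nat_iff _).1 b1
  have k : ∀ p : ℕ, (∃ e, q 1 = p ^ e) → (∃ e, q 2 = p ^ e) → ∀ i, ∃ e, q i = p ^ e := fun p h1 h2 i => by
    fin_cases i
    exacts [a2 ▸ h1, h1, h2, b2 ▸ h2]
  rcases c with c | c | c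
  exacts [⟨p, hp, k p ⟨e, he.symm⟩ ⟨e, c ▸ he.symm⟩⟩, ⟨p, hp, k p ⟨e, he.symm⟩ ⟨e * 2, by rw [c, pow_mul, he]⟩⟩,
    ⟨p', hp', k p' ⟨e' * 2, by rw [c, pow_mul, he']⟩ ⟨e', he'.symm⟩⟩]

/-- `bnt_B3` for the parabolics `(0,1,2)` and `(3,2,1)` (`BNT.para`): `q 0 = q 1 = x`, `q 2 = q 3 = y`, `y = x`, `y = x²` or `x = y²`, powers of one prime; `mouf_S`;
models `md_F`, `md_F_nb`, `md_2E` (reindexed by `Fin.revPerm` if `x = y²`); `b2_iso`, `assemble` -/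
theorem main_F {G : Type u} [Group G] [Finite G] [IsSimpleGroup G] {q : Fin 4 → ℕ} (h : BNT G (Ty.F.m 4) q) : IsL G := by
  obtain ⟨ι, _, R, hR⟩ := exists_shp (t := .F) (n := 4) rfl
  obtain ⟨Ω, _, _, B, hq⟩ := h.bld hR
  obtain ⟨ed, a1, a2, b, -, e2, e3, hB, par, rk, hT⟩ := hR.tF rfl
  obtain rfl : a2 = 2 := Fin.ext e2
  obtain rfl : b = 1 := Fin.ext e3
  have := B.faithful_of_simple
  obtain ⟨h1, h2, c, p, hp, he⟩ := bnt_F h
  simp only [← hq] at h1 h2 c he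
  have m := Bld.mouf_S ed hp he
  have x2 := h1.two_le
  have k : ∀ {q' : Fin 4 → ℕ}, (∃ (M : Type) (_ : Group M), Md.{u} M ∧ BNT M (Ty.F.m 4) q') → B.q 2 = q' 2 → B.q 1 = q' 1 →
      (B.q 1 = B.q 2 → ¬ Odd (B.q 2)) → IsL G := fun ⟨M, _, hM, h'⟩ h1 h2 h3 => by
    have := hM.1
    obtain ⟨Ω', _, _, B', hq'⟩ := h'.bld hR
    obtain ⟨-, -, -, p, hp, he⟩ := bnt_F h'
    exact fin_B2 (B' := B') hM hB hT m (Bld.mouf_S ed hp fun i => hq' i ▸ he i) (hq' _ ▸ h1) (hq' _ ▸ h2)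
      fun e o => absurd o (h3 e)
  rcases c with e | e | e
  · by_cases o : Odd (B.q 2)
    swap
    · exact k (md_F h2) rfl e fun _ => o
    obtain ⟨M, _, hM, ⟨Ω', _, _, B', hq', c'⟩, ⟨Ω'', _, _, B'', hq'', c''⟩⟩ := md_F_nb.{u} hR h2 o
    by_cases c : B.Bit 2 1
    · exact fin_B2 (B' := B') hM hB hT m (Bld.mouf_S ed hp fun i => hq' i ▸ he 2) (hq' _).symm (e.trans (hq' _).symm)
        fun _ _ => .inr ⟨c, c'⟩
    · exact fin_B2 (B' := B'') hM hB hT m (Bld.mouf_S ed hp fun i => hq'' i ▸ he 2) (hq'' _).symm (e.trans (hq'' _).symm)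
        fun _ _ => .inl ⟨c, c''⟩
  · exact k (md_2E h1) e rfl fun c => by nlinarith
  · obtain ⟨M, _, hM, h'⟩ := md_2E.{u} h2
    have h'' := h'.reindex Fin.revPerm
    rw [show (fun i j => Ty.F.m 4 (Fin.revPerm i) (Fin.revPerm j)) = Ty.F.m 4 by decide] at h''
    exact k ⟨M, _, hM, h''⟩ rfl e fun c => by nlinarith

/-- `κ = P.S`, `m = orderOf`, `BNT.fh`, `posdef` (`BN.exch`, `finite_W`), irreducibility (`m = 2` means the representatives commute modulo `B`), `classify`, `BNT.reindex` -/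
theorem main {G : Type u} [Group G] [Finite G] [IsSimpleGroup G] (P : Cfsg.BNPair G) (h3 : 3 ≤ P.rank) (hirr : P.Irreducible) :
    IsL G := by
  classical
  have := Fintype.ofFinite P.S
  have := BN.finite_W P
  have h : BNT G (fun i j : P.S => orderOf (BN.sW P i * BN.sW P j)) fun i => BN.cellIdx P (BN.sW P i) :=
    ⟨P, .refl _, fun _ _ => rfl, fun _ => rfl⟩
  have hc : ∀ J : Set P.S, J.Nonempty → Jᶜ.Nonempty → ∃ i ∈ J, ∃ j ∉ J, orderOf (BN.sW P i * BN.sW P j) ≠ 2 :=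
    fun J h1 ⟨j, hj⟩ => by
    obtain ⟨_, ⟨s, hs, rfl⟩, s', hs', n⟩ := hirr (Subtype.val '' J) (by rintro _ ⟨s, -, rfl⟩; exact s.2) (h1.image _)
      ⟨j, j.2, fun ⟨i, hi, e⟩ => hj (Subtype.ext e ▸ hi)⟩
    refine ⟨s, hs, ⟨s', hs'.1⟩, fun c => hs'.2 ⟨_, c, rfl⟩, fun e => n ((BN.mk_eq_one_iff P
      (n := BN.sN P s * BN.sN P ⟨s', hs'.1⟩ * (BN.sN P s)⁻¹ * (BN.sN P ⟨s', hs'.1⟩)⁻¹)).1 ?_)⟩
    have := pow_orderOf_eq_one (BN.sW P s * BN.sW P ⟨s', hs'.1⟩)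
    rw [e, sq, ← mul_assoc] at this
    rw [map_mul, map_mul, map_mul, map_inv, map_inv]
    change BN.sW P _ * BN.sW P _ * (BN.sW P _)⁻¹ * (BN.sW P _)⁻¹ = 1
    rwa [inv_eq_of_mul_eq_one_right (BN.sW_mul_self P _), inv_eq_of_mul_eq_one_right (BN.sW_mul_self P _)]
  obtain ⟨t, n, e, ok, he⟩ := classify _ h.diag h.symm (fun _ _ => h.fh) hc
    (posdef (BN.exch P) (fun _ _ => rfl) (fun _ _ => h.fh) hc) (by rwa [← Nat.card_eq_fintype_card])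
  have h' := h.reindex e
  simp only [he] at h'
  cases t
  exacts [main_sl (.inl rfl) ok h', main_B ok h', main_sl (.inr (.inl rfl)) ok h', main_sl (.inr (.inr rfl)) ok h', by
    obtain rfl : n = 4 := ok
    exact main_F h']

end CL.TB
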